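import Cfsg.Agent.H25.El23
import Cfsg.Agent.H12.EA6

/-! Elusive actions, XXIV: field extension subgroups of `SL`. -/

set_option autoImplicit false

namespace H25.El

open Module Polynomial Function H22 H27.Sp H12 Pointwise

universe u

variable {F L : Type u} {K : Type*} [Field F] [Field L] [Field K] [Algebra F L] [Algebra F K] {V W X : Type u} [AddCommGroup V]
  [Module F V] [Module L V] [IsScalarTower F L V] [AddCommGroup W] [Module F W] [AddCommGroup X] [Module F X] {u : End F W}
  {v : End F X} {n r p a c N : ℕ} {z : F} {E : Multiset K} [Finite F]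

variable (L V) in
/-- similar to a semilinear map -/
def FE (u : End F W) : Prop := ∃ h ∈ semiStab F L V, Sim (h : End F V) u

theorem si_fe {ι : Type} [Fintype ι] [DecidableEq ι] [Module L (ι → F)] [IsScalarTower F L (ι → F)] :
    (SI ((semiStab F L (ι → F)).comap (glEquiv ι F : GL ι F →* _)) : End F W → Prop) = FE L (ι → F) :=
  funext fun _ => propext ⟨fun ⟨_, a, b⟩ => ⟨_, a, b⟩, fun ⟨h, a, b⟩ => by
    obtain ⟨g, rfl⟩ := (glEquiv ι F).surjective h; exact ⟨g, a, b⟩⟩

theorem FE.sim (h : FE L V u) (e : Sim u v) : FE L V v := let ⟨g, a, b⟩ := h; ⟨g, a, b.trans e⟩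

theorem FE.smul (u : End F W) (c : F) (hc : c ≠ 0) (h : FE L V (c • u)) : FE L V u := by
  obtain ⟨g, a, b⟩ := h
  refine ⟨.smulOfNeZero F V _ (inv_ne_zero hc) * g, mul_mem (mem_semiStab_of_linear fun a v => smul_comm _ _ _) a, ?_⟩
  have := sim_smul b c⁻¹
  rwa [smul_smul, inv_mul_cancel₀ hc, one_smul] at this

variable [FiniteDimensional F V] [FiniteDimensional F W] [FiniteDimensional F X]

theorem FE.res {g : End L V} (h : IsUnit g) : FE L V (EA.resE F g) := by
  obtain ⟨g, rfl⟩ := h
  exact ⟨_, H13.KL.res_mem_semiStab (LinearMap.GeneralLinearGroup.toLinearEquiv g), .refl _⟩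

theorem FE.rank [Fact r.Prime] (hk : (finrank F L).Prime) (h : FE L V u) (h1 : u ^ r = algebraMap F _ z) :
    finrank F L ∣ finrank F (V1 u) ∨ finrank F W ≤ 2 * finrank F (V1 u) := by
  obtain ⟨g, a, b⟩ := h
  have e := b.choose.finrank_eq
  cases subsingleton_or_nontrivial V
  · exact .inr (by rw [← e, finrank_zero_of_subsingleton]; simp)
  rw [← rank_sim b]
  rcases EA.semi_cases hk Fact.out a (sim_pow b h1) with ⟨g, e⟩ | h
  · exact .inl ⟨finrank L (V1 g), by rw [← EA.rk_res (g - 1), map_sub, e, map_one]⟩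
  · have := EA.ed_rk (g : End F V) 1
    have := h.2 1 one_ne_zero
    rw [map_one (algebraMap F _)] at *
    change _ ∨ _ ≤ 2 * finrank F (LinearMap.range _)
    omega

theorem exists_phi [FiniteDimensional F L] (h : finrank F V = finrank F L) (hk : finrank F L = n) (n1 : n ≠ 1) :
    ∃ φ : End F L, FE L V φ ∧ φ ^ n = 1 ∧ (∀ c, φ ≠ algebraMap F _ c) ∧ φ.charpoly = .X ^ n - 1 := by
  subst hk
  haveI := Fintype.ofFinite F
  haveI : Finite L := Module.finite_of_finite F
  haveI := Module.Finite.of_restrictScalars_finite F L V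
  let e : V ≃ₗ[L] L := .ofFinrankEq _ _ (Nat.eq_of_mul_eq_mul_left (finrank_pos (R := F) (M := L))
    (by simp [finrank_mul_finrank, h]))
  let τ := FiniteField.frobeniusAlgEquivOfAlgebraic F L
  have m := FiniteField.minpoly_frobeniusAlgHom F L
  refine ⟨(FiniteField.frobeniusAlgHom F L).toLinearMap, ⟨e.restrictScalars F ≪≫ₗ τ.toLinearEquiv ≪≫ₗ e.symm.restrictScalars F,
    ⟨fun a => ⟨τ a, fun v => by simp [← e.symm.map_smul]⟩, fun a => ⟨τ.symm a, fun v => by simp [← e.symm.map_smul]⟩⟩,
    e.restrictScalars F, fun x => by simp [τ]⟩, ?_, fun c e => n1 ?_, ?_⟩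
  · have := minpoly.aeval F (FiniteField.frobeniusAlgHom F L).toLinearMap
    rw [m] at this
    simpa [sub_eq_zero] using this
  · obtain rfl : c = 1 := (algebraMap F L).injective (by
      simpa [Algebra.algebraMap_eq_smul_one] using (LinearMap.congr_fun e 1).symm)
    rw [← FiniteField.orderOf_frobeniusAlgHom, orderOf_eq_one_iff]
    exact AlgHom.ext fun x => by simpa using LinearMap.congr_fun e x
  · exact (eq_of_monic_of_dvd_of_natDegree_le (monic_X_pow_sub_C 1 finrank_pos.ne') (LinearMap.charpoly_monic _)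
      (m ▸ LinearMap.minpoly_dvd_charpoly _) (by rw [LinearMap.charpoly_natDegree, ← C_1, natDegree_X_pow_sub_C]))

theorem rank_one (h : finrank F W = 2) (h1 : u ^ 2 = 1) (h2 : ∀ c, u ≠ algebraMap F _ c) : finrank F (V1 u) = 1 := by
  have a : finrank F (V1 u) ≠ 0 := fun e => h2 1 (by
    simpa [sub_eq_zero] using LinearMap.range_eq_bot.1 (Submodule.finrank_eq_zero.1 e))
  have b : finrank F (V1 u) ≠ finrank F W := fun e => h2 (-1) (LinearMap.ext fun x => by
    simpa using inv_V1 h1 (Submodule.eq_top_of_finrank_eq e ▸ Submodule.mem_top (x := x)))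
  have := (V1 u).finrank_le
  omega

variable [Algebra.IsAlgebraic F K] [IsAlgClosed K]

theorem exists_rank (h2 : (2 : F) ≠ 0) (h : a ≤ finrank F W) : ∃ u : End F W, u ^ 2 = 1 ∧ finrank F (V1 u) = a := by
  have k : ∀ x ∈ Multiset.replicate (finrank F W - a) (1 : AlgebraicClosure F) + .replicate a (-1), x ^ 2 = 1 := by
    simp +contextual [or_imp, Multiset.mem_replicate]
  obtain ⟨u, b⟩ := exists_of_ev (V := W) (fr_st (F := F) (r := 2) (by have := card_odd h2; omega) k) (by simp [h])
  have c := b.cnt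
  have := dim01 u
  have : (-1 : AlgebraicClosure F) ≠ 1 := fun e => castK (r := 2) _ h2 (by push_cast; linear_combination -e)
  simp [Multiset.count_replicate, this] at c
  exact ⟨u, (b.pow_one_iff two_ne_zero).2 k, by omega⟩

variable [Fact r.Prime]

theorem ev_rt (hr : (r : F) ≠ 0) (h : u ^ r = 1) (h1 : u.charpoly = .X ^ r - 1) : EV u (rt r (1 : K)) := by
  obtain ⟨E, a, -⟩ := exists_ev_pow (K := K) hr one_ne_zero (h.trans (map_one _).symm)
  have := congrArg roots (JD.charpoly a)
  simp only [Multiset.map_map, Function.comp, pow_one, roots_multiset_prod_X_sub_C, h1] at this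
  simpa [← this, rt, nthRoots] using a

omit [Finite F] in
theorem eq_rt (h : E.Nodup) (h1 : ∀ x ∈ E, x ^ r = 1) (h2 : E.card = r) : E = rt r 1 :=
  Multiset.eq_of_le_of_card_le ((Multiset.le_iff_subset h).2 fun x hx => mem_rt.2 (h1 x hx)) (by rw [rt_card, h2])

theorem pf_full (hc : c + 1 = r) (h : Pf (fr F) 1 c E a N) (h1 : ∀ x ∈ E, x ^ r = 1) :
    E + .replicate N 1 = .replicate a 1 + N • rt r 1 := by
  obtain ⟨E, rfl, b, d⟩ := h.core fr_inj fr_one
  obtain ⟨t, e, f⟩ := exists_orbs fr_inj E b.st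
  have c0 : 0 < c := by have := (Fact.out : r.Prime).two_le; omega
  have g : ∀ x ∈ t, orb (fr F) (minimalPeriod (fr F) x) x + {1} = rt r 1 := fun x hx => by
    have i : ∀ y ∈ orb (fr F) (minimalPeriod (fr F) x) x, y ∈ E := fun y hy => f ▸ Multiset.mem_bind.2 ⟨x, hx, hy⟩
    exact eq_rt (Multiset.nodup_add.2 ⟨nodup_orb x, by simp, by simpa using fun h => d 1 (i 1 h) rfl⟩)
      (by simpa [or_imp, forall_and] using fun y hy => h1 y (by simp [i y hy]))
      (by simp [card_orb, b.per x (e x hx) (d x (e x hx)), hc])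
  obtain rfl : t.card = N := Nat.eq_of_mul_eq_mul_left c0 (by
    have := b.card
    rw [f, Multiset.card_bind, Multiset.map_congr rfl (g := fun _ => c) fun x hx => by
      simp [card_orb, b.per x (e x hx) (d x (e x hx))]] at this
    simpa [mul_comm] using this)
  have := Multiset.bind_congr g
  rw [Multiset.bind_add, ← f] at this
  simpa [add_assoc, Multiset.bind, Multiset.join, Multiset.nsmul_singleton] using this

theorem ev_full (hr : (r : F) ≠ 0) (r2 : r ≠ 2) (hn : finrank F W = r) (hc : orderOf (Nat.card F : ZMod r) + 1 = r) (a : EV u E)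
    (b : ∀ x ∈ E, x ^ r = 1) (c : ∀ c, u ≠ algebraMap F _ c) : E = rt r 1 := by
  obtain ⟨k, N, f⟩ := pf_fr a.st b
  have := (Fact.out : r.Prime).two_le
  have e := f.card
  rw [← a.dim, hn] at e
  obtain rfl : N = 1 := by
    rcases N with - | - | N
    · exact absurd ((a.scalar_iff 1).2 (by simp +contextual [f.eq_repl fr_inj fr_one, Multiset.mem_replicate])) (c 1)
    · rfl
    · rw [mul_add, mul_add] at e; omega
  obtain rfl : k = 1 := by omega
  have := pf_full hc f b
  rwa [one_nsmul, add_comm, add_right_inj] at this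

local notation "𝕂" => AlgebraicClosure F

theorem Lhs.tv [CharP F r] {P : End F W → Prop} (H : Lhs (SLp F W) r P) (h : 2 ≤ finrank F W) :
    ∃ u, u ^ r = 1 ∧ finrank F (V1 u) = 1 ∧ P u := by
  have e : ∀ j ∈ 2 ::ₘ .replicate (finrank F W - 2) 1, 0 < j ∧ j ≤ r := by
    have := (Fact.out : r.Prime).two_le
    simp +contextual [or_imp, Multiset.mem_replicate]; omega
  obtain ⟨u, a⟩ := exists_un (F := F) (K := 𝕂) (V := W) (fun j h => (e j h).1) (by simp [h])
  refine ⟨u, by simpa using un_char (j := 1) a (by simpa using fun j h => (e j h).2), ?_,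
    H.un a (un_det a) (fun j h => (e j h).2) ⟨2, by simp, by simp⟩⟩
  have := un_ker a 1
  have := dim01 u
  rw [pow_one] at *
  simp [V0] at *
  omega

omit [Fact r.Prime] in
theorem fe_two [Fact p.Prime] [CharP F p] (hk : finrank F L = 2) (hn : finrank F V = n) (n2 : 2 ≤ n) :
    Lhs (SLp F V) 2 (FE L V) ↔ n = 2 ∨ Odd (Nat.card F) ∧ padicValNat 2 (Nat.card F - 1) ≤ padicValNat 2 n := by
  haveI : FiniteDimensional F L := .of_finrank_pos (by omega)
  haveI : Finite L := Module.finite_of_finite F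
  haveI := Module.Finite.of_restrictScalars_finite F L V
  have k1 : ∀ u : End F V, u ^ 2 = 1 → finrank F (V1 u) = 1 → FE L V u → n = 2 := fun u a b c => by
    have := c.rank (r := 2) (z := 1) (hk ▸ Nat.prime_two) (by simpa)
    rw [hk, b, hn] at this
    omega
  have k2 : n = 2 → ∀ u : End F V, u ^ 2 = 1 → (∀ c, u ≠ algebraMap F _ c) → FE L V u := fun e u a b => by
    obtain ⟨φ, c, d, f, -⟩ := exists_phi (V := V) (by omega) hk (by simp)
    exact c.sim (sim_two d a (by omega) (by rw [rank_one hk d f, rank_one (hn.trans e) a b]))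
  rcases eq_or_ne p 2 with rfl | e
  · have : ¬ Odd (Nat.card F) := fun o => by
      haveI := Fintype.ofFinite F
      exact absurd CharTwo.two_eq_zero (odd_card_iff.1 (Nat.card_eq_fintype_card (α := F) ▸ o))
    simp only [this, false_and, or_false]
    refine ⟨fun H => let ⟨u, a, b, c⟩ := H.tv (hn ▸ n2); k1 u a b c, fun e => lhs_char FE.smul fun u a b => k2 e u a fun c f => ?_⟩
    haveI := nontrivial_of_finrank_pos (R := F) (M := V) (by omega)
    obtain rfl := hn_p (p := 2) c ((algebraMap F (End F V)).injective (by rw [map_pow, ← f, a, map_one]))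
    exact b (f.trans (map_one _))
  have h2 : (2 : F) ≠ 0 := by simpa using cast_ne (F := F) (r := 2) e.symm
  have o := card_odd h2
  have h2' : (2 : L) ≠ 0 := castK (r := 2) L h2
  simp only [Nat.odd_iff, o, true_and]
  refine ⟨fun H => or_iff_not_imp_right.2 fun l => let ⟨u, a, b, c⟩ := H.refl FE.smul hn n2 (not_le.1 l); k1 u a b c,
    fun H => lhs_two_odd 𝕂 h2 hn FE.smul (fun u a b c => H.elim (k2 · u a b) fun l => ?_) fun u z N a b c d _ => ?_⟩
  · obtain ⟨m, hm⟩ := (c l).two_dvd
    have := finrank_mul_finrank F L V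
    obtain ⟨g, d, e⟩ := exists_rank (W := V) (a := m) h2' (by have := (V1 u).finrank_le; rw [hk] at *; omega)
    refine (FE.res (unit_of_pow d)).sim (sim_two (by rw [← map_pow, d, map_one]) a rfl ?_)
    rw [hm, ← e, ← hk, ← EA.rk_res (g - 1), map_sub, map_one]
  · obtain ⟨w, -, hw⟩ := exists_pow_of (r := 2) dvd_rfl (pow_card_sub ((_root_.map_ne_zero (algebraMap F L)).2 a))
      (.inr (sq_two (by rw [Module.natCard_eq_pow_finrank (K := F), hk]) h2' a))
    refine (FE.res (g := algebraMap L _ w) ((IsUnit.mk0 w (ne0 hw (by simpa))).map _)).sim (sim_nl (r := 2) h2 a (by omega) b c ?_ rfl)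
    rw [← map_pow, ← map_pow, hw]; ext x; exact algebraMap_smul L z x

theorem fe_not (hk : finrank F L = r) (hn : finrank F V = r) (H : Lhs (SLp F V) r (FE L V)) {E : Multiset 𝕂}
    (h1 : (.replicate a 1 + E : Multiset 𝕂).map (fr F) = .replicate a 1 + E) (h2 : r = a + E.card)
    (h3 : ∀ x ∈ E, x ^ r = 1 ∧ x ≠ 1) (h4 : E ≠ 0) (h5 : 1 < padicValNat r (Nat.card F - 1) ∨ E.prod = 1) : a ≤ E.card := by
  classical
  obtain ⟨x, hx⟩ := Multiset.exists_mem_of_ne_zero h4
  have := Multiset.card_pos.2 h4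
  rcases a.eq_zero_or_pos with rfl | a0
  · simp
  obtain ⟨u, b, c, d⟩ := H.test FE.smul h1 (by simp [hn, ← h2]) (by simpa +contextual [or_imp, Multiset.mem_replicate] using
    fun x h => (h3 x h).1) (fun c => (eq_or_ne 1 (algebraMap F _ c)).elim (fun e => ⟨x, by simp [hx], e ▸ (h3 x hx).2⟩)
      fun e => ⟨1, by simp [Multiset.mem_replicate, a0.ne'], e⟩) (by simpa [← h2] using h5)
  have e := b.cnt
  rw [Multiset.count_add, Multiset.count_eq_zero.2 fun h => (h3 1 h).2 rfl, Multiset.count_replicate_self] at e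
  have := dim01 u
  rcases d.rank (z := 1) (hk ▸ Fact.out) (by simpa using c) with f | f
  · have := Nat.le_of_dvd (by omega) f; omega
  · omega

theorem fe_pos (hk : finrank F L = r) (hn : finrank F V = r) (hr : (r : F) ≠ 0) (r2 : r ≠ 2)
    (h : ∀ (u : End F V) (E : Multiset 𝕂), EV u E → (∀ x ∈ E, x ^ r = 1) → (∀ c, u ≠ algebraMap F _ c) →
      (padicValNat r (Nat.card F - 1) ≤ 1 → E.prod = 1) → E = rt r 1) : Lhs (SLp F V) r (FE L V) := by
  have hp : r.Prime := Fact.out
  haveI : FiniteDimensional F L := .of_finrank_pos (hk ▸ hp.pos)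
  obtain ⟨φ, a, b, -, d⟩ := exists_phi (V := V) (hn.trans hk.symm) hk hp.ne_one
  refine Lhs.of_sl' (K := 𝕂) hr hn FE.smul (fun u E e f g i => a.sim ((ev_rt hr b d).sim (h u E e f g (by simpa using i) ▸ e)))
    fun u z N a b c _ e f => ?_
  obtain rfl : N = 1 := by nlinarith [hp.pos]
  rw [(hp.odd_of_ne_two r2).add_one.neg_one_pow, one_mul, pow_one] at f
  simp [f] at c

theorem fe_prime (hk : finrank F L = r) (hn : finrank F V = r) (hr : (r : F) ≠ 0) (r3 : 3 < r) :
    Lhs (SLp F V) r (FE L V) ↔ orderOf (Nat.card F : ZMod r) = r - 1 := by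
  have hp : r.Prime := Fact.out
  refine ⟨fun H => ?_, fun h => fe_pos hk hn hr (by omega) fun u E a b c _ => ev_full hr (by omega) hn (by omega) a b c⟩
  obtain ⟨ζ, a1, a2⟩ := exists_prim_root (castK 𝕂 hr)
  have c0 := ord_pos hr
  obtain ⟨j, hj⟩ := ZMod.orderOf_dvd_card_sub_one (a := (Nat.card F : ZMod r)) fun e => by
    simp [e] at c0
  by_cases o : orderOf (Nat.card F : ZMod r) = 1
  · have : r ≠ 4 := by rintro rfl; exact absurd hp (by decide)
    have := fe_not hk hn H (a := r - 2) (E := {ζ, ζ⁻¹}) (fr_st (ord_one_iff'.1 o) (by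
      simp +contextual [or_imp, Multiset.mem_replicate, a1])) (by simp; omega) (by simp [a1, a2]) (by simp)
      (.inr (by simp [ne0 a1 one_ne_zero]))
    simp at this; omega
  have f := pf_std_fr hr a1 a2 (r - orderOf (Nat.card F : ZMod r)) 1
  obtain ⟨E, e, g, g'⟩ := f.core fr_inj fr_one
  have b : ∀ x ∈ E, x ^ r = 1 := fun x h => std_pow a1 x (e ▸ Multiset.mem_add.2 (.inr h))
  have c := g.card
  have := Nat.le_of_dvd (by omega) (Dvd.intro _ hj.symm)
  have := fe_not hk hn H (e ▸ f.st) (by omega) (fun x h => ⟨b x h, g' x h⟩) (by rintro rfl; simp at c; omega)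
    (.inr (prod_eq_one (fr_eq_zpow (F := F) (K := 𝕂) ▸ g.st) b (mt ord_one_iff.2 (by rwa [ord_cast]))))
  rcases j with - | - | j
  · omega
  · omega
  · rw [mul_add, mul_add] at hj; omega

omit [Fact r.Prime] in
theorem fe_three [Fact p.Prime] [CharP F p] [Module L (Fin 3 → F)] [IsScalarTower F L (Fin 3 → F)] (hk : finrank F L = 3)
    (h : 3 ∣ ((semiStab F L (Fin 3 → F)).comap (glEquiv (Fin 3) F : GL (Fin 3) F →* _)).relIndex (Cfsg.Geo.specialLinear _ F)) :
    (Lhs (SLp F (Fin 3 → F)) 3 (FE L (Fin 3 → F)) ↔ Nat.card F % 9 = 4 ∨ Nat.card F % 9 = 7 ∨ Nat.card F % 9 = 8) ∧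
      (p = 3 → 3 ∣ Nat.card F) := by
  haveI := Fact.mk Nat.prime_three
  haveI : FiniteDimensional F L := .of_finrank_pos (by omega)
  have p3 : p = 3 → 3 ∣ Nat.card F := by
    rintro rfl
    haveI := Fintype.ofFinite F
    obtain ⟨k, -, b⟩ := FiniteField.card F 3
    rw [Nat.card_eq_fintype_card, b]; exact dvd_pow_self 3 k.ne_zero
  refine ⟨?_, p3⟩
  rcases eq_or_ne 3 p with rfl | e
  · refine iff_of_false (fun H => ?_) (by have := p3 rfl; omega)
    obtain ⟨u, a, b, c⟩ := H.tv (by simp)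
    simpa [hk, b] using c.rank (r := 3) (z := 1) (hk ▸ Nat.prime_three) (by simpa)
  have hr := cast_ne (F := F) e
  have q0 := card_sub_ne F
  by_cases o : orderOf (Nat.card F : ZMod 3) = 1
  · have d := ord_one_iff'.1 o
    have v := padicValNat_dvd_iff_le (p := 3) (n := 2) q0
    rcases lt_or_ge 1 (padicValNat 3 (Nat.card F - 1)) with l | l
    · refine iff_of_false (fun H => ?_) (by have := v.2 l; omega)
      obtain ⟨ζ, a1, a2⟩ := exists_prim_root (castK 𝕂 hr)
      simpa using fe_not hk (by simp) H (a := 2) (E := {ζ}) (fr_st d (by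
        simp +contextual [or_imp, Multiset.mem_replicate, a1])) (by simp) (by simp [a1, a2]) (by simp) (.inl l)
    refine iff_of_true (fe_pos hk (by simp) hr (by simp) fun u E a b c f => ?_) (by have := mt v.1 (by omega); omega)
    obtain ⟨x, y, w, rfl⟩ := Multiset.card_eq_three.1 (show E.card = 3 by simpa using a.dim.symm)
    refine eq_rt ?_ b rfl
    obtain ⟨t, rfl⟩ := exists_alg_of_fr (F := F) (a := x) (by simpa using fr_st d (E := {x}) (by simpa using b x (by simp)))
    have c := mt (a.scalar_iff t).2 (c t)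
    have f := f l
    simp at b c f ⊢
    grind
  · have c2 : orderOf (Nat.card F : ZMod 3) = 2 := by
      have c0 := ord_pos hr
      exact ((Nat.dvd_prime Nat.prime_two).1 (ZMod.orderOf_dvd_card_sub_one (a := (Nat.card F : ZMod 3)) fun e => by
        simp [e] at c0)).resolve_left o
    refine iff_of_true (fe_pos hk (by simp) hr (by simp) fun u E a b c _ => ev_full hr (by simp) (by simp) (by omega) a b c) ?_
    obtain ⟨φ, a, b, c, d⟩ := exists_phi (V := Fin 3 → F) (by simp [hk]) hk (by simp)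
    rw [← si_fe] at a
    obtain ⟨g, a, f⟩ := a
    have g3 : orderOf g = 3 := orderOf_eq_prime (glE_injective (by simpa using sim_pow (z := 1) f (by simpa using b)))
      (by rintro rfl; exact c 1 (by simpa using sim_pow (r := 1) (z := 1) f.symm (by simp)))
    have := idx_dvd (M := 1) (Subgroup.zpowers_le.2 a) (by
      rintro _ ⟨j, rfl⟩
      exact (pow_one _).trans (root_one (mt ord_one_iff'.2 o) (by
        rw [← Matrix.det_pow, ← Units.val_pow_eq_pow_val, ← zpow_natCast, ← zpow_mul, mul_comm, zpow_mul, zpow_natCast,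
          orderOf_dvd_iff_pow_eq_one.1 g3.dvd]; simp))) h
    obtain ⟨N, i⟩ := card_gl_n (F := F) (n := 3)
    rw [Nat.card_zpowers, g3, i, one_mul, ← mul_assoc] at this
    have d : ¬ 3 ∣ Nat.card F := fun d => by
      simp [(ZMod.natCast_eq_zero_iff _ 3).2 d] at c2
    have := (ZMod.natCast_eq_zero_iff _ 9).2 ((((Nat.prime_three.coprime_iff_not_dvd.2 d).pow 2 N)).dvd_of_dvd_mul_left
      ((Dvd.intro _ rfl).trans this))
    have k : ∀ x : ZMod 9, (x - 1) * (x ^ 2 - 1) * (x ^ 3 - 1) = 0 → x.val % 3 = 2 → x.val = 8 := by decide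
    have q1 : 0 < Nat.card F := Nat.card_pos
    have := k (Nat.card F) (by simpa [Finset.prod_range_succ, Nat.cast_sub (Nat.one_le_pow _ _ q1), Nat.cast_sub q1] using this)
    have := mt ord_one_iff'.2 o
    rw [ZMod.val_natCast] at *
    omega

end H25.El
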