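import Cfsg.Agent.H25.El3

/-! Elusive actions, IV: unipotent data; subspace actions of linear groups. -/

set_option autoImplicit false

namespace H25.El

open Module Polynomial Function H22 H27.Sp H12 Pointwise

variable {F K : Type*} [Field F] [Field K] [Algebra F K] {V W : Type*} [AddCommGroup V] [Module F V]
  [AddCommGroup W] [Module F W] {u : End F V} {E : Multiset K} {r p : ℕ} {μ ν : Multiset ℕ}

/-- unipotent Jordan data -/
def UN (K : Type*) [One K] (μ : Multiset ℕ) : Multiset (K × ℕ) := μ.map (1, ·)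

@[simp] theorem dimD_UN : dimD (UN K μ) = μ.sum := by simp [UN, dimD]
@[simp] theorem detD_UN : detD (UN K μ) = 1 := by simp [UN, detD]
theorem UN_add : UN K (μ + ν) = UN K μ + UN K ν := Multiset.map_add _ _ _
theorem mem_UN {x : K × ℕ} : x ∈ UN K μ ↔ x.1 = 1 ∧ x.2 ∈ μ := by
  simp only [UN, Multiset.mem_map]
  exact ⟨by rintro ⟨a, h, rfl⟩; exact ⟨rfl, h⟩, fun h => ⟨_, h.2, Prod.ext h.1.symm rfl⟩⟩
theorem UN_st {φ : K → K} (h : φ 1 = 1) : (UN K μ).map (pm φ) = UN K μ := by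
  simp only [UN, Multiset.map_map]; exact Multiset.map_congr rfl fun _ _ => Prod.ext h rfl
theorem UN_fr : (UN K μ).map (pm (fr F)) = UN K μ := UN_st (one_pow _)
theorem UN_inj : Injective (UN K) := Multiset.map_injective fun _ _ h => (Prod.ext_iff.1 h).2
theorem exists_UN {D : Multiset (K × ℕ)} (h : ∀ x ∈ D, x.1 = 1) : ∃ μ, D = UN K μ :=
  ⟨D.map Prod.snd, by
    rw [UN, Multiset.map_map]
    exact (Multiset.map_id _).symm.trans (Multiset.map_congr rfl fun x hx => Prod.ext (h x hx) rfl)⟩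
theorem UN_split {D D' : Multiset (K × ℕ)} (h : UN K μ = D + D') : ∃ ν ν', μ = ν + ν' ∧ D = UN K ν ∧ D' = UN K ν' := by
  obtain ⟨ν, rfl⟩ := exists_UN (D := D) fun x hx => (mem_UN.1 (h ▸ Multiset.mem_add.2 (.inl hx))).1
  obtain ⟨ν', rfl⟩ := exists_UN (D := D') fun x hx => (mem_UN.1 (h ▸ Multiset.mem_add.2 (.inr hx))).1
  exact ⟨ν, ν', UN_inj (h.trans UN_add.symm), rfl, rfl⟩

theorem part_two (h : ∀ k ∈ μ, 0 < k ∧ k ≤ 2) : ∃ a b, μ = .replicate a 1 + .replicate b 2 := by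
  refine ⟨μ.count 1, μ.count 2, Multiset.ext.2 fun k => ?_⟩
  simp only [Multiset.count_add, Multiset.count_replicate]
  by_cases h1 : 1 = k
  · subst h1; simp
  by_cases h2 : 2 = k
  · subst h2; simp
  simp only [h1, h2, if_false, add_zero, Multiset.count_eq_zero]
  exact fun hk => by have := h k hk; omega

theorem part_two_iff {n m : ℕ} (hm : m ≤ n) : (∀ μ : Multiset ℕ, (∀ a ∈ μ, 0 < a ∧ a ≤ 2) → μ.sum = n →
    ∃ ν : Multiset ℕ, ν ≤ μ ∧ ν.sum = m) ↔ Odd n ∨ Even m := by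
  refine ⟨fun h => by_contra fun H => ?_, fun h μ h1 h2 => ?_⟩
  · simp only [not_or, Nat.not_odd_iff_even, Nat.not_even_iff_odd] at H
    obtain ⟨⟨k, rfl⟩, ⟨l, rfl⟩⟩ := H
    obtain ⟨ν, h1, h2⟩ := h (.replicate k 2) (fun a ha => by rw [Multiset.eq_of_mem_replicate ha]; omega)
      (by simp; omega)
    obtain ⟨j, -, rfl⟩ := Multiset.le_replicate_iff.1 h1
    simp at h2; omega
  · obtain ⟨a, b, rfl⟩ := part_two h1
    obtain ⟨a₁, h3, b₁, h4, rfl⟩ := sub_exists (a := a) (N := b) (c := 2) (n := n) (m := m)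
      (by simp at h2; omega) hm (by rw [Nat.odd_iff, Nat.even_iff] at h; omega)
    exact ⟨.replicate a₁ 1 + .replicate b₁ 2, add_le_add ((Multiset.replicate_le_replicate _).2 h3)
      ((Multiset.replicate_le_replicate _).2 h4), by simp; ring⟩

theorem sub_ones {n m : ℕ} (hm : m ≤ n) (h : ∀ k ∈ μ, k = 1) (h' : μ.sum = n) : ∃ ν, ν ≤ μ ∧ ν.sum = m := by
  obtain ⟨a, rfl⟩ : ∃ a, μ = .replicate a 1 := ⟨_, Multiset.eq_replicate_card.2 h⟩
  exact ⟨.replicate m 1, (Multiset.replicate_le_replicate _).2 (by simp at h'; omega), by simp⟩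

variable [FiniteDimensional F V] [FiniteDimensional F W] [Finite F]

theorem finite_sub : Finite (Submodule F V) :=
  haveI : Finite V := Module.finite_of_finite F; Finite.of_injective _ SetLike.coe_injective

variable [Algebra.IsAlgebraic F K]

theorem un_pow (h : JD u (UN K μ)) (j : ℕ) : (u - 1) ^ j = 0 ↔ ∀ k ∈ μ, k ≤ j := by
  have := h.sub_pow 1 j
  rw [map_one, map_one] at this
  rw [this]
  exact ⟨fun H k hk => (H (1, k) (mem_UN.2 ⟨rfl, hk⟩)).2, fun H x hx => ⟨(mem_UN.1 hx).1, H _ (mem_UN.1 hx).2⟩⟩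

theorem un_det (h : JD u (UN K μ)) : LinearMap.det u = 1 := (algebraMap F K).injective (by simpa using h.det)

theorem un_scalar (h : JD u (UN K μ)) {c : F} (e : u = algebraMap F _ c) : ∀ k ∈ μ, k = 1 := fun k hk =>
  le_antisymm ((h.sub_pow c 1).1 (by simp [e]) (1, k) (mem_UN.2 ⟨rfl, hk⟩)).2 (h.pos (1, k) (mem_UN.2 ⟨rfl, hk⟩))

theorem un_ker (h : JD u (UN K μ)) (j : ℕ) : finrank F (LinearMap.ker ((u - 1) ^ j)) = (μ.map (min j)).sum := by
  classical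
  have := h.kd ((X - C 1) ^ j) (pow_ne_zero _ (X_sub_C_ne_zero 1))
  rw [kd, show aeval u ((X - C 1 : F[X]) ^ j) = (u - 1) ^ j by simp] at this
  rw [this, UN, Multiset.map_map]
  exact congrArg _ (Multiset.map_congr rfl fun k _ => by
    rw [Function.comp, mu_sub_pow, if_pos (map_one _).symm, min_comm])

theorem un_char [Fact p.Prime] [CharP F p] (h : JD u (UN K μ)) {j : ℕ} (h1 : ∀ k ∈ μ, k ≤ p ^ j) : u ^ p ^ j = 1 := by
  rw [← sub_eq_zero, ← sub_one_pow_char F]; exact (un_pow h _).2 h1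

theorem exists_un (h : ∀ k ∈ μ, 0 < k) (hd : finrank F V = μ.sum) : ∃ u : End F V, JD u (UN K μ) :=
  exists_of_jd UN_fr (fun x hx => h _ (mem_UN.1 hx).2) (by simpa)

theorem un_unit (h : JD u (UN K μ)) : IsUnit u := h.isUnit fun x hx => by simp [(mem_UN.1 hx).1]

theorem reg_ker {n : ℕ} (h : JD u (UN K {n})) {A : Submodule F V} (i : ∀ x ∈ A, u x ∈ A) :
    A = LinearMap.ker ((u - 1) ^ finrank F A) :=
  eq_ker_of_reg ((un_pow h n).2 (by simp)) (by have := un_ker h 1; rw [pow_one] at this; simp [this])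
    fun v hv => A.sub_mem (i v hv) hv

omit [FiniteDimensional F V] [Finite F] in
theorem ker_inv (u : End F V) (j : ℕ) : ∀ x ∈ LinearMap.ker ((u - 1) ^ j), u x ∈ LinearMap.ker ((u - 1) ^ j) :=
  fun x hx => by
    have : (u - 1) ^ j * u = u * (u - 1) ^ j := (((Commute.refl u).sub_right (Commute.one_right u)).pow_right j).symm
    rw [LinearMap.mem_ker, ← Module.End.mul_apply, this, Module.End.mul_apply, hx, map_zero]

theorem reg_dim {n : ℕ} (h : JD u (UN K {n})) {m : ℕ} (hm : m ≤ n) :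
    finrank F (LinearMap.ker ((u - 1) ^ m)) = m := by rw [un_ker h]; simp [hm]

theorem reg_iff {n : ℕ} (h : JD u (UN K {n})) {m : ℕ} (hm : m ≤ n) {A : Submodule F V} :
    finrank F A = m ∧ (∀ x ∈ A, u x ∈ A) ↔ A = LinearMap.ker ((u - 1) ^ m) :=
  ⟨fun ⟨h1, h2⟩ => h1 ▸ reg_ker h h2, by rintro rfl; exact ⟨reg_dim h hm, ker_inv u m⟩⟩

theorem reg_not_dvd [Fact p.Prime] [CharP F p] {S : Type*} [MulAction (V ≃ₗ[F] V) S] (P : S → Prop)
    [Finite {s // P s}] {x : V ≃ₗ[F] V} (h : JD (x : End F V) (UN K μ)) (hP : ∀ s, P s → P (x • s)) (s₀ : S)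
    (h1 : ∀ s, P s ∧ x • s = s ↔ s = s₀) : ¬ p ∣ Nat.card {s // P s} :=
  not_dvd_of_uniq P (x • ·) hP (k := μ.sum) (fun s _ => by
    rw [smul_iterate, show x ^ p ^ μ.sum = 1 from LinearEquiv.toLinearMap_injective ((coe_pow' x _).trans
      (un_char h fun k hk => (Multiset.single_le_sum (by simp) k hk).trans
        (Nat.lt_pow_self (Fact.out : p.Prime).one_lt).le))]
    exact one_smul _ _) s₀ h1

variable [IsAlgClosed K]

theorem exists_un_of_pow [Fact p.Prime] [CharP F p] (h : u ^ p = 1) :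
    ∃ μ : Multiset ℕ, JD u (UN K μ) ∧ ∀ k ∈ μ, 0 < k ∧ k ≤ p := by
  obtain ⟨D, hD⟩ := exists_jd (K := K) u
  have := (hD.sub_pow 1 p).1 (by have := sub_one_pow_char F p u 1; simp_all)
  obtain ⟨μ, rfl⟩ := exists_UN (D := D) fun x hx => by simpa using (this x hx).1
  exact ⟨μ, hD, fun k hk => ⟨hD.pos (1, k) (mem_UN.2 ⟨rfl, hk⟩), (this (1, k) (mem_UN.2 ⟨rfl, hk⟩)).2⟩⟩

theorem un_split_iff (h : JD u (UN K μ)) (m : ℕ) : (∃ U U' : Submodule F V, IsCompl U U' ∧ finrank F U = m ∧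
    (∀ x ∈ U, u x ∈ U) ∧ ∀ x ∈ U', u x ∈ U') ↔ ∃ ν, ν ≤ μ ∧ ν.sum = m := by
  constructor
  · rintro ⟨U, U', c, rfl, i, i'⟩
    obtain ⟨D, h1⟩ := exists_jd (K := K) (u.restrict i)
    obtain ⟨D', h2⟩ := exists_jd (K := K) (u.restrict i')
    obtain ⟨ν, ν', rfl, rfl, rfl⟩ := UN_split (jd_of_compl c h h1 h2)
    exact ⟨ν, Multiset.le_add_right _ _, by simpa using h1.dim.symm⟩
  · rintro ⟨ν, h1, rfl⟩
    obtain ⟨ν', rfl⟩ := Multiset.le_iff_exists_add.1 h1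
    obtain ⟨U, U', i, i', c, h2, -⟩ := jd_split (D₁ := UN K ν) (D₂ := UN K ν') (UN_add (K := K) ▸ h) UN_fr
    exact ⟨U, U', c, by simpa using h2.dim, i, i'⟩

omit [Algebra.IsAlgebraic F K] [IsAlgClosed K] [FiniteDimensional F V] [Finite F] in
theorem smul_pow_one {w : F} (hw : w ≠ 0) (h : u ^ r = algebraMap F _ (w ^ r)) : (w⁻¹ • u) ^ r = 1 := by
  rw [_root_.smul_pow, h, Algebra.algebraMap_eq_smul_one, smul_smul, ← mul_pow, inv_mul_cancel₀ hw, one_pow, one_smul]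

omit [FiniteDimensional F V] [Finite F] in
theorem scal_ne [Fact r.Prime] {G : End F V → Prop} (hG : ∀ u, G u → IsUnit u) {c : F} (h : G u)
    (h1 : u ^ r = algebraMap F _ c) (h2 : ∀ c, u ≠ algebraMap F _ c) : c ≠ 0 := by
  rintro rfl
  haveI : Nontrivial (End F V) := ⟨u, _, h2 0⟩
  exact ((hG u h).pow r).ne_zero (by simpa using h1)

omit [Finite F] in
theorem det_unit (u : End F V) (h : LinearMap.det u = 1) : IsUnit u :=
  (LinearMap.isUnit_iff_isUnit_det u).2 (h ▸ isUnit_one)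

variable (K)

theorem Lhs.of_un [Fact p.Prime] [CharP F p] {G P : End F V → Prop} (hG : ∀ u, G u → IsUnit u)
    (h : ∀ u, G u → ∀ w : F, w ≠ 0 → u ^ p = algebraMap F _ (w ^ p) → ∀ μ, JD (w⁻¹ • u) (UN K μ) →
      (∀ k ∈ μ, 0 < k ∧ k ≤ p) → P u) : Lhs G p P := by
  rintro u h1 ⟨c, h2⟩ h3
  obtain ⟨w, rfl⟩ := surjective_frobenius F p c
  have w0 : w ≠ 0 := ne0 rfl (scal_ne hG h1 h2 h3)
  obtain ⟨μ, h4, h5⟩ := exists_un_of_pow (K := K) (smul_pow_one w0 h2)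
  exact h u h1 w w0 h2 μ h4 h5

theorem Lhs.of_sl [Fact r.Prime] (hr : (r : F) ≠ 0) {P : End F V → Prop}
    (hs : ∀ u (c : F), c ≠ 0 → P (c • u) → P u)
    (h1 : ∀ u (E : Multiset K), EV u E → (∀ a ∈ E, a ^ r = 1) → P u)
    (h2 : ∀ u (z : F) (N : ℕ), z ≠ 0 → r ∣ Nat.card F - 1 → z ^ ((Nat.card F - 1) / r) ≠ 1 →
      EV u (N • rt r (algebraMap F K z)) → finrank F V = r * N → ((-1) ^ (r + 1) * z) ^ N = 1 → P u) :
    Lhs (fun u => LinearMap.det u = 1) r P := by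
  rintro u a ⟨z, b⟩ c
  have z0 := scal_ne det_unit a b c
  rcases lift_or (K := K) (r := r) z0 with ⟨w, rfl⟩ | ⟨d1, d2, d3⟩
  · have w0 : w ≠ 0 := ne0 rfl z0
    obtain ⟨E, e1, e2⟩ := exists_ev_pow (K := K) hr one_ne_zero ((smul_pow_one w0 b).trans (map_one _).symm)
    exact hs u _ (inv_ne_zero w0) (h1 _ E e1 (by simpa using e2))
  · obtain ⟨E, e1, e2⟩ := exists_ev_pow (K := K) hr z0 b
    obtain ⟨N, rfl, e3⟩ := eq_smul_rt fr_inj fr_root d3 e1.st e2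
    refine h2 u z N z0 d1 d2 e1 (e1.dim.trans e3) ((algebraMap F K).injective ?_)
    have := e1.det
    rw [a, Multiset.prod_nsmul, rt_prod] at this
    simpa using this.symm

variable {K}

omit [IsAlgClosed K] in
theorem Lhs.ev [Fact r.Prime] {P : End F V → Prop} (h : Lhs (fun u => LinearMap.det u = 1) r P)
    (h1 : E.map (fr F) = E) (h2 : finrank F V = E.card) (h3 : E.prod = 1) {z : F}
    (h4 : ∀ a ∈ E, a ^ r = algebraMap F K z) (h5 : ∀ c, ∃ a ∈ E, a ≠ algebraMap F K c) : ∃ u, EV u E ∧ P u := by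
  obtain ⟨u, hu⟩ := exists_of_ev h1 h2
  refine ⟨u, hu, h u ((algebraMap F K).injective (by rw [hu.det, h3, map_one]))
    ⟨z, (hu.pow_iff (Fact.out : r.Prime).ne_zero z).2 h4⟩ fun c e => ?_⟩
  obtain ⟨a, ha, e'⟩ := h5 c
  exact e' ((hu.scalar_iff c).1 e a ha)

omit [IsAlgClosed K] in
theorem Lhs.un [Fact p.Prime] [CharP F p] {G P : End F V → Prop} (h : Lhs G p P) (h1 : JD u (UN K μ)) (hG : G u)
    (h2 : ∀ k ∈ μ, k ≤ p) (h3 : ∃ k ∈ μ, k ≠ 1) : P u :=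
  h u hG ⟨1, by simpa using un_char (p := p) (j := 1) h1 (by simpa)⟩ fun c e =>
    let ⟨k, hk, e'⟩ := h3; e' (un_scalar h1 e k hk)

/-- existence of non-liftable elements -/
def NLc (r M n : ℕ) : Prop := r ∣ n ∧ (padicValNat r M ≤ padicValNat r (n / r) ∨ r = 2 ∧ ¬ 4 ∣ M)

theorem nlc_iff [Fact r.Prime] {M n : ℕ} (hM : M ≠ 0) (h : r ∣ M) (hn : n ≠ 0) :
    ¬ NLc r M n ↔ padicValNat r n ≤ padicValNat r M ∧ (r = 2 → Even n → 4 ∣ M) := by
  by_cases h1 : r ∣ n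
  · have := val_div h1 hn
    simp only [NLc, h1, true_and, not_or, not_le, not_and, not_not]
    refine and_congr (by omega) (forall_congr' fun e => ?_)
    subst e
    simp [even_iff_two_dvd, h1]
  · simp only [NLc, h1, false_and, not_false_iff, true_iff, padicValNat.eq_zero_of_not_dvd h1]
    exact ⟨Nat.zero_le _, by rintro rfl h; exact absurd (even_iff_two_dvd.1 h) h1⟩

omit [Algebra.IsAlgebraic F K] [IsAlgClosed K] in
theorem nlc_of [Fact r.Prime] {M n N : ℕ} (hM : M ∣ Nat.card F - 1) (h : r ∣ M) (hn : n ≠ 0) (e : n = r * N) {z : F}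
    (h1 : z ^ M = 1) (h2 : z ^ (M / r) ≠ 1) (h3 : ((-1) ^ (r + 1) * z) ^ N = 1) : NLc r M n := by
  subst e
  refine ⟨dvd_mul_right _ _, ?_⟩
  rw [Nat.mul_div_cancel_left _ (Fact.out : r.Prime).pos]
  exact (nl_iff hM h (right_ne_zero_of_mul hn)).1 ⟨z, h1, h2, h3⟩

omit [Algebra.IsAlgebraic F K] [IsAlgClosed K] in
theorem NLc.exists [Fact r.Prime] {M n : ℕ} (H : NLc r M n) (hM : M ∣ Nat.card F - 1) (h : r ∣ M) (hn : n ≠ 0) :
    ∃ (z : F) (N : ℕ), n = r * N ∧ z ^ M = 1 ∧ z ^ (M / r) ≠ 1 ∧ ((-1) ^ (r + 1) * z) ^ N = 1 := by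
  obtain ⟨⟨N, rfl⟩, H⟩ := H
  rw [Nat.mul_div_cancel_left _ (Fact.out : r.Prime).pos] at H
  obtain ⟨z, h⟩ := (nl_iff hM h (right_ne_zero_of_mul hn)).2 H
  exact ⟨z, N, rfl, h⟩

omit [Algebra.IsAlgebraic F K] [IsAlgClosed K] in
theorem pow_card_sub {z : F} (hz : z ≠ 0) : z ^ (Nat.card F - 1) = 1 := by
  have := Fintype.ofFinite F
  rw [Nat.card_eq_fintype_card]; exact FiniteField.pow_card_sub_one_eq_one z hz

theorem rt_ne [Fact r.Prime] (hr : (r : K) ≠ 0) {z : K} (hz : z ≠ 0) (c : K) : ∃ a ∈ rt r z, a ≠ c := by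
  obtain ⟨a, ha, b, hb, e⟩ := (Finset.one_lt_card (s := ⟨rt r z, rt_nodup hr hz⟩)).1
    (by simpa [rt_card] using (Fact.out : r.Prime).one_lt)
  by_cases h : a = c
  exacts [⟨b, hb, fun h' => e (h.trans h'.symm)⟩, ⟨a, ha, h⟩]

omit [Finite F] [Algebra.IsAlgebraic F K] [IsAlgClosed K] in
theorem castK (K : Type*) [Field K] [Algebra F K] (hr : (r : F) ≠ 0) : (r : K) ≠ 0 := by
  rw [← map_natCast (algebraMap F K)]; exact (_root_.map_ne_zero _).2 hr

theorem Lhs.nl [Fact r.Prime] (hr : (r : F) ≠ 0) {P : End F V → Prop} (h : Lhs (fun u => LinearMap.det u = 1) r P)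
    (h1 : r ∣ Nat.card F - 1) (h2 : NLc r (Nat.card F - 1) (finrank F V)) (hn : finrank F V ≠ 0) :
    ∃ (u : End F V) (z : F) (N : ℕ), z ≠ 0 ∧ z ^ ((Nat.card F - 1) / r) ≠ 1 ∧ finrank F V = r * N ∧
      EV u (N • rt r (algebraMap F K z)) ∧ P u := by
  obtain ⟨z, N, e, a, b, c⟩ := h2.exists (F := F) dvd_rfl h1 hn
  have z0 : z ≠ 0 := by rintro rfl; simp [card_sub_ne F] at a
  have z1 : algebraMap F K z ≠ 0 := by simpa
  obtain ⟨u, h3, h4⟩ := h.ev (E := N • rt r (algebraMap F K z)) (st_smul (rt_st (castK K hr) z1 fr_inj fr_root) N)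
    (by rw [e, Multiset.card_nsmul, rt_card, mul_comm]) (by
      rw [Multiset.prod_nsmul, rt_prod]; simpa using congrArg (algebraMap F K) c) (z := z)
    (fun a ha => mem_rt.1 (Multiset.mem_of_mem_nsmul ha)) fun c =>
      let ⟨a, ha, e'⟩ := rt_ne (castK K hr) z1 (algebraMap F K c)
      ⟨a, Multiset.mem_nsmul.2 ⟨by rintro rfl; simp_all, ha⟩, e'⟩
  exact ⟨u, z, N, z0, b, e, h3, h4⟩

omit [IsAlgClosed K] [Algebra.IsAlgebraic F K] in
theorem ord_cast (q : ℕ) : orderOf (((q : ℤ) : ZMod r)) = orderOf (q : ZMod r) := by rw [Int.cast_natCast]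

omit [IsAlgClosed K] [Algebra.IsAlgebraic F K] in
theorem ord_one_iff' [Fact r.Prime] : orderOf (Nat.card F : ZMod r) = 1 ↔ r ∣ Nat.card F - 1 := by
  rw [← ord_cast, ord_one_iff, ← Int.natCast_dvd_natCast, Nat.cast_sub Nat.card_pos, Nat.cast_one]

omit [IsAlgClosed K] [Algebra.IsAlgebraic F K] in
theorem ord_pos [Fact r.Prime] (hr : (r : F) ≠ 0) : 0 < orderOf (Nat.card F : ZMod r) := by
  have := Fintype.ofFinite F
  obtain ⟨p, hp⟩ := CharP.exists F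
  obtain ⟨n, hp', hn⟩ := FiniteField.card F p
  refine (isOfFinOrder_iff_pow_eq_one.2 ⟨r - 1, Nat.sub_pos_of_lt (Fact.out : r.Prime).one_lt,
    ZMod.pow_card_sub_one_eq_one fun e => hr ?_⟩).orderOf_pos
  rw [ZMod.natCast_eq_zero_iff, Nat.card_eq_fintype_card, hn] at e
  rw [(Nat.prime_dvd_prime_iff_eq Fact.out hp').1 ((Fact.out : r.Prime).dvd_of_dvd_pow e)]
  exact CharP.cast_eq_zero F p

omit [IsAlgClosed K] [Algebra.IsAlgebraic F K] in
theorem pf_fr [Fact r.Prime] (h : E.map (fr F) = E) (h1 : ∀ a ∈ E, a ^ r = 1) :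
    ∃ a N, Pf (fr F) 1 (orderOf (Nat.card F : ZMod r)) E a N := by
  rw [← ord_cast, fr_eq_zpow] at *
  exact pf_roots (fr_eq_zpow (F := F) (K := K) ▸ fr_inj) h h1

omit [IsAlgClosed K] [Algebra.IsAlgebraic F K] in
theorem fr_one : fr F (1 : K) = 1 := one_pow _

variable (K) in
theorem exists_pf_ev [Fact r.Prime] (hr : (r : F) ≠ 0) (h : u ^ r = 1) : ∃ (E : Multiset K) (a N : ℕ), EV u E ∧
    (∀ a ∈ E, a ^ r = 1) ∧ Pf (fr F) 1 (orderOf (Nat.card F : ZMod r)) E a N := by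
  obtain ⟨E, h1, h2⟩ := exists_ev_pow (K := K) hr one_ne_zero (h.trans (map_one _).symm)
  rw [map_one] at h2
  obtain ⟨a, N, h3⟩ := pf_fr h1.st h2
  exact ⟨E, a, N, h1, h2, h3⟩

omit [IsAlgClosed K] [Algebra.IsAlgebraic F K] in
theorem dvd_dim1 [Fact r.Prime] (hr : (r : F) ≠ 0) (h : u ^ r = 1) {A : Submodule F V} (i : ∀ x ∈ A, u x ∈ A) :
    orderOf (Nat.card F : ZMod r) ∣ finrank F ↥(A ⊓ V1 u) := by
  obtain ⟨E, a, N, h1, -, h2⟩ := exists_pf_ev (AlgebraicClosure F) hr (u := u.restrict i) (by simpa using restrict_pow i (c := 1) (by simpa))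
  have := inv_dim hr h i
  have := h2.dim0 h1
  rw [V0_res_eq] at this
  have := h1.dim
  have := h2.card
  exact ⟨N, by omega⟩

omit [IsAlgClosed K] [Algebra.IsAlgebraic F K] in
theorem small_inv [Fact r.Prime] (hr : (r : F) ≠ 0) (h : u ^ r = 1) {A : Submodule F V} (i : ∀ x ∈ A, u x ∈ A)
    (h1 : finrank F A < orderOf (Nat.card F : ZMod r)) : A ⊓ V1 u = ⊥ :=
  Submodule.finrank_eq_zero.1 (Nat.eq_zero_of_dvd_of_lt (dvd_dim1 hr h i)
    ((Submodule.finrank_mono inf_le_left).trans_lt h1))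

omit [IsAlgClosed K] [Algebra.IsAlgebraic F K] in
theorem big_inv [Fact r.Prime] (hr : (r : F) ≠ 0) (h : u ^ r = 1) {A : Submodule F V} (i : ∀ x ∈ A, u x ∈ A)
    (h1 : finrank F V < finrank F A + orderOf (Nat.card F : ZMod r)) : A ⊓ V1 u = V1 u := by
  have h2 := dvd_dim1 hr h i
  have h3 := dvd_dim1 hr h (A := ⊤) (by simp)
  rw [top_inf_eq] at h3
  have h4 := inv_dim hr h i
  have h5 := Submodule.finrank_add_eq_of_isCompl (compl01 hr h)
  have h6 : finrank F ↥(A ⊓ V0 u) ≤ finrank F (V0 u) := Submodule.finrank_mono inf_le_right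
  have h7 : finrank F ↥(A ⊓ V1 u) ≤ finrank F (V1 u) := Submodule.finrank_mono inf_le_right
  have := Nat.eq_zero_of_dvd_of_lt (Nat.dvd_sub h3 h2) (by omega)
  exact Submodule.eq_of_le_of_finrank_le inf_le_right (by omega)

omit [IsAlgClosed K] [Algebra.IsAlgebraic F K] in
theorem gl_h1 [Fact r.Prime] (hr : (r : F) ≠ 0) (hu : u ^ r = 1) (h0 : finrank F (V0 u) < orderOf (Nat.card F : ZMod r))
    {h : End F V} (h1 : h ^ r = 1) (h2 : V1 u ≤ V0 h) : h = 1 := by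
  have h3 := dvd_dim1 hr h1 (A := ⊤) (by simp)
  rw [top_inf_eq] at h3
  have := Submodule.finrank_add_eq_of_isCompl (compl01 hr hu)
  have := Submodule.finrank_add_eq_of_isCompl (compl01 hr h1)
  have := Submodule.finrank_mono h2
  have := Submodule.finrank_eq_zero.1 (Nat.eq_zero_of_dvd_of_lt h3 (by omega))
  rwa [LinearMap.range_eq_bot, sub_eq_zero] at this

end H25.El
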