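import Cfsg.Agent.H0.ES1
import Mathlib.LinearAlgebra.QuadraticForm.Basis
import Mathlib.LinearAlgebra.UnitaryGroup
import Mathlib.Algebra.Group.Shrink

/-! The real Clifford group: extensions `2^{1+2n}.K` for `K ≤ O(q)`. -/

set_option autoImplicit false
set_option linter.unusedSectionVars false

namespace H25.Clf
open Matrix Cfsg
open scoped Classical commutatorElement

noncomputable def s (a : ZMod 2) : ℝ := if a = 0 then 1 else -1
theorem z2 (a : ZMod 2) : a = 0 ∨ a = 1 := by revert a; decide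
theorem aa (a : ZMod 2) : a + a = 0 := by revert a; decide
@[simp] theorem s0 : s 0 = 1 := if_pos rfl
@[simp] theorem s1 : s 1 = -1 := if_neg one_ne_zero
theorem s_add (a b : ZMod 2) : s (a + b) = s a * s b := by
  rcases z2 a with rfl | rfl <;> rcases z2 b with rfl | rfl <;> simp [aa]
theorem s_inj {a b : ZMod 2} (h : s a = s b) : a = b := by
  rcases z2 a with rfl | rfl <;> rcases z2 b with rfl | rfl <;> simp at h ⊢ <;> norm_num at h
theorem s_ne (a : ZMod 2) : s a ≠ 0 := by rcases z2 a with rfl | rfl <;> simp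

variable {U K : Type*} [AddCommGroup U] [Module (ZMod 2) U] [Fintype U] [Group K]

theorem uu (u : U) : u + u = 0 := by rw [← two_smul (ZMod 2) u, show (2 : ZMod 2) = 0 from rfl, zero_smul]
theorem uuv (u v : U) : u + (u + v) = v := by rw [← add_assoc, uu, zero_add]

noncomputable def M (u : U) (γ : U → ZMod 2) : Matrix U U ℝ :=
  Matrix.of fun a b => if a = u + b then s (γ b) else 0
theorem mul_M (g : Matrix U U ℝ) (u : U) (γ : U → ZMod 2) (a b : U) :
    (g * M u γ) a b = g a (u + b) * s (γ b) := by simp [M, mul_apply]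
theorem M_mul (g : Matrix U U ℝ) (u : U) (γ : U → ZMod 2) (a b : U) :
    (M u γ * g) a b = s (γ (u + a)) * g (u + a) b := by
  have : ∀ c, a = u + c ↔ c = u + a := fun c => ⟨fun e => by rw [e, uuv], fun e => by rw [e, uuv]⟩
  simp [M, mul_apply, this]
theorem MM (u v : U) (γ δ : U → ZMod 2) : M u γ * M v δ = M (u + v) fun b => γ (v + b) + δ b := by
  ext a b; rw [mul_M]; simp [M, s_add, add_assoc]
theorem M_tr (u : U) (γ : U → ZMod 2) : (M u γ)ᵀ * M u γ = 1 := by
  ext a b; rw [mul_M]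
  by_cases e : a = b <;> simp [M, e, one_apply, ← s_add, aa, eq_comm]

noncomputable abbrev O (U : Type*) [Fintype U] := orthogonalGroup U ℝ
variable (β : LinearMap.BilinForm (ZMod 2) U)
noncomputable def L (u : U) (a : ZMod 2) : O U :=
  ⟨M u fun b => a + β u b, (mem_orthogonalGroup_iff' _ _).2 (M_tr _ _)⟩
noncomputable def Rt (v : U) : O U := ⟨M v fun b => β b v, (mem_orthogonalGroup_iff' _ _).2 (M_tr _ _)⟩
variable {β}
theorem LL (u v : U) (a b : ZMod 2) : L β u a * L β v b = L β (u + v) (a + b + β u v) :=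
  Subtype.ext ((MM ..).trans (congrArg _ (funext fun c => by simp; ring)))
theorem LR (u v : U) (a : ZMod 2) : L β u a * Rt β v = Rt β v * L β u a :=
  Subtype.ext ((MM ..).trans (Eq.trans (by rw [add_comm]; congr 1; ext c; simp; ring) (MM ..).symm))
theorem L_app (u x : U) (a : ZMod 2) : (L β u a).1 x 0 = if x = u then s a else 0 := by simp [L, M]
theorem L_inj {u v : U} {a b : ZMod 2} (h : L β u a = L β v b) : u = v ∧ a = b := by
  have := congrArg (fun g : O U => g.1 u 0) h
  simp only [L_app, if_true] at this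
  split_ifs at this with e
  exacts [⟨e, s_inj this⟩, (s_ne a this).elim]
theorem L_smul (u : U) (a : ZMod 2) : (L β u a).1 = s a • (L β u 0).1 := by
  ext x y; simp [L, M, s_add]

theorem scal (nd : ∀ v, (∀ u, β u v + β v u = 0) → v = 0) {g : Matrix U U ℝ}
    (h1 : ∀ u, g * (L β u 0).1 = (L β u 0).1 * g) (h2 : ∀ u, g * (Rt β u).1 = (Rt β u).1 * g) :
    g = g 0 0 • (1 : Matrix U U ℝ) := by
  ext a b
  by_cases e : a = b
  · have := congrFun (congrFun (h1 a) a) 0
    simpa [L, mul_M, M_mul, uu, e] using this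
  by_contra k
  refine e (by_contra fun _ => ?_)
  refine e (((uuv b a).symm.trans (congrArg _ (nd (b + a) fun u => ?_))).trans (add_zero b))
  have := congrFun (congrFun (show g * ((L β u 0).1 * (Rt β u).1) = (L β u 0).1 * (Rt β u).1 * g by
    rw [← mul_assoc, h1, mul_assoc, h2, mul_assoc]) a) b
  simp only [L, Rt, MM, mul_M, M_mul, uu, zero_add, mul_comm (g a b)] at this
  have := s_inj (mul_right_cancel₀ (by simpa [one_apply, e] using k) this)
  simp only [map_add, LinearMap.add_apply] at this ⊢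
  linear_combination this + aa (β u a) + aa (β a u)

theorem tr_comm {g : Matrix U U ℝ} {A B : O U} (h : g * A.1 = B.1 * g) : gᵀ * B.1 = A.1 * gᵀ := by
  have := congrArg (fun x => A.1 * xᵀ * B.1) h
  simp only [transpose_mul] at this
  rwa [← mul_assoc, (mem_orthogonalGroup_iff _ _).1 A.2, one_mul, mul_assoc, mul_assoc,
    (mem_orthogonalGroup_iff' _ _).1 B.2, mul_one] at this

theorem exists_phi {γ : LinearMap.BilinForm (ZMod 2) U} (h : ∀ u, γ u u = 0) :
    ∃ φ : U → ZMod 2, ∀ u v, φ (u + v) = φ u + φ v + γ u v := by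
  let b := Module.finBasis (ZMod 2) U
  let δ : LinearMap.BilinForm (ZMod 2) U :=
    b.constr (ZMod 2) fun i => b.constr (ZMod 2) fun j => if i < j then γ (b i) (b j) else 0
  have e : δ + δ.flip = γ := LinearMap.BilinForm.ext_basis b fun i j => by
    have := h (b i + b j)
    simp only [map_add, LinearMap.add_apply, h] at this
    simp only [δ, LinearMap.add_apply, LinearMap.flip_apply, LinearMap.BilinForm.flip_apply,
      Module.Basis.constr_basis]
    rcases lt_trichotomy i j with k | k | k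
    · simp [k, k.not_gt]
    · simp [k, h]
    · simp [k, k.not_gt]; linear_combination this - aa (γ (b i) (b j))
  exact ⟨fun u => δ u u, fun u v => by rw [← e]; simp; ring⟩

theorem norm_g (nd : ∀ v, (∀ u, β u v + β v u = 0) → v = 0) {g : Matrix U U ℝ} {k : U → U}
    {φ : U → ZMod 2} (g1 : ∀ v, g * (Rt β v).1 = (Rt β v).1 * g)
    (g2 : ∀ v a, g * (L β v a).1 = (L β (k v) (a + φ v)).1 * g) {w : U} (hw : g w 0 ≠ 0) :
    ∃ g : O U, (∀ v, g * Rt β v = Rt β v * g) ∧ ∀ u, ∃ c, ∀ a, g * L β u a = L β (k u) (a + c) * g := by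
  have e := scal nd (g := gᵀ * g) (fun u => by
      rw [mul_assoc, g2, ← mul_assoc, tr_comm (g2 u 0), mul_assoc])
    fun u => by rw [mul_assoc, g1, ← mul_assoc, tr_comm (g1 u), mul_assoc]
  have pos : 0 < (gᵀ * g) 0 0 := Finset.sum_pos' (fun x _ => mul_self_nonneg _)
    ⟨w, Finset.mem_univ _, mul_self_pos.2 hw⟩
  refine ⟨⟨(√((gᵀ * g) 0 0))⁻¹ • g, (mem_orthogonalGroup_iff' _ _).2 ?_⟩,
    fun v => Subtype.ext (by simp [g1]), fun u => ⟨φ u, fun a => Subtype.ext (by simp [g2])⟩⟩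
  rw [transpose_smul, smul_mul_smul_comm, ← mul_inv, Real.mul_self_sqrt pos.le]
  nth_rewrite 2 [e]
  rw [smul_smul, inv_mul_cancel₀ pos.ne', one_smul]

theorem exists_g (nd : ∀ v, (∀ u, β u v + β v u = 0) → v = 0) (k : U →ₗ[ZMod 2] U)
    (hk : ∀ u, β (k u) (k u) = β u u) : ∃ g : O U, (∀ v, g * Rt β v = Rt β v * g) ∧
      ∀ u, ∃ c, ∀ a, g * L β u a = L β (k u) (a + c) * g := by
  obtain ⟨φ, hφ⟩ := exists_phi (γ := β.comp k k + β) fun u => by simp [hk, aa]
  simp only [LinearMap.add_apply, LinearMap.BilinForm.comp_apply] at hφ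
  obtain ⟨w, hw⟩ : ∃ w, (∑ u, (L β (k u + w + u) (φ u + β (k u) w + β u u + β (k u + w) u)).1) w 0 ≠ 0 := by
    by_contra! e
    have := Finset.sum_eq_zero (s := Finset.univ) fun w _ => e w
    simp only [Matrix.sum_apply, L_app] at this
    rw [Finset.sum_comm, Finset.sum_eq_single 0 (fun u _ u0 => ?_) (by simp)] at this
    · simp [s_ne] at this
    obtain ⟨v, hv⟩ := not_forall.1 (mt (nd u) u0)
    by_cases e : k u = u
    · rw [← neg_eq_self (G := ℝ), ← Finset.sum_neg_distrib]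
      refine Fintype.sum_equiv (Equiv.addLeft v) _ _ fun w => ?_
      have e1 : ∀ w, w = u + w + u := fun w => by rw [add_comm, uuv]
      simp only [e, Equiv.coe_addLeft, ← e1, if_true, map_add, LinearMap.add_apply]
      rw [← neg_one_mul, ← s1, ← s_add, ← (z2 _).resolve_left hv]
      congr 1; ring
    · refine Finset.sum_eq_zero fun w _ => if_neg fun e1 => e ?_
      rw [add_right_comm, right_eq_add] at e1
      rw [← uuv u (k u), add_comm u (k u), e1, add_zero]
  refine norm_g nd (φ := φ) (fun v => ?_) (fun v a => ?_) hw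
  · rw [Finset.sum_mul, Finset.mul_sum]
    exact Finset.sum_congr rfl fun u _ => congrArg Subtype.val (LR ..)
  rw [Finset.sum_mul, Finset.mul_sum, ← Equiv.sum_comp (Equiv.addLeft v)]
  refine Finset.sum_congr rfl fun u _ => congrArg Subtype.val (a₁ := L β _ _ * L β _ _)
    (a₂ := L β _ _ * L β _ _) ?_
  simp only [LL, Equiv.coe_addLeft, hφ, map_add, LinearMap.add_apply]
  congr 1
  · rw [add_comm v u, add_assoc _ (u + v), add_assoc u, uu]; abel
  linear_combination aa (β v u + β v v + β u v + β (k v) v + β (k u) v + β w v)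

variable (β) in
/-- the shape of the extension -/
structure Dat (ρ : Representation (ZMod 2) K U) {R : Type*} [Group R] (π : R →* K)
    (l : U → ZMod 2 → R) : Prop where
  sur : Function.Surjective π
  mul : ∀ u v a b, l u a * l v b = l (u + v) (a + b + β u v)
  inj : ∀ u v a b, l u a = l v b → u = v ∧ a = b
  ker : ∀ r, π r = 1 ↔ ∃ u a, l u a = r
  cnj : ∀ r u a, ∃ b, r * l u a * r⁻¹ = l (ρ (π r) u) b

variable (β) in
def RR (ρ : Representation (ZMod 2) K U) : Subgroup (O U × K) where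
  carrier := {x | (∀ v, x.1 * Rt β v = Rt β v * x.1) ∧
    ∀ u, ∃ c, ∀ a, x.1 * L β u a = L β (ρ x.2 u) (a + c) * x.1}
  one_mem' := ⟨by simp, fun u => ⟨0, by simp⟩⟩
  mul_mem' := fun {x y} hx hy => ⟨fun v => by
    rw [Prod.fst_mul, mul_assoc, hy.1, ← mul_assoc, hx.1, mul_assoc], fun u => by
    obtain ⟨c, hc⟩ := hy.2 u
    obtain ⟨d, hd⟩ := hx.2 (ρ y.2 u)
    exact ⟨c + d, fun a => by
      rw [Prod.fst_mul, mul_assoc, hc, ← mul_assoc, hd, mul_assoc, add_assoc]; simp⟩⟩
  inv_mem' := fun {x} hx => ⟨fun v => by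
    rw [Prod.fst_inv, inv_mul_eq_iff_eq_mul, ← mul_assoc, hx.1, mul_inv_cancel_right], fun u => by
    obtain ⟨c, hc⟩ := hx.2 (ρ x.2⁻¹ u)
    exact ⟨c, fun a => by
      rw [Prod.fst_inv, Prod.snd_inv, inv_mul_eq_iff_eq_mul, ← mul_assoc, hc, mul_inv_cancel_right,
        add_assoc, aa, add_zero, Representation.self_inv_apply]⟩⟩

theorem dat (nd : (β + β.flip).Nondegenerate) {ρ : Representation (ZMod 2) K U}
    (hρ : ∀ k u, β (ρ k u) (ρ k u) = β u u) :
    ∃ l, Dat β ρ ((MonoidHom.snd _ _).comp (RR β ρ).subtype) l := by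
  have nd' : ∀ v, (∀ u, β u v + β v u = 0) → v = 0 := nd.2
  have cm : ∀ u v a b, L β u a * L β v b = L β v (b + (β u v + β v u)) * L β u a := fun u v a b => by
    rw [LL, LL, add_comm u v]; congr 1; linear_combination -aa (β v u)
  refine ⟨fun u a => ⟨(L β u a, 1), fun v => LR u v a, fun v => ⟨_, fun b => by simpa using cm u v a b⟩⟩, fun k => ?_,
    fun u v a b => Subtype.ext (Prod.ext (LL ..) (one_mul _)),
    fun u v a b e => L_inj (congrArg (·.1.1) e), fun ⟨⟨g, k⟩, h1, h2⟩ => ⟨fun e => ?_, ?_⟩,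
    fun r u a => ?_⟩
  · obtain ⟨g, hg⟩ := exists_g nd' (ρ k) (hρ k)
    exact ⟨⟨(g, k), hg⟩, rfl⟩
  · obtain rfl : k = 1 := e
    simp only [map_one, Module.End.one_apply] at h1 h2
    choose c hc using h2
    have ca : ∀ u v, c (u + v) = c u + c v := fun u v => by
      have := hc (u + v) (0 + 0 + β u v)
      rw [← LL, ← mul_assoc, hc, mul_assoc, hc, ← mul_assoc, mul_left_inj, LL] at this
      linear_combination -(L_inj this).2
    obtain ⟨w, hw⟩ := ((β + β.flip).toDual nd).surjective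
      ((AddMonoidHom.mk' c ca).toZModLinearMap 2)
    have hw : ∀ u, β w u + β u w = c u := fun u => LinearMap.congr_fun hw u
    have e := scal nd' (g := (L β w 0 * g).1) (fun u => congrArg Subtype.val (show L β w 0 * g * _ = _ * _ by
        rw [mul_assoc, hc, ← mul_assoc, cm, hw, zero_add, aa, mul_assoc]))
      fun u => congrArg Subtype.val (show L β w 0 * g * _ = _ * _ by
        rw [mul_assoc, h1, ← mul_assoc, LR, mul_assoc])
    have o := (mem_orthogonalGroup_iff' _ _).1 (L β w 0 * g).2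
    obtain ⟨a, ha⟩ : ∃ a, (L β w 0 * g).1 0 0 = s a := by
      rw [e] at o
      have := congrFun (congrFun o 0) 0
      simp only [transpose_smul, transpose_one, smul_mul_smul_comm, mul_one, Matrix.smul_apply, one_apply_eq,
        smul_eq_mul] at this
      exact (mul_self_eq_one_iff.1 this).elim (fun e => ⟨0, e.trans s0.symm⟩) fun e => ⟨1, e.trans s1.symm⟩
    refine ⟨w, a + β w w, Subtype.ext (Prod.ext (mul_left_cancel (a := L β w 0) (Subtype.ext ?_)) rfl)⟩
    rw [e, ha, LL, L_smul, uu, zero_add, add_assoc, aa, add_zero]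
    congr 1; ext x y; simp [L, M, one_apply]
  · rintro ⟨u, a, e⟩
    exact (congrArg (·.1.2) e).symm
  · obtain ⟨c, hc⟩ := r.2.2 u
    exact ⟨a + c, Subtype.ext (Prod.ext (mul_inv_eq_iff_eq_mul.2 (hc a)) (by simp))⟩

theorem Dat.congr {ρ : Representation (ZMod 2) K U} {R R' : Type*} [Group R] [Group R'] {π : R →* K}
    {l : U → ZMod 2 → R} (h : Dat β ρ π l) (e : R' ≃* R) :
    Dat β ρ (π.comp e.toMonoidHom) fun u a => e.symm (l u a) :=
  ⟨h.sur.comp e.surjective, fun u v a b => by rw [← map_mul, h.mul],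
    fun u v a b k => h.inj u v a b (e.symm.injective k),
    fun r => (h.ker _).trans (by simp [e.symm_apply_eq]), fun r u a =>
    (h.cnj (e r) u a).imp fun b k => by simpa using congrArg e.symm k⟩

namespace Dat
variable {ρ : Representation (ZMod 2) K U} {R : Type*} [Group R] {π : R →* K}
  {l : U → ZMod 2 → R} (h : Dat β ρ π l)
include h
noncomputable def eqv : U × ZMod 2 ≃ π.ker := Equiv.ofBijective
  (fun x => ⟨l x.1 x.2, (h.ker _).2 ⟨_, _, rfl⟩⟩)
  ⟨fun x y e => Prod.ext_iff.2 (h.inj _ _ _ _ (congrArg Subtype.val e)),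
    fun x => let ⟨u, a, e⟩ := (h.ker x).1 x.2; ⟨(u, a), Subtype.ext e⟩⟩
theorem fin [Finite K] : Finite R :=
  have := Finite.of_equiv _ h.eqv
  have := Finite.of_equiv _ (QuotientGroup.quotientKerEquivOfSurjective π h.sur).symm.toEquiv
  Finite.of_equiv _ (Subgroup.groupEquivQuotientProdSubgroup (s := π.ker)).symm
theorem one : l 0 0 = 1 := by simpa using h.mul 0 0 0 0
theorem eqv_mul (x y : U × ZMod 2) : h.eqv x * h.eqv y = h.eqv (x.1 + y.1, x.2 + y.2 + β x.1 y.1) :=
  Subtype.ext (h.mul ..)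
noncomputable def chi : π.ker →* Multiplicative U := MonoidHom.mk' (fun x => .ofAdd (h.eqv.symm x).1)
  fun x y => by
    obtain ⟨x, rfl⟩ := h.eqv.surjective x
    obtain ⟨y, rfl⟩ := h.eqv.surjective y
    simp [eqv_mul]
theorem chi_eqv (x : U × ZMod 2) : h.chi (h.eqv x) = .ofAdd x.1 := by simp [chi]
theorem comm_iff {u v a b} : l u a * l v b = l v b * l u a ↔ β u v + β v u = 0 := by
  rw [h.mul, h.mul, add_comm v u]
  exact ⟨fun e => by linear_combination (h.inj _ _ _ _ e).2 + aa (β v u),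
    fun e => congrArg _ (by linear_combination e - aa (β v u))⟩
theorem es (nd : ∀ v, (∀ u, β u v + β v u = 0) → v = 0) [Nontrivial U] : H0.ES π.ker (l 0 1) := by
  have k : ∀ a, l 0 a = 1 ∨ l 0 a = l 0 1 := fun a => (z2 a).imp (fun e => by rw [e, h.one]) (congrArg _)
  refine ⟨(h.ker _).2 ⟨_, _, rfl⟩, fun e => by simpa using h.inj _ _ _ _ (e.trans h.one.symm),
    by simp [h.mul, aa, h.one], fun x hx y hy => ?_, fun x hx => ?_, fun x hx => ?_, fun x hx e => ?_, ?_⟩
  · obtain ⟨u, a, rfl⟩ := (h.ker x).1 hx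
    obtain ⟨v, b, rfl⟩ := (h.ker y).1 hy
    rw [show ⁅l u a, l v b⁆ = l 0 (β u v + β v u) by
      rw [commutatorElement_def, mul_inv_eq_iff_eq_mul, mul_inv_eq_iff_eq_mul]
      simp only [h.mul, zero_add, map_zero, LinearMap.zero_apply, add_comm v u]
      congr 1; linear_combination -aa (β v u)]
    exact k _
  · obtain ⟨u, a, rfl⟩ := (h.ker x).1 hx
    rw [h.mul, uu]; exact k _
  · obtain ⟨u, a, rfl⟩ := (h.ker x).1 hx
    simp [h.comm_iff]
  · obtain ⟨u, a, rfl⟩ := (h.ker x).1 hx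
    obtain rfl := nd u fun v => h.comm_iff.1 (e (l v 0) ((h.ker _).2 ⟨_, _, rfl⟩)).symm
    exact k a
  · obtain ⟨v, hv⟩ := exists_ne (0 : U)
    obtain ⟨u, hu⟩ := not_forall.1 (mt (nd v) hv)
    exact ⟨l u 0, (h.ker _).2 ⟨_, _, rfl⟩, l v 0, (h.ker _).2 ⟨_, _, rfl⟩, mt h.comm_iff.1 hu⟩
end Dat

theorem main [Finite K] [Nontrivial U] {ρ : Representation (ZMod 2) K U} {q : QuadraticForm (ZMod 2) U}
    (hq : ∀ k u, q (ρ k u) = q u) (nd : (QuadraticMap.polarBilin q).Nondegenerate) :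
    ∃ (R : Type) (_ : Group R) (_ : Finite R) (Q : Subgroup R) (hN : Q.Normal) (e : R ⧸ Q ≃* K)
      (χ : Q →* Multiplicative U), IsExtraspecial 2 Q ∧ Nat.card Q = Nat.card U * 2 ∧
      Function.Surjective χ ∧ χ.ker = Subgroup.center Q ∧
      (∀ (r : R) (a : Q), χ ⟨r * a * r⁻¹, hN.conj_mem (a : R) a.2 r⟩ =
        .ofAdd (ρ (e (r : R ⧸ Q)) (χ a).toAdd)) ∧ ∀ a : Q, a * a = 1 ↔ q (χ a).toAdd = 0 := by
  obtain ⟨β, rfl⟩ := LinearMap.BilinMap.toQuadraticMap_surjective q
  rw [LinearMap.BilinMap.polarBilin_toQuadraticMap] at nd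
  obtain ⟨l, h⟩ := dat (β := β) nd hq
  have := h.fin
  have h := h.congr (Shrink.mulEquiv.{0})
  refine ⟨_, _, h.fin, _, inferInstance, QuotientGroup.quotientKerEquivOfSurjective _ h.sur, h.chi,
    (h.es nd.2).extraspecial, by rw [← Nat.card_congr h.eqv]; simp, fun u => ⟨_, h.chi_eqv (u.toAdd, 0)⟩,
    Subgroup.ext fun a => ?_, fun r a => ?_, fun a => ?_⟩ <;> obtain ⟨⟨u, a⟩, rfl⟩ := h.eqv.surjective a
  · rw [MonoidHom.mem_ker, h.chi_eqv, Subgroup.mem_center_iff]
    refine ⟨fun e b => ?_, fun e => nd.2 u fun v =>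
      h.comm_iff.1 (congrArg Subtype.val (e (h.eqv (v, 0))))⟩
    obtain ⟨⟨v, b⟩, rfl⟩ := h.eqv.surjective b
    exact Subtype.ext (h.comm_iff.2 (by simp [show u = 0 from e]))
  · obtain ⟨b, hb⟩ := h.cnj r u a
    rw [h.chi_eqv]
    exact (congrArg h.chi (Subtype.ext hb)).trans (h.chi_eqv (_, b))
  · rw [h.chi_eqv, h.eqv_mul, show (1 : MonoidHom.ker _) = h.eqv (0, 0) from Subtype.ext h.one.symm,
      h.eqv.apply_eq_iff_eq]
    simp [uu, aa]
end H25.Clf
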