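/-
Four-dimensional reflection groups: the six fundamental complexes.
-/
import Mathlib

set_option autoImplicit false
set_option linter.unusedSectionVars false

namespace H25.D4
open Matrix

variable {F : Type*} [Field F]

local notation "vv" => vecMulVec

/-- an alternating matrix -/
def om (p q r s t w : F) : Matrix (Fin 4) (Fin 4) F := !![0, p, q, r; -p, 0, s, t; -q, -s, 0, w; -r, -t, -w, 0]

theorem om_ro (p q r s t w : F) (a α : Fin 4 → F) : (1 - vv a α)ᵀ * om p q r s t w * (1 - vv a α) =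
    om (p + α 0 * (-p * a 0 + s * a 2 + t * a 3) - (p * a 1 + q * a 2 + r * a 3) * α 1)
      (q + α 0 * (-q * a 0 - s * a 1 + w * a 3) - (p * a 1 + q * a 2 + r * a 3) * α 2)
      (r + α 0 * (-r * a 0 - t * a 1 - w * a 2) - (p * a 1 + q * a 2 + r * a 3) * α 3)
      (s + α 1 * (-q * a 0 - s * a 1 + w * a 3) - (-p * a 0 + s * a 2 + t * a 3) * α 2)
      (t + α 1 * (-r * a 0 - t * a 1 - w * a 2) - (-p * a 0 + s * a 2 + t * a 3) * α 3)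
      (w + α 2 * (-r * a 0 - t * a 1 - w * a 2) - (-q * a 0 - s * a 1 + w * a 3) * α 3) := by
  ext i j
  fin_cases i <;> fin_cases j <;> simp [om, mul_apply, Fin.sum_univ_four, vecMulVec_apply, one_apply] <;> ring

/-- the six lines -/
def K6 (δ p q r s t w : F) : Prop :=
  (p ≠ 0 ∧ w ^ 2 = δ * p ^ 2 ∧ q = 0 ∧ r = 0 ∧ s = 0 ∧ t = 0) ∨
  (q ≠ 0 ∧ t ^ 2 = δ * q ^ 2 ∧ p = 0 ∧ r = 0 ∧ s = 0 ∧ w = 0) ∨
  (r ≠ 0 ∧ s ^ 2 = δ * r ^ 2 ∧ p = 0 ∧ q = 0 ∧ t = 0 ∧ w = 0)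

def K7' (δ : F) (Ω : Matrix (Fin 4) (Fin 4) F) : Prop := ∃ p q r s t w, Ω = om p q r s t w ∧ K6 δ p q r s t w

/-- the reflections of the groups `G₂₉` and `G₃₁` -/
def R6 (δ : F) (a α : Fin 4 → F) : Prop :=
  (∃ i, α i * a i = 2 ∧ ∀ j, j ≠ i → a j = 0 ∧ α j = 0) ∨
  (∃ i j, i ≠ j ∧ α i * a i = 1 ∧ α j * a j = 1 ∧ a i ^ 4 = a j ^ 4 ∧ ∀ l, l ≠ i → l ≠ j → a l = 0 ∧ α l = 0) ∨
  ((∀ i, 2 * (α i * a i) = 1) ∧ (a 0 * a 1) ^ 2 = δ * (a 2 * a 3) ^ 2 ∧ (a 0 * a 2) ^ 2 = δ * (a 1 * a 3) ^ 2 ∧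
    (a 0 * a 3) ^ 2 = δ * (a 1 * a 2) ^ 2)

theorem k6_ro {δ : F} (hδ : δ ^ 2 = 1) {a α : Fin 4 → F} (h : R6 δ a α) {Ω : Matrix (Fin 4) (Fin 4) F}
    (k : K7' δ Ω) : K7' δ ((1 - vv a α)ᵀ * Ω * (1 - vv a α)) := by
  obtain ⟨p, q, r, s, t, w, rfl, k⟩ := k
  refine ⟨_, _, _, _, _, _, om_ro _ _ _ _ _ _ _ _, ?_⟩
  rcases h with ⟨i, h1, h2⟩ | ⟨i, j, n, h1, h2, h3, h4⟩ | ⟨h1, h2, h3, h4⟩
  · have g0 := h2 0
    have g1 := h2 1
    have g2 := h2 2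
    have g3 := h2 3
    fin_cases i <;> simp at h1 g0 g1 g2 g3 <;>
      rcases k with ⟨k1, k2, rfl, rfl, rfl, rfl⟩ | ⟨k1, k2, rfl, rfl, rfl, rfl⟩ | ⟨k1, k2, rfl, rfl, rfl, rfl⟩ <;>
      simp only [K6, g0, g1, g2, g3] <;> grind
  · have g0 := h4 0
    have g1 := h4 1
    have g2 := h4 2
    have g3 := h4 3
    fin_cases i <;> fin_cases j <;> simp at n h1 h2 h3 g0 g1 g2 g3 <;>
      rcases k with ⟨k1, k2, rfl, rfl, rfl, rfl⟩ | ⟨k1, k2, rfl, rfl, rfl, rfl⟩ | ⟨k1, k2, rfl, rfl, rfl, rfl⟩ <;>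
      simp only [K6, g0, g1, g2, g3] <;> grind
  · have two : (2 : F) ≠ 0 := left_ne_zero_of_mul_eq_one (h1 0)
    have a0 : ∀ i, a i ≠ 0 := fun i => right_ne_zero_of_mul (right_ne_zero_of_mul_eq_one (h1 i))
    have e : ∀ i, α i = (2 * a i)⁻¹ := fun i => eq_inv_of_mul_eq_one_left (by linear_combination h1 i)
    have g0 := a0 0
    have g1 := a0 1
    have g2 := a0 2
    have g3 := a0 3
    simp only [e]
    generalize a 0 = a₀, a 1 = a₁, a 2 = a₂, a 3 = a₃ at *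
    clear e a0 h1
    have ne : ∀ {x y z : F}, x = y / z → y ≠ 0 → z ≠ 0 → x ≠ 0 := fun a b c => a ▸ div_ne_zero b c
    rcases k with ⟨k1, k2, rfl, rfl, rfl, rfl⟩ | ⟨k1, k2, rfl, rfl, rfl, rfl⟩ | ⟨k1, k2, rfl, rfl, rfl, rfl⟩
    · rcases sq_eq_sq_iff_eq_or_eq_neg.1 (show w ^ 2 = (p * a₀ * a₁ / (a₂ * a₃)) ^ 2 by
        field_simp; linear_combination (a₂ * a₃) ^ 2 * k2 - p ^ 2 * h2) with rfl | rfl
      · refine .inr (.inr ⟨ne (y := -p * a₁) (z := a₃) ?_ (by simp [*]) g3, ?_, ?_, ?_, ?_, ?_⟩) <;> field_simp <;>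
          first | ring1 | linear_combination 4 * (a₀ * a₁ * p) ^ 2 * h4
      · refine .inr (.inl ⟨ne (y := -p * a₁) (z := a₂) ?_ (by simp [*]) g2, ?_, ?_, ?_, ?_, ?_⟩) <;> field_simp <;>
          first | ring1 | linear_combination 4 * (a₀ * a₁ * p) ^ 2 * h3
    · rcases sq_eq_sq_iff_eq_or_eq_neg.1 (show t ^ 2 = (q * a₀ * a₂ / (a₁ * a₃)) ^ 2 by
        field_simp; linear_combination (a₁ * a₃) ^ 2 * k2 - q ^ 2 * h3) with rfl | rfl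
      · refine .inr (.inr ⟨ne (y := -q * a₂) (z := a₃) ?_ (by simp [*]) g3, ?_, ?_, ?_, ?_, ?_⟩) <;> field_simp <;>
          first | ring1 | linear_combination 4 * (a₀ * a₂ * q) ^ 2 * h4
      · refine .inl ⟨ne (y := -q * a₂) (z := a₁) ?_ (by simp [*]) g1, ?_, ?_, ?_, ?_, ?_⟩ <;> field_simp <;>
          first | ring1 | linear_combination 4 * (a₀ * a₂ * q) ^ 2 * h2
    · rcases sq_eq_sq_iff_eq_or_eq_neg.1 (show s ^ 2 = (r * a₀ * a₃ / (a₁ * a₂)) ^ 2 by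
        field_simp; linear_combination (a₁ * a₂) ^ 2 * k2 - r ^ 2 * h4) with rfl | rfl
      · refine .inr (.inl ⟨ne (y := -r * a₃) (z := a₂) ?_ (by simp [*]) g2, ?_, ?_, ?_, ?_, ?_⟩) <;> field_simp <;>
          first | ring1 | linear_combination 4 * (a₀ * a₃ * r) ^ 2 * h3
      · refine .inl ⟨ne (y := -r * a₃) (z := a₁) ?_ (by simp [*]) g1, ?_, ?_, ?_, ?_, ?_⟩ <;> field_simp <;>
          first | ring1 | linear_combination 4 * (a₀ * a₃ * r) ^ 2 * h2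

theorem om_smul (c p q r s t w : F) : c • om p q r s t w = om (c * p) (c * q) (c * r) (c * s) (c * t) (c * w) := by
  ext i j; fin_cases i <;> fin_cases j <;> simp [om]

theorem K7'.smul {δ c : F} (hc : c ≠ 0) {Ω : Matrix (Fin 4) (Fin 4) F} (k : K7' δ Ω) : K7' δ (c • Ω) := by
  obtain ⟨p, q, r, s, t, w, rfl, k⟩ := k
  refine ⟨_, _, _, _, _, _, om_smul _ _ _ _ _ _ _, ?_⟩
  rcases k with ⟨k1, k2, rfl, rfl, rfl, rfl⟩ | ⟨k1, k2, rfl, rfl, rfl, rfl⟩ | ⟨k1, k2, rfl, rfl, rfl, rfl⟩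
  · exact .inl ⟨mul_ne_zero hc k1, by linear_combination c ^ 2 * k2, by simp⟩
  · exact .inr (.inl ⟨mul_ne_zero hc k1, by linear_combination c ^ 2 * k2, by simp⟩)
  · exact .inr (.inr ⟨mul_ne_zero hc k1, by linear_combination c ^ 2 * k2, by simp⟩)

end H25.D4
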