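import Cfsg.Agent.H27.Spec21

/-! Elusive actions, I: stable multisets, eigenvalue data of semisimple maps, fixed point counts. -/

set_option autoImplicit false

namespace H25.El

open Module Polynomial Function H22 H27.Sp

section Comb
variable {X : Type*} {φ : X → X} {E E' : Multiset X}

theorem st_add (h : E.map φ = E) (h' : E'.map φ = E') : (E + E').map φ = E + E' := by
  rw [Multiset.map_add, h, h']

theorem st_right (h : (E + E').map φ = E + E') (h' : E.map φ = E) : E'.map φ = E' := by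
  rw [Multiset.map_add, h'] at h; exact add_left_cancel h

theorem st_smul (h : E.map φ = E) (n : ℕ) : (n • E).map φ = n • E := by rw [Multiset.map_nsmul, h]

theorem st_repl {a : X} (h : φ a = a) (n : ℕ) : (Multiset.replicate n a).map φ = .replicate n a := by
  rw [Multiset.map_replicate, h]

theorem st_filter (h : E.map φ = E) (P : X → Prop) [DecidablePred P] (hP : ∀ x, P (φ x) ↔ P x) :
    (E.filter P).map φ = E.filter P := by
  conv_rhs => rw [← h, Multiset.filter_map]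
  congr 1
  exact Multiset.filter_congr fun x _ => (hP x).symm

theorem st_orb (x : X) : (orb φ (minimalPeriod φ x) x).map φ = orb φ (minimalPeriod φ x) x :=
  map_orb (iterate_minimalPeriod (f := φ) (x := x))

theorem st_dvd (hφ : Injective φ) (h : E.map φ = E) {i : ℕ} (hi : ∀ x ∈ E, i ∣ minimalPeriod φ x) :
    i ∣ E.card := by
  obtain ⟨t, ht, rfl⟩ := exists_orbs hφ E h
  rw [Multiset.card_bind]
  refine Multiset.dvd_sum fun y hy => ?_
  obtain ⟨x, hx, rfl⟩ := Multiset.mem_map.1 hy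
  simpa [card_orb] using hi x (ht x hx)

theorem st_sub (hφ : Injective φ) {i : ℕ} (j : ℕ) : ∀ {E : Multiset X}, E.map φ = E →
    (∀ x ∈ E, minimalPeriod φ x = i) → i * j ≤ E.card →
    ∃ A B, E = A + B ∧ A.map φ = A ∧ A.card = i * j := by
  induction j with
  | zero => exact fun _ _ _ => ⟨0, _, (zero_add _).symm, rfl, rfl⟩
  | succ j ih =>
    intro E h hi hc
    rcases E.empty_or_exists_mem with rfl | ⟨x, hx⟩
    · exact ⟨0, 0, rfl, rfl, by simpa using hc⟩
    obtain ⟨-, D, e, hD⟩ := peel hφ h hx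
    have hc' := congrArg Multiset.card e
    rw [Multiset.card_add, card_orb, hi x hx] at hc'
    obtain ⟨A, B, e', h1, h2⟩ := ih hD (fun y hy => hi y (e ▸ Multiset.mem_add.2 (.inr hy)))
      (by rw [mul_add] at hc; omega)
    refine ⟨orb φ (minimalPeriod φ x) x + A, B, by rw [add_assoc, ← e', ← e], st_add (st_orb x) h1, ?_⟩
    rw [Multiset.card_add, card_orb, hi x hx, h2]; ring

open Classical in
/-- `E` consists of `a` copies of `o` and `N` orbits of length `i` -/
structure Pf (φ : X → X) (o : X) (i : ℕ) (E : Multiset X) (a N : ℕ) : Prop where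
  st : E.map φ = E
  per : ∀ x ∈ E, x ≠ o → minimalPeriod φ x = i
  cnt : E.count o = a
  card : E.card = a + i * N

variable {o : X} {i a N a' N' : ℕ}

theorem exists_pf (hφ : Injective φ) (ho : φ o = o) (h : E.map φ = E)
    (hi : ∀ x ∈ E, x ≠ o → minimalPeriod φ x = i) : ∃ a N, Pf φ o i E a N := by
  classical
  have h1 := st_filter h (· ≠ o) fun x => by rw [← ho, hφ.ne_iff, ho]
  obtain ⟨N, hN⟩ := st_dvd hφ h1 (i := i) fun x hx => by
    rw [hi x (Multiset.mem_filter.1 hx).1 (Multiset.mem_filter.1 hx).2]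
  refine ⟨_, N, h, hi, rfl, ?_⟩
  rw [← hN, Multiset.count_eq_card_filter_eq, ← Multiset.card_add]
  congr 1
  conv_lhs => rw [← Multiset.filter_add_not (o = ·) E]
  congr 1
  exact Multiset.filter_congr fun x _ => ne_comm

theorem Pf.uniq (hi : 0 < i) (h : Pf φ o i E a N) (h' : Pf φ o i E a' N') : a = a' ∧ N = N' := by
  have e := h.cnt.symm.trans h'.cnt
  have := h.card.symm.trans h'.card
  subst e
  exact ⟨rfl, Nat.eq_of_mul_eq_mul_left hi (by omega)⟩

theorem Pf.add (h : Pf φ o i E a N) (h' : Pf φ o i E' a' N') : Pf φ o i (E + E') (a + a') (N + N') := by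
  classical
  refine ⟨st_add h.st h'.st, fun x hx => (Multiset.mem_add.1 hx).elim (h.per x) (h'.per x), ?_, ?_⟩
  · rw [← h.cnt, ← h'.cnt]; convert Multiset.count_add o E E'
  · rw [Multiset.card_add, h.card, h'.card]; ring

theorem Pf.smul (h : Pf φ o i E a N) (k : ℕ) : Pf φ o i (k • E) (k * a) (k * N) := by
  induction k with
  | zero => exact ⟨by simp, by simp, by simp, by simp⟩
  | succ k ih => rw [succ_nsmul, add_mul, add_mul, one_mul, one_mul]; exact ih.add h

theorem pf_repl (ho : φ o = o) (i a : ℕ) : Pf φ o i (.replicate a o) a 0 :=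
  ⟨st_repl ho a, fun x hx h => (h (Multiset.eq_of_mem_replicate hx)).elim, by simp, by simp⟩

theorem pf_orb (hφ : Injective φ) (ho : φ o = o) {x : X} (hx : x ≠ o) (h : minimalPeriod φ x = i)
    (hi : 0 < i) : Pf φ o i (orb φ i x) 0 1 := by
  classical
  have hp : x ∈ periodicPts φ := minimalPeriod_pos_iff_mem_periodicPts.1 (h ▸ hi)
  refine ⟨h ▸ st_orb x, fun y hy _ => ?_, ?_, by simp [card_orb]⟩
  · obtain ⟨j, -, rfl⟩ := mem_orb.1 hy
    rw [minimalPeriod_apply_iterate hp, h]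
  · rw [Multiset.count_eq_zero]
    intro hy
    obtain ⟨j, -, e⟩ := mem_orb.1 hy
    exact hx ((hφ.iterate j) (e.trans (iterate_fixed ho j).symm))

theorem Pf.split (hφ : Injective φ) (ho : φ o = o) (hi : 0 < i) (h : Pf φ o i (E + E') a N)
    (h1 : E.map φ = E) : ∃ a₁ N₁ a₂ N₂, Pf φ o i E a₁ N₁ ∧ Pf φ o i E' a₂ N₂ ∧ a = a₁ + a₂ ∧ N = N₁ + N₂ := by
  obtain ⟨a₁, N₁, h2⟩ := exists_pf hφ ho h1 fun x hx => h.per x (Multiset.mem_add.2 (.inl hx))
  obtain ⟨a₂, N₂, h3⟩ := exists_pf hφ ho (st_right h.st h1) fun x hx => h.per x (Multiset.mem_add.2 (.inr hx))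
  exact ⟨_, _, _, _, h2, h3, h.uniq hi (h2.add h3)⟩

theorem Pf.core (hφ : Injective φ) (ho : φ o = o) (h : Pf φ o i E a N) :
    ∃ E', E = .replicate a o + E' ∧ Pf φ o i E' 0 N ∧ ∀ x ∈ E', x ≠ o := by
  classical
  have e : E = .replicate a o + E.filter (· ≠ o) := by
    conv_lhs => rw [← Multiset.filter_add_not (· = o) E]
    congr 1
    rw [← h.cnt]; convert Multiset.filter_eq' E o
  have h1 := st_filter h.st (· ≠ o) fun x => by rw [← ho, hφ.ne_iff, ho]
  refine ⟨_, e, ⟨h1, fun x hx => h.per x (Multiset.mem_filter.1 hx).1, ?_, ?_⟩,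
    fun x hx => (Multiset.mem_filter.1 hx).2⟩
  · simp
  · have := congrArg Multiset.card e
    rw [Multiset.card_add, Multiset.card_replicate, h.card] at this
    omega

theorem Pf.sub (hφ : Injective φ) (ho : φ o = o) (h : Pf φ o i E a N) {a₁ N₁ : ℕ} (h1 : a₁ ≤ a)
    (h2 : N₁ ≤ N) : ∃ A B, E = A + B ∧ Pf φ o i A a₁ N₁ ∧ Pf φ o i B (a - a₁) (N - N₁) := by
  obtain ⟨E', e, h3, h4⟩ := h.core hφ ho
  obtain ⟨A, B, rfl, h5, h6⟩ := st_sub hφ N₁ h3.st (fun x hx => h3.per x hx (h4 x hx))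
    (by rw [h3.card, zero_add]; exact Nat.mul_le_mul_left _ h2)
  have c0 : ∀ C : Multiset X, C ≤ A + B → C.map φ = C → ∀ n, C.card = i * n → Pf φ o i C 0 n :=
    fun C hC s n hn => ⟨s, fun x hx => h3.per x (Multiset.mem_of_le hC hx), by
      classical
      rw [Multiset.count_eq_zero]; exact fun hx => h4 _ (Multiset.mem_of_le hC hx) rfl, by simpa using hn⟩
  refine ⟨.replicate a₁ o + A, .replicate (a - a₁) o + B, ?_, ?_, ?_⟩
  · rw [e, add_add_add_comm, ← Multiset.replicate_add, Nat.add_sub_cancel' h1]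
  · simpa using (pf_repl ho i a₁).add (c0 A (Multiset.le_add_right _ _) h5 _ h6)
  · have := h3.card
    rw [Multiset.card_add, h6, zero_add] at this
    simpa using (pf_repl ho i (a - a₁)).add (c0 B (Multiset.le_add_left _ _) (st_right h3.st h5) (N - N₁)
      (by rw [Nat.mul_sub]; omega))

theorem Pf.eq_repl (hφ : Injective φ) (ho : φ o = o) (h : Pf φ o i E a 0) : E = .replicate a o := by
  obtain ⟨E', e, h3, -⟩ := h.core hφ ho
  rw [e, Multiset.card_eq_zero.1 (h3.card.trans (by simp)), add_zero]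

theorem Pf.congr {ψ : X → X} (h : Pf φ o i E a N) (hs : ∀ x ∈ E, ∀ j, ψ^[j] x = φ^[j] x) :
    Pf ψ o i E a N :=
  ⟨(Multiset.map_congr rfl fun x hx => hs x hx 1).trans h.st, fun x hx hxo => by
    rw [← h.per x hx hxo]
    exact minimalPeriod_eq_minimalPeriod_iff.2 fun n => by rw [IsPeriodicPt, IsPeriodicPt, IsFixedPt, IsFixedPt, hs x hx],
    h.cnt, h.card⟩

end Comb

section Count

theorem cong_fix {S : Type*} (P : S → Prop) [Finite {s // P s}] (f : S → S) (hf : ∀ s, P s → P (f s))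
    {r k : ℕ} [Fact r.Prime] (hr : ∀ s, P s → f^[r ^ k] s = s) :
    Nat.card {s // P s} ≡ Nat.card {s // P s ∧ f s = s} [MOD r] := by
  classical
  have := Fintype.ofFinite {s // P s}
  let g : Function.End {s // P s} := fun s => ⟨f s, hf _ s.2⟩
  have hg : ∀ n (s : {s // P s}), ((g ^ n) s).1 = f^[n] s := fun n => by
    induction n with
    | zero => intro s; rfl
    | succ n ih => intro s; rw [pow_succ', iterate_succ_apply', ← ih]; rfl
  have := Equiv.Perm.card_fixedPoints_modEq (f := g) (p := r) (n := k)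
    (funext fun s => Subtype.ext ((hg _ s).trans (hr _ s.2)))
  rw [← Nat.card_eq_fintype_card, ← Nat.card_eq_fintype_card] at this
  refine this.trans (by
    rw [Nat.card_congr (α := fixedPoints g) (β := {s // P s ∧ f s = s})
      ⟨fun s => ⟨s.1.1, s.1.2, congrArg Subtype.val s.2⟩, fun s => ⟨⟨s.1, s.2.1⟩, Subtype.ext s.2.2⟩,
        fun _ => rfl, fun _ => rfl⟩])

theorem card_dvd_trans {S H : Type*} [Group H] [MulAction H S] (P : S → Prop) (s₀ : S)
    (h : ∀ s, P s ↔ ∃ g : H, g • s₀ = s) : Nat.card {s // P s} ∣ Nat.card H := by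
  rw [Nat.card_congr (Equiv.subtypeEquivRight (q := (· ∈ MulAction.orbit H s₀)) h),
    Nat.card_congr (MulAction.orbitEquivQuotientStabilizer H s₀)]
  exact Subgroup.card_quotient_dvd_card _

/-- the basic derangement criterion -/
theorem no_fix {S G : Type*} [Group G] [Finite G] [MulAction G S] (P : S → Prop) [Finite {s // P s}]
    (x : G) (hx : ∀ s, P s → P (x • s)) {r k : ℕ} [Fact r.Prime] (hr : ∀ s, P s → x ^ r ^ k • s = s)
    (H : Subgroup G) (h1 : ∀ h ∈ H, h ^ r = 1 → h = 1) (h2 : ∀ h ∈ H, ∀ s, P s → P (h • s))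
    (h3 : ∀ h ∈ H, h * x = x * h)
    (h4 : ∀ s s', P s → P s' → x • s = s → x • s' = s' → ∃ h ∈ H, h • s = s')
    (hd : r ∣ Nat.card {s // P s}) (s : S) (hs : P s) : x • s ≠ s := fun e => by
  have c := cong_fix P (x • ·) hx (r := r) (k := k) fun s hs => by rw [smul_iterate]; exact hr s hs
  have d := card_dvd_trans (H := H) (fun s => P s ∧ x • s = s) s fun s' =>
    ⟨fun h => let ⟨g, hg, e⟩ := h4 s s' hs h.1 e h.2; ⟨⟨g, hg⟩, e⟩, by
      rintro ⟨⟨g, hg⟩, rfl⟩
      exact ⟨h2 g hg s hs, by change x • g • s = g • s; rw [← mul_smul, ← h3 g hg, mul_smul, e]⟩⟩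
  obtain ⟨g, hg⟩ := exists_prime_orderOf_dvd_card' r (((c.dvd_iff dvd_rfl).1 hd).trans d)
  have := h1 g g.2 (by rw [← hg]; exact congrArg Subtype.val (pow_orderOf_eq_one g))
  rw [show g = 1 from Subtype.ext this, orderOf_one] at hg
  exact (Fact.out : r.Prime).one_lt.ne hg

theorem not_dvd_of_uniq {S : Type*} (P : S → Prop) [Finite {s // P s}] (f : S → S) (hf : ∀ s, P s → P (f s))
    {r k : ℕ} [Fact r.Prime] (hr : ∀ s, P s → f^[r ^ k] s = s) (s₀ : S)
    (h : ∀ s, P s ∧ f s = s ↔ s = s₀) : ¬ r ∣ Nat.card {s // P s} := fun hd => by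
  have c := cong_fix P f hf hr
  rw [Nat.card_congr (Equiv.subtypeEquivRight h), Nat.card_unique (α := {s // s = s₀})] at c
  exact (Fact.out : r.Prime).one_lt.ne' (Nat.dvd_one.1 ((c.dvd_iff dvd_rfl).1 hd))

end Count

variable {F K : Type*} [Field F] [Field K] [Algebra F K] {V W : Type*} [AddCommGroup V] [Module F V]
  [AddCommGroup W] [Module F W] {p : ℕ} {u : End F V} {v : End F W} {E E' : Multiset K}

/-- eigenvalues of a semisimple map -/
def EV (u : End F V) (E : Multiset K) : Prop := JD u (E.map (·, 1))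

omit [Field K] in
theorem dimD_ss (E : Multiset K) : dimD (E.map (·, 1)) = E.card := by simp [dimD]

theorem detD_ss (E : Multiset K) : detD (E.map (·, 1)) = E.prod := by simp [detD]

omit [Field K] in
theorem ss_pm (φ : K → K) (E : Multiset K) : (E.map (·, 1)).map (pm φ) = (E.map φ).map (·, 1) := by
  simp only [Multiset.map_map]; rfl

omit [Field K] in
theorem ss_inj : Injective fun E : Multiset K => E.map (·, (1 : ℕ)) :=
  Multiset.map_injective fun _ _ h => (Prod.ext_iff.1 h).1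

omit [Field K] in
theorem ss_st {φ : K → K} : (E.map (·, 1)).map (pm φ) = E.map (·, 1) ↔ E.map φ = E := by
  rw [ss_pm]; exact ss_inj.eq_iff

omit [Field K] in
theorem exists_ss {D : Multiset (K × ℕ)} (h : ∀ x ∈ D, x.2 = 1) : ∃ E : Multiset K, D = E.map (·, 1) :=
  ⟨D.map Prod.fst, by
    rw [Multiset.map_map]
    exact (Multiset.map_id _).symm.trans (Multiset.map_congr rfl fun x hx => Prod.ext rfl (h x hx))⟩

theorem EV.st (h : EV u E) : E.map (fr F) = E := ss_st.1 h.inv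

theorem EV.dim (h : EV u E) : finrank F V = E.card := (JD.dim h).trans (dimD_ss E)

theorem EV.of_sim (h : EV u E) (e : Sim u v) : EV v E := JD.of_sim h e

theorem EV.smul [Finite F] (h : EV u E) {c : F} (hc : c ≠ 0) : EV (c • u) (E.map (algebraMap F K c * ·)) := by
  have := JD.smul h hc; rwa [ss_pm] at this

variable [FiniteDimensional F V] [FiniteDimensional F W]

theorem EV.prod (h : EV u E) (h' : EV v E') : EV (u.prodMap v : End F (V × W)) (E + E') := by
  have := JD.prod h h'; rwa [← Multiset.map_add] at this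

theorem EV.aeval_iff (h : EV u E) {f : F[X]} (hf : f ≠ 0) : aeval u f = 0 ↔ ∀ a ∈ E, aeval a f = 0 := by
  rw [JD.aeval_eq_zero_iff h hf, Multiset.forall_mem_map_iff]
  exact forall₂_congr fun a _ => mu_pos hf

theorem EV.pow_iff (h : EV u E) {r : ℕ} (hr : r ≠ 0) (c : F) :
    u ^ r = algebraMap F _ c ↔ ∀ a ∈ E, a ^ r = algebraMap F K c := by
  have := h.aeval_iff (X_pow_sub_C_ne_zero (Nat.pos_of_ne_zero hr) c)
  simpa [sub_eq_zero] using this

theorem EV.pow_one_iff (h : EV u E) {r : ℕ} (hr : r ≠ 0) : u ^ r = 1 ↔ ∀ a ∈ E, a ^ r = 1 := by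
  simpa using h.pow_iff hr 1

theorem EV.scalar_iff (h : EV u E) (c : F) : u = algebraMap F _ c ↔ ∀ a ∈ E, a = algebraMap F K c := by
  simpa using h.pow_iff one_ne_zero c

theorem EV.kd_eq (h : EV u E) {f : F[X]} (hf : f ≠ 0) [DecidablePred fun a : K => aeval a f = 0] :
    kd u f = (E.filter fun a => aeval a f = 0).card := by
  rw [h.kd f hf, Multiset.map_map]
  clear h
  induction E using Multiset.induction_on with
  | empty => simp
  | cons a E ih =>
    rw [Multiset.map_cons, Multiset.sum_cons, ih, Multiset.filter_cons]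
    have := mu_pos (α := a) hf
    split_ifs with e
    · simp only [Function.comp, Multiset.card_add, Multiset.card_singleton]; have := this.2 e; omega
    · simp only [Function.comp, zero_add]; have := mt this.1 e; omega

variable [Finite F]

theorem EV.sim (h : EV u E) (h' : EV v E) : Sim u v := JD.sim h h'

variable [Algebra.IsAlgebraic F K]

theorem EV.unique (h : EV u E) (h' : EV u E') : E = E' := ss_inj (JD.unique h h')

theorem EV.det (h : EV u E) : algebraMap F K (LinearMap.det u) = E.prod := (JD.det h).trans (detD_ss E)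

theorem exists_of_ev (h : E.map (fr F) = E) (hd : finrank F V = E.card) : ∃ u : End F V, EV u E :=
  exists_of_jd (ss_st.2 h) (by simp) (hd.trans (dimD_ss E).symm)

theorem EV.isUnit (h : EV u E) (h0 : ∀ a ∈ E, a ≠ 0) : IsUnit u := JD.isUnit h (by simpa using h0)

theorem EV.ne_zero (h : EV u E) (hu : IsUnit u) : ∀ a ∈ E, a ≠ 0 := by simpa using JD.ne_zero h hu

theorem jd_split {D₁ D₂ : Multiset (K × ℕ)} (h : JD u (D₁ + D₂)) (h1 : D₁.map (pm (fr F)) = D₁) :
    ∃ (U U' : Submodule F V) (i : ∀ x ∈ U, u x ∈ U) (i' : ∀ x ∈ U', u x ∈ U'), IsCompl U U' ∧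
      JD (u.restrict i) D₁ ∧ JD (u.restrict i') D₂ := by
  obtain ⟨u₁, h₁⟩ := exists_of_jd (V := Fin (dimD D₁) → F) h1 (fun x hx => h.pos x (Multiset.mem_add.2 (.inl hx)))
    (by simp)
  obtain ⟨u₂, h₂⟩ := exists_of_jd (V := Fin (dimD D₂) → F) (st_right h.inv h1)
    (fun x hx => h.pos x (Multiset.mem_add.2 (.inr hx))) (by simp)
  obtain ⟨e, he⟩ := (h₁.prod h₂).sim h
  let f₁ := e.toLinearMap ∘ₗ LinearMap.inl F _ _
  let f₂ := e.toLinearMap ∘ₗ LinearMap.inr F _ _
  have a₁ : ∀ x, f₁ (u₁ x) = u (f₁ x) := fun x => by simpa [f₁] using he (x, 0)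
  have a₂ : ∀ x, f₂ (u₂ x) = u (f₂ x) := fun x => by simpa [f₂] using he (0, x)
  refine ⟨LinearMap.range f₁, LinearMap.range f₂, by rintro _ ⟨x, rfl⟩; exact ⟨_, a₁ x⟩,
    by rintro _ ⟨x, rfl⟩; exact ⟨_, a₂ x⟩, ?_,
    h₁.of_sim ⟨.ofInjective f₁ (e.injective.comp LinearMap.inl_injective), fun x => Subtype.ext (a₁ x)⟩,
    h₂.of_sim ⟨.ofInjective f₂ (e.injective.comp LinearMap.inr_injective), fun x => Subtype.ext (a₂ x)⟩⟩
  rw [LinearMap.range_comp, LinearMap.range_comp]
  exact (Submodule.orderIsoMapComap e).isCompl LinearMap.isCompl_range_inl_inr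

theorem jd_of_compl {D D₁ D₂ : Multiset (K × ℕ)} {U U' : Submodule F V} {i : ∀ x ∈ U, u x ∈ U}
    {i' : ∀ x ∈ U', u x ∈ U'} (c : IsCompl U U') (h : JD u D) (h1 : JD (u.restrict i) D₁)
    (h2 : JD (u.restrict i') D₂) : D = D₁ + D₂ :=
  h.unique ((h1.prod h2).of_sim (sim_restrict c i i'))

theorem EV.split (h : EV u (E + E')) (h1 : E.map (fr F) = E) :
    ∃ (U U' : Submodule F V) (i : ∀ x ∈ U, u x ∈ U) (i' : ∀ x ∈ U', u x ∈ U'), IsCompl U U' ∧
      EV (u.restrict i) E ∧ EV (u.restrict i') E' :=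
  jd_split (by rw [← Multiset.map_add]; exact h) (ss_st.2 h1)

theorem EV.of_compl {E₁ E₂ : Multiset K} {U U' : Submodule F V} {i : ∀ x ∈ U, u x ∈ U}
    {i' : ∀ x ∈ U', u x ∈ U'} (c : IsCompl U U') (h : EV u E) (h1 : EV (u.restrict i) E₁)
    (h2 : EV (u.restrict i') E₂) : E = E₁ + E₂ :=
  h.unique ((h1.prod h2).of_sim (sim_restrict c i i'))

variable [IsAlgClosed K]

theorem exists_ev {f : F[X]} (hf : f.Separable) (h : aeval u f = 0) : ∃ E : Multiset K, EV u E := by
  obtain ⟨D, hD⟩ := exists_jd (K := K) u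
  obtain ⟨E, rfl⟩ := exists_ss (D := D) fun x hx => by
    have h1 := (hD.aeval_eq_zero_iff hf.ne_zero).1 h x hx
    have h2 := hD.pos x hx
    rw [mu_sep hf ((mu_pos hf.ne_zero).1 (h2.trans_le h1))] at h1
    omega
  exact ⟨E, hD⟩

omit [IsAlgClosed K] in
theorem EV.exists_sep (h : EV u E) : ∃ f : F[X], f.Separable ∧ aeval u f = 0 := by
  have := Fintype.ofFinite F
  obtain ⟨p, hp⟩ := CharP.exists F
  obtain ⟨n, hp', hn⟩ := FiniteField.card F p
  let N := (E.map (minimalPeriod (fr F))).prod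
  have N0 : N ≠ 0 := Multiset.prod_ne_zero fun h0 => by
    obtain ⟨a, ha, e⟩ := Multiset.mem_map.1 h0
    exact (peel fr_inj h.st ha).1.ne' e
  have s : (X ^ Nat.card F ^ N - X : F[X]).Separable := galois_poly_separable p _ (by
    rw [Nat.card_eq_fintype_card, hn, ← pow_mul]; exact dvd_pow_self _ (mul_ne_zero n.ne_zero N0))
  refine ⟨_, s, (h.aeval_iff s.ne_zero).2 fun a ha => ?_⟩
  simp only [map_sub, map_pow, aeval_X, sub_eq_zero, ← fr_iter]
  exact isPeriodicPt_iff_minimalPeriod_dvd.2 (Multiset.dvd_prod (Multiset.mem_map_of_mem _ ha))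

theorem EV.restrict (h : EV u E) {U : Submodule F V} (i : ∀ x ∈ U, u x ∈ U) :
    ∃ E₁ : Multiset K, EV (u.restrict i) E₁ :=
  let ⟨_, h1, h2⟩ := h.exists_sep; exists_ev h1 (aeval_restrict h2 i)

omit [IsAlgClosed K] in
theorem EV.compl (h : EV u E) {U : Submodule F V} (i : ∀ x ∈ U, u x ∈ U) :
    ∃ U' : Submodule F V, (∀ x ∈ U', u x ∈ U') ∧ IsCompl U U' := by
  obtain ⟨f, h1, h2⟩ := h.exists_sep
  obtain ⟨U', h3, h4⟩ := Module.End.isSemisimple_iff.1
    (Module.End.isSemisimple_of_squarefree_aeval_eq_zero h1.squarefree h2) U i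
  exact ⟨U', h3, h4⟩

theorem EV.sub (h : EV u E) {U : Submodule F V} (i : ∀ x ∈ U, u x ∈ U) :
    ∃ E₁ E₂ : Multiset K, E = E₁ + E₂ ∧ EV (u.restrict i) E₁ := by
  obtain ⟨U', i', c⟩ := h.compl i
  obtain ⟨E₁, h1⟩ := h.restrict i
  obtain ⟨E₂, h2⟩ := h.restrict i'
  exact ⟨_, _, h.of_compl c h1 h2, h1⟩

theorem EV.inv_iff (h : EV u E) (m : ℕ) : (∃ U : Submodule F V, finrank F U = m ∧ ∀ x ∈ U, u x ∈ U) ↔
    ∃ E₁ E₂, E = E₁ + E₂ ∧ E₁.map (fr F) = E₁ ∧ E₁.card = m :=
  ⟨fun ⟨_, h1, i⟩ => let ⟨E₁, E₂, e, h2⟩ := h.sub i; ⟨E₁, E₂, e, h2.st, h2.dim.symm.trans h1⟩, by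
    rintro ⟨E₁, E₂, rfl, h1, rfl⟩
    obtain ⟨U, -, i, -, -, h2, -⟩ := h.split h1
    exact ⟨U, h2.dim, i⟩⟩

theorem sep_pow {r : ℕ} (hr : (r : F) ≠ 0) {c : F} (hc : c ≠ 0) : (X ^ r - C c : F[X]).Separable :=
  separable_X_pow_sub_C c hr hc

theorem exists_ev_pow {r : ℕ} (hr : (r : F) ≠ 0) {c : F} (hc : c ≠ 0) (h : u ^ r = algebraMap F _ c) :
    ∃ E : Multiset K, EV u E ∧ ∀ a ∈ E, a ^ r = algebraMap F K c := by
  obtain ⟨E, hE⟩ := exists_ev (K := K) (u := u) (sep_pow hr hc) (by simp [h])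
  exact ⟨E, hE, (hE.pow_iff (by rintro rfl; simp at hr) c).1 h⟩

theorem ev_one : EV (1 : End F V) (.replicate (finrank F V) (1 : K)) := by
  have := jd_one (F := F) (K := K) (V := V); rwa [EV, Multiset.map_replicate]

end H25.El
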