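import Cfsg.Agent.H25.El9

/-! Elusive actions, X: reduction to numerical conditions. -/

set_option autoImplicit false

namespace H25.El

open Module Polynomial Function H22 H27.Sp H12 H12.CForm Pointwise

universe u

variable {F : Type u} {K : Type*} [Field F] [Field K] [Algebra F K] {T : FormType F} {θ : K →+* K}
  {V W : Type u} [AddCommGroup V] [Module F V] [AddCommGroup W] [Module F W] {C : CForm T V} {C' : CForm T W}
  {m n j k r b c N : ℕ} {γ δ η : ℤˣ} {u : End F V} {E S A : Multiset K} {Q Q' : ℤ} {κ : Cls T}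

/-- all isometries of order `r` satisfy `P` -/
def LL (C : CForm T V) (r : ℕ) (P : End F V → Prop) : Prop := ∀ u : End F V, C.IsIsomTo C u → u ^ r = 1 → u ≠ 1 → P u

theorem isom_one : C.IsIsomTo C (1 : End F V) := ⟨fun _ _ => rfl, fun _ => rfl⟩

theorem isom_pow (hu : C.IsIsomTo C u) (n : ℕ) : C.IsIsomTo C (u ^ n : End F V) := by
  induction n with
  | zero => exact isom_one
  | succ n ih => rw [pow_succ]; exact isom_comp ih hu

theorem isom_smul (hu : C.IsIsomTo C u) {w : F} (h : w * T.σ w = 1) : C.IsIsomTo C (w • u : End F V) :=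
  ⟨fun x y => by
    rw [LinearMap.smul_apply, LinearMap.smul_apply, C.B_smul_left, C.B_smul_right, hu.1, ← mul_assoc, mul_comm _ w, h, one_mul],
    fun x => by rw [LinearMap.smul_apply, C.N_smul, h, hu.2, one_mul]⟩

theorem scal_norm (hC : C.Nondeg) [Nontrivial V] {z : F} (h : C.IsIsomTo C (algebraMap F (End F V) z)) : z * T.σ z = 1 := by
  obtain ⟨x, hx⟩ := exists_ne (0 : V)
  obtain ⟨y, hy⟩ := hC.exists_eq hx 1
  have := h.1 x y
  simp only [Module.algebraMap_end_apply] at this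
  rwa [C.B_smul_left, C.B_smul_right, hy, mul_one, mul_comm] at this

theorem nontriv (h : ∀ c, u ≠ algebraMap F _ c) : Nontrivial V :=
  not_subsingleton_iff_nontrivial.1 fun _ => h 0 (Subsingleton.elim _ _)

theorem lhs_of_ll [Fact r.Prime] (hC : C.Nondeg) {G P : End F V → Prop} (hG : ∀ u, G u → C.IsIsomTo C u)
    (hs : ∀ u (c : F), c ≠ 0 → P (c • u) → P u) (H : LL C r P) (u : End F V) (h1 : G u) {w : F} (h2 : w * T.σ w = 1)
    (h3 : u ^ r = algebraMap F _ (w ^ r)) (h4 : ∀ c, u ≠ algebraMap F _ c) : P u := by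
  have w0 := left_ne_zero_of_mul_eq_one h2
  refine hs u _ (inv_ne_zero w0) (H _ (isom_smul (hG u h1) (by rw [map_inv₀, ← mul_inv, h2, _root_.inv_one]))
    (smul_pow_one w0 h3) fun e => h4 w ?_)
  rw [Algebra.algebraMap_eq_smul_one, ← e, smul_smul, mul_inv_cancel₀ w0, one_smul]

variable [FiniteDimensional F V] [FiniteDimensional F W] [Finite F] [Algebra.IsAlgebraic F K] [IsAlgClosed K] [Fact r.Prime]

namespace Blk
variable (h : Blk κ θ r c η Q)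
include h

theorem lhs_iff (hc : c ≠ 1) (hC : C.Nondeg) {G P : End F V → Prop} (hG : ∀ u, G u → C.IsIsomTo C u)
    (hG' : ∀ u : End F V, C.IsIsomTo C u → u ^ r = 1 → G u) (hs : ∀ u (c : F), c ≠ 0 → P (c • u) → P u)
    (hl : ∀ z : F, z * T.σ z = 1 → ∃ w, w * T.σ w = 1 ∧ w ^ r = z) : Lhs G r P ↔ LL C r P := by
  refine ⟨fun H u a b e => H u (hG' u a b) ⟨1, by simpa⟩ ?_, fun H u a ⟨z, b⟩ e => ?_⟩
  · obtain ⟨E, N, d⟩ := h.exists_dat hC a b
    exact h.not_scalar d hc (mt (h.eq_one_iff d).2 e)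
  · haveI := nontriv e
    obtain ⟨w, h1, rfl⟩ := hl z (scal_norm hC (b ▸ isom_pow (hG u a) r))
    exact lhs_of_ll hC hG hs H u a h1 b e

theorem ll_iff (hC : C.Nondeg) {P : End F V → Prop} {R : Multiset K → ℕ → Prop}
    (H : ∀ u E N, Dat C r c Q u E N → (P u ↔ R E N)) :
    LL C r P ↔ ∀ N ≠ 0, κ.Adm c η (finrank F V) (κ.cl C) N → ∀ E, Rts r c Q E N → R E N := by
  refine ⟨fun a N b d E e => ?_, fun a u b d e => ?_⟩
  · obtain ⟨x, -, f, -⟩ := h.exists_elt hC e d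
    exact (H _ _ _ f).1 (a _ f.isom f.pow (mt (h.eq_one_iff f).1 b))
  · obtain ⟨E, N, f⟩ := h.exists_dat hC b d
    exact (H _ _ _ f).2 (a N (mt (h.eq_one_iff f).2 e) (h.adm f) E f.toRts)

theorem nd_main (hC : C.Nondeg) : LL C r (fun u => ∃ A, κ.ND C A m γ ∧ ∀ x ∈ A, u x ∈ A) ↔
    ∀ N ≠ 0, κ.Adm c η (finrank F V) (κ.cl C) N → ∃ N₁ ≤ N, κ.Sol c η (finrank F V) (κ.cl C) m γ N N₁ := by
  rw [h.ll_iff hC fun u E N d => h.nd_iff d]
  exact forall₃_congr fun N _ _ => ⟨fun H => let ⟨E, a⟩ := h.exists_rts N; H E a, fun H _ _ => H⟩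

omit [Finite F] [Algebra.IsAlgebraic F K] [IsAlgClosed K] [Fact r.Prime] in
theorem exists_max (hC : C.Nondeg) :
    ∃ N, κ.Adm c η (finrank F V) (κ.cl C) N ∧ ∀ N' > N, ¬ κ.Adm c η (finrank F V) (κ.cl C) N' := by
  classical
  exact ⟨_, Nat.findGreatest_spec (P := κ.Adm c η (finrank F V) (κ.cl C)) (Nat.zero_le (finrank F V))
    ⟨by simp, by simpa using Cls.ex_of hC⟩, fun N' a b => Nat.findGreatest_is_greatest a
      ((Nat.le_mul_of_pos_left _ h.pos).trans b.1) b⟩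

theorem ts_le (hC : C.Nondeg) (hd : r ∣ Nat.card {s // C.TS s ∧ finrank F s = m}) (hm : C.HasTS m)
    (H : LL C r fun u => ∃ A, (C.TS A ∧ finrank F A = m) ∧ ∀ x ∈ A, u x ∈ A) : orderOf (Nat.card F : ZMod r) ≤ m := by
  obtain ⟨N, a, b⟩ := h.exists_max hC
  obtain ⟨E, hE⟩ := h.exists_rts N
  obtain ⟨x, -, d, -⟩ := h.exists_elt hC hE a
  refine not_lt.1 fun l => h.ts_deg hC hd a b l d ?_
  by_cases e : (x : End F V) = 1
  · obtain ⟨A, hA⟩ := hm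
    exact ⟨A, hA, fun v hv => by rwa [show x v = v from LinearMap.congr_fun e v]⟩
  · exact H _ d.isom d.pow e

omit h [FiniteDimensional F V] [IsAlgClosed K] [Algebra.IsAlgebraic F K] in
theorem per_fr {a : K} (h1 : a ^ r = 1 ∧ a ≠ 1) : minimalPeriod (fr F) a = orderOf (Nat.card F : ZMod r) := by
  rw [fr_eq_zpow, per_root h1.1 h1.2, ord_cast]

omit [IsAlgClosed K] in
theorem tsd_split (hb : b = orderOf (Nat.card F : ZMod r)) (hc : c = 2 * b) (hι : du θ = (· ^ Q'))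
    (hne : ∀ j, (Nat.card F : ZMod r) ^ j ≠ Q') (hιι : (∀ a, du θ (du θ a) = a) ∨ ∀ a, du θ (du θ a) = fr F a)
    (d : Rts r c Q E N) : TSd (fr F) (du θ) E k ↔ ∃ M ≤ N, k = b * M := by
  have b0 : 0 < b := hb ▸ ord_pos h.hr
  constructor
  · rintro ⟨E₁, E₂, rfl, s, rfl⟩
    obtain ⟨M, hM⟩ := st_dvd fr_inj s (i := b) fun a ha => by rw [per_fr (d.rt a (by simp [ha])), hb]
    have := d.card
    simp only [Multiset.card_add, Multiset.card_map, hM, hc, mul_assoc] at this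
    exact ⟨M, Nat.le_of_mul_le_mul_left (by omega) b0, hM⟩
  · rintro ⟨M, l, rfl⟩
    have s := (h.st E fun a ha => (d.rt a ha).1).1 d.st
    obtain ⟨A, rfl, h1⟩ := exists_dual fr_inj (fun a => by rw [hι, fr_eq_zpow]; simp only [← zpow_mul, mul_comm]) hιι
      _ E le_rfl s.1 s.2 fun a ha j e => hne j (by
        rw [fr_eq_zpow, zp_iter, hι] at e
        simpa using zpow_inj' (d.rt a ha).1 (d.rt a ha).2 e)
    have := d.card
    simp only [Multiset.card_add, Multiset.card_map, hc, mul_assoc] at this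
    have := Nat.mul_le_mul_left b l
    obtain ⟨A₁, B, rfl, h2, h3⟩ := st_sub fr_inj M h1 (i := b) (fun a ha => by rw [per_fr (d.rt a (by simp [ha])), hb])
      (by omega)
    exact ⟨A₁, B + B.map (du θ), by rw [Multiset.map_add]; abel, h2, h3⟩

theorem ts_split (hb : b = orderOf (Nat.card F : ZMod r)) (hc : c = 2 * b) (hι : du θ = (· ^ Q'))
    (hne : ∀ j, (Nat.card F : ZMod r) ^ j ≠ Q') (hιι : (∀ a, du θ (du θ a) = a) ∨ ∀ a, du θ (du θ a) = fr F a)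
    (hC : C.Nondeg) : LL C r (fun u => ∃ A, (C.TS A ∧ finrank F A = m) ∧ ∀ x ∈ A, u x ∈ A) ↔
      ∀ N ≠ 0, κ.Adm c η (finrank F V) (κ.cl C) N →
        ∃ M ≤ N, b * M ≤ m ∧ κ.HT (finrank F V - c * N) (η ^ N * κ.cl C) (m - b * M) := by
  rw [h.ll_iff hC (R := fun _ N => ∃ M ≤ N, b * M ≤ m ∧ κ.HT (finrank F V - c * N) (η ^ N * κ.cl C) (m - b * M))
    fun u E N d => ?_]
  · exact forall₃_congr fun N _ _ => ⟨fun H => let ⟨E, a⟩ := h.exists_rts N; H E a, fun H _ _ => H⟩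
  · simp only [h.ts_iff d, h.tsd_split hb hc hι hne hιι d.toRts]
    exact ⟨by rintro ⟨_, a, ⟨M, b, rfl⟩, e⟩; exact ⟨M, b, a, e⟩, fun ⟨M, a, b, e⟩ => ⟨_, b, ⟨M, a, rfl⟩, e⟩⟩

omit h [IsAlgClosed K] in
theorem st_du (hι : du θ = (· ^ Q')) (hj : (Nat.card F : ZMod r) ^ j = Q') (h1 : ∀ a ∈ E, a ^ r = 1)
    (s : E.map (fr F) = E) : E.map (du θ) = E :=
  hι ▸ st_pow h1 (fr_eq_zpow (F := F) (K := K) ▸ s) j (by simpa)

omit [IsAlgClosed K] in
theorem tsd_sd (hb : c = orderOf (Nat.card F : ZMod r)) (hι : du θ = (· ^ Q')) (hj : (Nat.card F : ZMod r) ^ j = Q')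
    (h1 : ∀ a ∈ S + 2 • A, a ^ r = 1 ∧ a ≠ 1) (h2 : S.Nodup) (h3 : A.map (fr F) = A) {M₀ : ℕ} (h4 : A.card = c * M₀) :
    TSd (fr F) (du θ) (S + 2 • A) k ↔ ∃ M ≤ M₀, k = c * M := by
  constructor
  · rintro ⟨E₁, E₂, e, s, rfl⟩
    have h5 : ∀ a ∈ E₁, a ^ r = 1 ∧ a ≠ 1 := fun a ha => h1 a (by simp [e, ha])
    obtain ⟨M, hM⟩ := st_dvd fr_inj s (i := c) fun a ha => by rw [per_fr (h5 a ha), hb]
    rw [st_du hι hj (fun a ha => (h5 a ha).1) s, ← two_nsmul] at e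
    have := Multiset.card_le_card (half_le h2 ((Multiset.le_add_right _ E₂).trans e.ge))
    exact ⟨M, Nat.le_of_mul_le_mul_left (by omega) h.pos, hM⟩
  · rintro ⟨M, l, rfl⟩
    obtain ⟨A₁, B, rfl, s, h5⟩ := st_sub fr_inj M h3 (i := c) (fun a ha => by rw [per_fr (h1 a (by simp [ha])), hb])
      (h4 ▸ Nat.mul_le_mul_left c l)
    exact ⟨A₁, S + 2 • B, by rw [st_du hι hj (fun a ha => (h1 a (by simp [ha])).1) s, two_nsmul, two_nsmul]; abel, s, h5⟩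

omit [Finite F] [Algebra.IsAlgebraic F K] in
theorem nodup_card (h1 : ∀ a ∈ S, a ^ r = 1 ∧ a ≠ 1) (h2 : S.Nodup) : S.card ≤ r - 1 := by
  have := Multiset.card_le_card ((Multiset.le_iff_subset (Multiset.nodup_cons.2 ⟨fun h => (h1 1 h).2 rfl, h2⟩)).2
    fun a ha => (mem_rt (r := r)).2 ((Multiset.mem_cons.1 ha).elim (by rintro rfl; simp) fun ha => (h1 a ha).1))
  rw [rt_card, Multiset.card_cons] at this
  omega

omit [Finite F] [Algebra.IsAlgebraic F K] in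
theorem exists_nodup {φ : K → K} (hφ : Injective φ) (h0 : φ 1 = 1) (h1 : ∀ a, a ^ r = 1 → φ a ^ r = 1) {i : ℕ}
    (h2 : ∀ a, a ^ r = 1 ∧ a ≠ 1 → minimalPeriod φ a = i) (h3 : i * j ≤ r - 1) :
    ∃ S : Multiset K, (∀ a ∈ S, a ^ r = 1 ∧ a ≠ 1) ∧ S.Nodup ∧ S.map φ = S ∧ S.card = i * j := by
  obtain ⟨R, hR⟩ := Multiset.exists_cons_of_mem ((mem_rt (r := r)).2 (one_pow r : (1 : K) ^ r = 1))
  have n := rt_nodup (castK K h.hr) one_ne_zero
  have s := rt_st (castK K h.hr) one_ne_zero hφ h1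
  have e := rt_card (r := r) (1 : K)
  have h4 : ∀ a ∈ R, a ^ r = 1 ∧ a ≠ 1 := fun a ha => ⟨mem_rt.1 (hR ▸ Multiset.mem_cons_of_mem ha), by
    rintro rfl; exact (Multiset.nodup_cons.1 (hR ▸ n)).1 ha⟩
  rw [hR] at n s e
  rw [Multiset.map_cons, h0, Multiset.cons_inj_right] at s
  rw [Multiset.card_cons] at e
  obtain ⟨S, B, rfl, a, b⟩ := st_sub hφ j s (fun a ha => h2 a (h4 a ha)) (by omega)
  exact ⟨S, fun a ha => h4 a (by simp [ha]), Multiset.nodup_of_le (Multiset.le_add_right _ _) n.of_cons, a, b⟩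

theorem sd_dec (hb : c = orderOf (Nat.card F : ZMod r)) (d : Rts r c Q E N) : ∃ S A j M₀, E = S + 2 • A ∧ S.Nodup ∧
    A.map (fr F) = A ∧ A.card = c * M₀ ∧ N = j + 2 * M₀ ∧ j ≤ (r - 1) / c := by
  obtain ⟨S, A, rfl, h1, h2, h3⟩ := exists_half_st fr_inj ((h.st E fun a ha => (d.rt a ha).1).1 d.st).1
  obtain ⟨j, hj⟩ := st_dvd fr_inj h2 (i := c) fun a ha => by rw [per_fr (d.rt a (by simp [ha])), hb]
  obtain ⟨M, hM⟩ := st_dvd fr_inj h3 (i := c) fun a ha => by rw [per_fr (d.rt a (by simp [ha])), hb]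
  refine ⟨S, A, j, M, rfl, h1, h3, hM, Nat.eq_of_mul_eq_mul_left h.pos ?_, (Nat.le_div_iff_mul_le h.pos).2 ?_⟩
  · rw [← d.card, Multiset.card_add, Multiset.card_nsmul, hj, hM]; ring
  · rw [mul_comm, ← hj]; exact h.nodup_card (fun a ha => d.rt a (by simp [ha])) h1

theorem ts_sd (hb : c = orderOf (Nat.card F : ZMod r)) (hι : du θ = (· ^ Q')) (hj : (Nat.card F : ZMod r) ^ j = Q')
    (hC : C.Nondeg) : LL C r (fun u => ∃ A, (C.TS A ∧ finrank F A = m) ∧ ∀ x ∈ A, u x ∈ A) ↔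
      ∀ j M₀, j + 2 * M₀ ≠ 0 → j ≤ (r - 1) / c → κ.Adm c η (finrank F V) (κ.cl C) (j + 2 * M₀) → ∃ M ≤ M₀, c * M ≤ m ∧
        κ.HT (finrank F V - c * (j + 2 * M₀)) (η ^ (j + 2 * M₀) * κ.cl C) (m - c * M) := by
  rw [h.ll_iff hC fun u E N d => h.ts_iff d]
  refine ⟨fun H i M₀ a b d => ?_, fun H N a b E d => ?_⟩
  · obtain ⟨S, s1, s2, s3, s4⟩ := h.exists_nodup (φ := fr F) fr_inj fr_one (fun a ha => by rw [fr, pow_right_comm, ha, one_pow])
      (fun a ha => (per_fr ha).trans hb.symm) (j := i) (mul_comm c i ▸ (Nat.le_div_iff_mul_le h.pos).1 b)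
    obtain ⟨A, hA⟩ := h.exists_rts M₀
    have h1 : ∀ a ∈ S + 2 • A, a ^ r = 1 ∧ a ≠ 1 := fun a ha =>
      (Multiset.mem_add.1 ha).elim (s1 a) fun ha => hA.rt a (Multiset.mem_of_mem_nsmul ha)
    have h3 := ((h.st A fun a ha => (hA.rt a ha).1).1 hA.st).1
    have h4 := st_add s3 (st_smul h3 2)
    obtain ⟨_, e1, e2, e3⟩ := H _ a d _ ⟨h1, (h.st _ fun a ha => (h1 a ha).1).2 ⟨h4, st_du hι hj (fun a ha => (h1 a ha).1) h4⟩,
      by rw [Multiset.card_add, Multiset.card_nsmul, s4, hA.card]; ring⟩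
    obtain ⟨M, l, rfl⟩ := (h.tsd_sd hb hι hj h1 s2 h3 hA.card).1 e2
    exact ⟨M, l, e1, e3⟩
  · obtain ⟨S, A, i, M₀, rfl, h1, h2, h3, rfl, h4⟩ := h.sd_dec hb d
    obtain ⟨M, e1, e2, e3⟩ := H i M₀ a h4 b
    exact ⟨_, e2, (h.tsd_sd hb hι hj d.rt h1 h2 h3).2 ⟨M, e1, rfl⟩, e3⟩

end Blk

end H25.El
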