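import Cfsg.Agent.H25.El10

/-! Elusive actions, XI: numerical normal forms. -/

set_option autoImplicit false

namespace H25.El

open Module Polynomial Function H22 H27.Sp H12 H12.CForm Pointwise

universe u

variable {F : Type u} {K : Type*} [Field F] [Field K] [Algebra F K] {T : FormType F} {θ : K →+* K}
  {V : Type u} [AddCommGroup V] [Module F V] {C : CForm T V}
  {m n j k r a b c N : ℕ} {α β γ δ η s : ℤˣ} {Q Q' : ℤ} {κ : Cls T}

/-- forms over finite fields -/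
structure Cls.Fi (κ : Cls T) (s : ℤˣ) : Prop where
  emb : ∀ {a b α β}, κ.Ex a α → κ.Ex b β → b < a → κ.Ex (a - b) (β * α)
  ht : ∀ {a α j}, κ.HT a α j ↔ κ.Ex a α ∧ (2 * j < a ∨ 2 * j = a ∧ α = s ^ j)

theorem Cls.Fi.sub (h : κ.Fi s) (h1 : κ.Ex a α) (h2 : κ.Ex b β) (l : b ≤ a) :
    κ.Ex (a - b) (β * α) ↔ (a = b → β * α = 1) :=
  ⟨by rintro H rfl; simpa [Cls.ex_zero] using H, fun H => l.lt_or_eq.elim (h.emb h1 h2) fun e => by
    rw [H e.symm, e, Nat.sub_self, Cls.ex_zero]⟩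

theorem fi_alt : (altCls F).Fi 1 :=
  ⟨by simp only [alt_ex]; rintro a b _ _ ⟨h, rfl⟩ ⟨h', rfl⟩ -; exact ⟨h.tsub h', rfl⟩,
    by simp only [alt_ex, alt_ht, le_iff_lt_or_eq, one_pow]; tauto⟩

theorem fi_herm [Fintype F] {q : ℕ} (hF : Fintype.card F = q ^ 2) : (hermCls hF).Fi 1 :=
  ⟨by simp only [herm_ex]; rintro a b _ _ rfl rfl -; rfl, by simp only [herm_ex, herm_ht, le_iff_lt_or_eq, one_pow]; tauto⟩

theorem fi_quad [Finite F] : (quadCls F).Fi (qsign (-1 : F)) :=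
  ⟨by simp only [quad_ex]; exact fun h h' l => ⟨fun e => (h.1 e).tsub (h'.1 e), by omega⟩, quad_ht⟩

theorem upow_add_two (γ : ℤˣ) (a b : ℕ) : γ ^ (a + 2 * b) = γ ^ a := by rw [pow_add, pow_mul, sq, uu, one_pow, mul_one]

theorem upow_sub (γ : ℤˣ) (h : b ≤ a) : γ ^ (a - b) = γ ^ b * γ ^ a := by
  obtain ⟨a, rfl⟩ := Nat.exists_eq_add_of_le h
  rw [Nat.add_sub_cancel_left, pow_add, ← mul_assoc, uu, one_mul]

theorem u_ne (h : γ ≠ 1) (h' : δ ≠ 1) : γ * δ = 1 := by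
  rw [(Int.units_eq_one_or γ).resolve_left h, (Int.units_eq_one_or δ).resolve_left h']; rfl

theorem le_div_of (hc : 0 < c) (h : c * N ≤ n) : N ≤ n / c := (Nat.le_div_iff_mul_le hc).2 (mul_comm c N ▸ h)

theorem mul_succ_le (h : N < n / c) : c * N + c + n % c ≤ n := by
  have := Nat.mul_le_mul_left c (Nat.succ_le_of_lt h)
  have := Nat.div_add_mod n c
  rw [Nat.mul_succ] at *; omega

variable [FiniteDimensional F V] [Finite F] [Algebra.IsAlgebraic F K] [IsAlgClosed K] [Fact r.Prime]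

namespace Blk
variable (h : Blk κ θ r c η Q)
include h

theorem ex (N : ℕ) : κ.Ex (c * N) (η ^ N) := by
  obtain ⟨E, h1⟩ := h.exists_rts N
  have s := (h.st E fun a ha => (h1.rt a ha).1).1 h1.st
  obtain ⟨m₁, C₁, u₁, a₁, b₁, c₁⟩ := h.tg.rl E s.1 s.2 (fun a ha => ne0 (h1.rt a ha).1 one_ne_zero) (h.rg E h1.rt)
  exact h1.card ▸ EV.dim c₁ ▸ h.reg' a₁ b₁ c₁ h1 ▸ Cls.ex_of a₁

variable (f : κ.Fi s)
include f

theorem adm_iff (hn : κ.Ex n δ) : κ.Adm c η n δ N ↔ c * N ≤ n ∧ (n = c * N → η ^ N * δ = 1) :=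
  and_congr_right fun l => f.sub hn (h.ex N) l

theorem sol_iff (hm : κ.Ex m γ) (hN : κ.Adm c η n δ N) {N₁ : ℕ} : κ.Sol c η n δ m γ N N₁ ↔ c * N₁ ≤ m ∧
    m + c * N ≤ n + c * N₁ ∧ (m = c * N₁ → γ * η ^ N₁ = 1) ∧ (m + c * N = n + c * N₁ → γ * η ^ N₁ * (η ^ N * δ) = 1) := by
  have := hN.1
  refine and_congr_right fun l => and_congr (by omega) Iff.rfl |>.trans (and_congr_right fun l' => ?_)
  have e := f.sub hm (h.ex N₁) l
  rw [mul_comm (η ^ N₁)] at e
  rw [← e]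
  exact and_congr_right fun H => (f.sub hN.2 H (by omega)).trans (imp_congr_left (by omega))

/-- the largest admissible number of blocks -/
theorem max_cases (hn : κ.Ex n δ) : (κ.Adm c η n δ (n / c) ∧ (n % c = 0 → η ^ (n / c) * δ = 1) ∧
    ∀ N' > n / c, ¬ κ.Adm c η n δ N') ∨ n % c = 0 ∧ η ^ (n / c) * δ ≠ 1 ∧ ∃ N, n / c = N + 1 ∧ κ.Adm c η n δ N ∧
      ∀ N' > N, ¬ κ.Adm c η n δ N' := by
  have e := Nat.div_add_mod n c
  have g : ∀ N' > n / c, ¬ κ.Adm c η n δ N' := fun N' a b => a.not_ge (le_div_of h.pos b.1)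
  by_cases H : n % c = 0 → η ^ (n / c) * δ = 1
  · exact .inl ⟨(h.adm_iff f hn).2 ⟨by omega, fun _ => H (by omega)⟩, H, g⟩
  obtain ⟨H, H'⟩ := _root_.not_imp.1 H
  refine .inr ⟨H, H', ?_⟩
  rcases e' : n / c with _ | N
  · rw [e', H] at e; subst e; exact absurd (by simpa [e'] using Cls.ex_zero.1 hn) H'
  have := h.pos
  rw [e', Nat.mul_succ] at e
  refine ⟨N, rfl, (h.adm_iff f hn).2 ⟨by omega, by omega⟩, fun N' a b => ?_⟩
  obtain rfl : N' = N + 1 := by have := mt (g N') (not_not.2 b); omega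
  exact H' (e' ▸ ((h.adm_iff f hn).1 b).2 (by rw [Nat.mul_succ]; omega))

theorem nd_num (hC : C.Nondeg) (hn : finrank F V = n) (hδ : κ.cl C = δ) (hd : r ∣ Nat.card {s // κ.ND C s m γ})
    (hm : κ.Ex m γ) (m0 : 0 < m) (l : m < n) :
    LL C r (fun u => ∃ A, κ.ND C A m γ ∧ ∀ x ∈ A, u x ∈ A) ↔
      n % c = 0 ∧ (η ^ (n / c) * δ ≠ 1 ∨ m % c = 0 ∧ γ * η ^ (m / c) = 1) ∨ 0 < n % c ∧ c ≤ m ∧ m % c ≤ n % c ∧
        (m % c = 0 → γ * η ^ (m / c) = 1) ∧ (m % c = n % c → γ * η ^ (m / c) * (η ^ (n / c) * δ) = 1) := by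
  subst hn hδ
  set n := finrank F V
  set δ := κ.cl C
  have hn : κ.Ex n δ := Cls.ex_of hC
  have c0 := h.pos
  have e1 := Nat.div_add_mod n c
  have e2 := Nat.div_add_mod m c
  have e3 := Nat.mod_lt n c0
  have e4 := Nat.mod_lt m c0
  have key : ∀ N, κ.Adm c η n δ N → (∀ N' > N, ¬ κ.Adm c η n δ N') → ((∀ N ≠ 0, κ.Adm c η n δ N →
      ∃ N₁ ≤ N, κ.Sol c η n δ m γ N N₁) ↔ ∃ N₁ ≤ N, κ.Sol c η n δ m γ N N₁) := fun M a b => by
    refine ⟨fun H => (eq_or_ne M 0).elim ?_ fun e => H M e a, fun ⟨N₁, d, e⟩ N _ g => ?_⟩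
    · rintro rfl; exact ⟨0, le_rfl, (h.sol_iff f hm a).2 (by omega)⟩
    have l1 : N ≤ M := not_lt.1 fun H => b N H g
    rcases l1.lt_or_eq with l1 | rfl
    swap; · exact ⟨N₁, d, e⟩
    rw [h.sol_iff f hm a] at e
    have := Nat.mul_lt_mul_of_pos_left l1 c0
    rcases le_or_gt N₁ N with l2 | l2
    · exact ⟨N₁, l2, (h.sol_iff f hm g).2 ⟨e.1, by omega, e.2.2.1, by omega⟩⟩
    · have := Nat.mul_lt_mul_of_pos_left l2 c0
      exact ⟨N, le_rfl, (h.sol_iff f hm g).2 (by omega)⟩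
  rw [h.nd_main hC]
  rcases h.max_cases f hn with ⟨a, b, d⟩ | ⟨a, b, N, e, d, g⟩
  · have u : ∀ N₁, κ.Sol c η n δ m γ (n / c) N₁ → N₁ = m / c := fun N₁ H => by
      rw [h.sol_iff f hm a] at H
      exact le_antisymm (le_div_of c0 H.1) (not_lt.1 fun H' => by have := mul_succ_le H'; omega)
    rw [key _ a d]
    constructor
    · rintro ⟨N₁, l1, H⟩
      have l2 : c ≤ m := not_lt.1 fun l2 => h.nd_deg hC hd a d (.inl rfl)
        (fun N₂ _ H => (u N₂ H).trans (Nat.div_eq_of_lt l2)) ⟨N₁, l1, H⟩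
      obtain rfl := u N₁ H
      rw [h.sol_iff f hm a] at H
      rcases (n % c).eq_zero_or_pos with k0 | k0
      · exact .inl ⟨k0, .inr ⟨by omega, H.2.2.1 (by omega)⟩⟩
      · exact .inr ⟨k0, l2, by omega, fun _ => H.2.2.1 (by omega), fun _ => H.2.2.2 (by omega)⟩
    · intro H
      refine ⟨m / c, Nat.div_le_div_right l.le, (h.sol_iff f hm a).2 ?_⟩
      rcases H with ⟨k0, H | ⟨l0, H⟩⟩ | ⟨k0, -, H1, H2, H3⟩
      · exact absurd (b k0) H
      · exact ⟨by omega, by omega, fun _ => H, fun _ => by rw [H, b k0, one_mul]⟩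
      · exact ⟨by omega, by omega, fun _ => H2 (by omega), fun _ => H3 (by omega)⟩
  · refine iff_of_true ((key _ d g).2 ?_) (.inl ⟨a, .inl b⟩)
    rw [e, Nat.mul_succ] at e1
    have l1 : m / c ≤ N := Nat.le_of_lt_succ (Nat.div_lt_of_lt_mul (by rw [Nat.mul_succ]; omega))
    by_cases H : m % c = 0 → γ * η ^ (m / c) = 1
    · exact ⟨_, l1, (h.sol_iff f hm d).2 ⟨by omega, by omega, fun _ => H (by omega), by omega⟩⟩
    obtain ⟨H, H'⟩ := _root_.not_imp.1 H
    rcases e' : m / c with _ | M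
    · rw [e'] at e2; omega
    rw [e', Nat.mul_succ] at e2
    refine ⟨M, by omega, (h.sol_iff f hm d).2 ⟨by omega, by omega, by omega, fun _ => ?_⟩⟩
    have := u_ne H' b
    rw [e, e', pow_succ, pow_succ] at this
    rw [← this, ← mul_one (γ * _ * _), ← uu η]; ac_rfl

theorem ts_num1 (hb : b = orderOf (Nat.card F : ZMod r)) (hc : c = 2 * b) (hι : du θ = (· ^ Q'))
    (hne : ∀ j, (Nat.card F : ZMod r) ^ j ≠ Q') (hιι : (∀ a, du θ (du θ a) = a) ∨ ∀ a, du θ (du θ a) = fr F a)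
    (hη : η = s ^ b) (hC : C.Nondeg) (hn : finrank F V = n) (hδ : κ.cl C = δ)
    (hd : r ∣ Nat.card {s // C.TS s ∧ finrank F s = m}) (hm : C.HasTS m) :
    LL C r (fun u => ∃ A, (C.TS A ∧ finrank F A = m) ∧ ∀ x ∈ A, u x ∈ A) ↔ b ≤ m ∧
      (n % c = 0 ∧ η ^ (n / c) * δ ≠ 1 ∨ 2 * (m % b) < n % c ∨ 2 * (m % b) = n % c ∧ η ^ (n / c) * δ = s ^ (m % b)) := by
  refine (iff_and_self.2 fun H => hb ▸ h.ts_le hC hd hm H).trans (and_congr_right fun l => ?_)
  rw [h.ts_split hb hc hι hne hιι hC]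
  have h1 := (f.ht.1 ((Cls.ht_iff hC).2 hm)).2
  subst hn hδ
  set n := finrank F V
  set δ := κ.cl C
  have hn : κ.Ex n δ := Cls.ex_of hC
  have c0 := h.pos
  have b0 : 0 < b := by omega
  have e1 := Nat.div_add_mod n c
  have e2 := Nat.div_add_mod m b
  have e3 := Nat.mod_lt n c0
  have e4 := Nat.mod_lt m b0
  have e5 : ∀ N, c * N = 2 * (b * N) := fun N => by rw [hc, mul_assoc]
  refine ⟨fun H => ?_, fun H N _ a => ?_⟩
  · rcases h.max_cases f hn with ⟨a, -, -⟩ | ⟨a, b, -⟩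
    swap; · exact .inl ⟨a, b⟩
    obtain ⟨M, -, l1, H⟩ := H _ (Nat.div_pos (by omega) c0).ne' a
    have H := (f.ht.1 H).2
    obtain rfl : M = m / b := le_antisymm (le_div_of b0 l1) (not_lt.1 fun H' => by have := mul_succ_le H'; omega)
    rw [show m - b * (m / b) = m % b by omega, show n - c * (n / c) = n % c by omega] at H
    exact .inr H
  have a1 := a.1
  rcases le_or_gt (m / b) N with l1 | l1
  · refine ⟨_, l1, by omega, f.ht.2 ⟨a.2, ?_⟩⟩
    rw [show m - b * (m / b) = m % b by omega]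
    rcases (le_div_of c0 a1).lt_or_eq with l2 | rfl
    · have := mul_succ_le l2; omega
    rw [show n - c * (n / c) = n % c by omega]
    exact H.resolve_left fun H => H.2 (((h.adm_iff f hn).1 a).2 (by omega))
  · have := mul_succ_le l1
    have := e5 N
    refine ⟨N, le_rfl, by omega, f.ht.2 ⟨a.2, h1.imp (by omega) fun H => ⟨by omega, ?_⟩⟩⟩
    rw [H.2, hη, ← pow_mul, upow_sub _ (by omega)]

theorem ts_num2 (hb : c = orderOf (Nat.card F : ZMod r)) (hι : du θ = (· ^ Q')) (hj : (Nat.card F : ZMod r) ^ j = Q')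
    (hs : s ^ c = 1) (hC : C.Nondeg) (hn : finrank F V = n) (hδ : κ.cl C = δ)
    (hd : r ∣ Nat.card {s // C.TS s ∧ finrank F s = m}) (hm : C.HasTS m) :
    LL C r (fun u => ∃ A, (C.TS A ∧ finrank F A = m) ∧ ∀ x ∈ A, u x ∈ A) ↔ c ≤ m ∧ (r - 1) / c + 2 * (m / c) ≤ n / c ∧
      (n % c = 0 ∧ η ^ (n / c) * δ ≠ 1 ∧ 2 * (m % c) ≤ c ∧ (2 * (m % c) = c → -η = s ^ (m % c)) ∧
        (r - 1) / c + 2 * (m / c) < n / c ∨ 2 * (m % c) < n % c ∨ 2 * (m % c) = n % c ∧ η ^ (n / c) * δ = s ^ (m % c)) := by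
  refine (iff_and_self.2 fun H => hb ▸ h.ts_le hC hd hm H).trans (and_congr_right fun l => ?_)
  rw [h.ts_sd hb hι hj hC]
  have h1 : 2 * m ≤ finrank F V := hm.two_mul_le hC
  subst hn hδ
  set n := finrank F V
  set δ := κ.cl C
  set t := (r - 1) / c
  have hn : κ.Ex n δ := Cls.ex_of hC
  have c0 := h.pos
  have t0 : 0 < t := Nat.div_pos (Nat.le_of_dvd (Nat.sub_pos_of_lt (Fact.out : r.Prime).one_lt)
    (hb ▸ ZMod.orderOf_dvd_card_sub_one fun e => by have := ord_pos h.hr; simp [e] at this)) c0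
  have e1 := Nat.div_add_mod n c
  have e2 := Nat.div_add_mod m c
  have e3 := Nat.mod_lt n c0
  have e4 := Nat.mod_lt m c0
  have m0 : 0 < m / c := Nat.div_pos l c0
  have e5 : ∀ M, c * M ≤ m → s ^ (m - c * M) = s ^ (m % c) := fun M l => by
    rw [upow_sub _ l, pow_mul, hs, one_pow, one_mul, ← e2, pow_add, pow_mul, hs, one_pow, one_mul, e2]
  have e6 : ∀ j M, c * (j + 2 * M) = c * j + 2 * (c * M) := fun j M => by ring
  have key : (∀ j M₀, j + 2 * M₀ ≠ 0 → j ≤ t → κ.Adm c η n δ (j + 2 * M₀) → ∃ M ≤ M₀, c * M ≤ m ∧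
      κ.HT (n - c * (j + 2 * M₀)) (η ^ (j + 2 * M₀) * δ) (m - c * M)) ↔ ∀ j M₀, j + 2 * M₀ ≠ 0 → j ≤ t →
      κ.Adm c η n δ (j + 2 * M₀) → ∀ M, M = min M₀ (m / c) → 2 * m + c * j + 2 * (c * M₀) < n + 2 * (c * M) ∨
        2 * m + c * j + 2 * (c * M₀) = n + 2 * (c * M) ∧ η ^ j * δ = s ^ (m % c) := by
    refine forall₅_congr fun j M₀ _ _ a => ?_
    have := a.1
    have := e6 j M₀
    have l0 : c * min M₀ (m / c) ≤ m := (Nat.mul_le_mul_left c (min_le_right _ _)).trans (by omega)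
    simp only [f.ht, a.2, true_and, forall_eq]
    simp only [upow_add_two]
    refine ⟨fun ⟨M, l1, l2, H⟩ => ?_, fun H => ⟨_, min_le_left _ _, l0, H.imp (by omega) fun H => ⟨by omega, e5 _ l0 ▸ H.2⟩⟩⟩
    have := Nat.mul_le_mul_left c (le_min l1 (le_div_of c0 l2))
    rw [e5 _ l2] at H
    by_cases H' : 2 * m + c * j + 2 * (c * M₀) < n + 2 * (c * min M₀ (m / c))
    · exact .inl H'
    · exact .inr ⟨by omega, (H.resolve_left (by omega)).2⟩
  rw [key]
  have mono : ∀ {a b}, a < b → c * a + c ≤ c * b := fun H => Nat.mul_succ c _ ▸ Nat.mul_le_mul_left c H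
  have mono' : ∀ {a b}, c * a < c * b + c → a ≤ b := fun H => not_lt.1 fun H' => by have := mono H'; omega
  have n2 : 2 * (m / c) ≤ n / c := mono' (by rw [mul_left_comm]; omega)
  refine ⟨fun H => ?_, fun ⟨H1, H2⟩ j M₀ _ l1 a M e => ?_⟩
  · have k1 : ∀ N, κ.Adm c η n δ N → (∀ N' > N, ¬ κ.Adm c η n δ N') → n / c ≤ N + 1 →
        (2 * m + c * t < n ∨ 2 * m + c * t = n ∧ η ^ t * δ = s ^ (m % c)) ∧
        (2 * (m % c) + c * N < n ∨ 2 * (m % c) + c * N = n ∧ η ^ N * δ = s ^ (m % c)) := fun N a b d => by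
      have l1 : t < N + 1 := by
        by_contra! l1
        have := H N 0 (by omega) (by omega) a 0 (by simp)
        have := Nat.mul_le_mul_left c d
        rw [Nat.mul_succ] at this; omega
      have := Nat.mul_le_mul_left c (Nat.le_of_lt_succ l1)
      have a1 := a.1
      have H1 := H t 0 (by omega) le_rfl ((Nat.le_of_lt_succ l1).lt_or_eq.elim
        (fun l2 => (h.adm_iff f hn).2 (by have := mono l2; simp only [mul_zero, add_zero]; omega)) fun e => e ▸ a) 0 (by simp)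
      simp only [mul_zero, add_zero] at H1
      have l2 : t + 2 * (m / c) ≤ n / c := mono' (by rw [e6]; omega)
      have e := Nat.mod_add_div N 2
      have H2 := H (N % 2) (N / 2) (by omega) (by omega) (e.symm ▸ a) (m / c) (by omega)
      have := e6 (N % 2) (N / 2)
      rw [← upow_add_two η _ (N / 2), e] at H2
      rw [e] at this
      exact ⟨H1, H2.imp (by omega) fun H => ⟨by omega, H.2⟩⟩
    have := e6 t (m / c)
    rcases h.max_cases f hn with ⟨a, -, d⟩ | ⟨a, b, N, e, d, g⟩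
    · obtain ⟨H1, H2⟩ := k1 _ a d (by omega)
      exact ⟨mono' (by omega), .inr (H2.imp (by omega) fun H => ⟨by omega, H.2⟩)⟩
    · obtain ⟨H1, H2⟩ := k1 _ d g e.le
      have l2 : t + 2 * (m / c) ≤ n / c := mono' (by omega)
      have e7 := e1
      rw [e, Nat.mul_succ] at e7
      refine ⟨l2, .inl ⟨a, b, by omega, fun e8 => ?_, l2.lt_of_ne fun e8 => b ?_⟩⟩
      · rw [← (H2.resolve_left (by omega)).2, ← mul_one (_ * δ), ← uu η, ← mul_assoc, mul_right_comm _ δ, ← pow_succ, ← e,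
          (Int.units_eq_one_or _).resolve_left b, neg_one_mul]
      · rw [e8] at this
        rw [← e8, upow_add_two, (H1.resolve_left (by omega)).2, show m % c = 0 by omega, pow_zero]
  · have a1 := a.1
    have a2 := ((h.adm_iff f hn).1 a).2
    have l2 := le_div_of c0 a1
    have b1 := e6 j M₀
    have b2 := e6 j (m / c)
    have key : ∀ N ≤ n / c, (N = n / c → n % c = 0 → η ^ (n / c) * δ = 1) → η ^ N = η ^ j →
        2 * (m % c) + c * N < n ∨ 2 * (m % c) + c * N = n ∧ η ^ j * δ = s ^ (m % c) := fun N l3 a3 e3 => by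
      rw [← e3]
      rcases l3.lt_or_eq with l3 | rfl
      · have := mono l3
        rcases H2 with ⟨k0, b, l4, b', -⟩ | H2
        swap; · omega
        by_cases H : 2 * (m % c) + c * N < n
        · exact .inl H
        obtain e8 : n / c = N + 1 := le_antisymm (mono' (by rw [Nat.mul_succ]; omega)) l3
        refine .inr ⟨by omega, ?_⟩
        rw [← b' (by rw [e8, Nat.mul_succ] at e1; omega), ← mul_one (_ * δ), ← uu η, ← mul_assoc, mul_right_comm _ δ,
          ← pow_succ, ← e8, (Int.units_eq_one_or _).resolve_left b, neg_one_mul]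
      · exact (H2.resolve_left fun H => H.2.1 (a3 rfl H.1)).imp (by omega) fun H => ⟨by omega, H.2⟩
    rcases le_total M₀ (m / c) with l3 | l3
    · obtain rfl : M = M₀ := by omega
      refine (key (j + 2 * (m / c)) (by omega) (fun e k0 => ?_) (upow_add_two _ _ _)).imp (by omega) fun H => ⟨by omega, H.2⟩
      rcases H2 with H | H | H
      · omega
      · omega
      · rw [H.2, show m % c = 0 by omega, pow_zero]
    · obtain rfl : M = m / c := by omega
      exact (key _ l2 (fun e k0 => e ▸ a2 (by rw [e]; omega)) (upow_add_two _ _ _)).imp (by omega) fun H => ⟨by omega, H.2⟩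

end Blk

end H25.El
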