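import Cfsg.Agent.H25.El11

/-! Elusive actions, XII: totally singular subspaces in the defining characteristic; non-liftable elements. -/

set_option autoImplicit false

namespace H25.El

open Module Polynomial Function H22 H27.Sp H12 H12.CForm Pointwise

universe u

variable {F : Type u} {K : Type*} [Field F] [Field K] [Algebra F K] {T : FormType F} {θ : K →+* K}
  {V W : Type u} [AddCommGroup V] [Module F V] [AddCommGroup W] [Module F W] {C : CForm T V} {C' : CForm T W}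
  {m n j k r p N : ℕ} {α β γ δ δ' η s : ℤˣ} {κ : Cls T} {u : End F V} {D D' : Multiset (K × ℕ)} {z : F}

theorem lhs_iff_ll [Finite F] [Fact r.Prime] (hC : C.Nondeg) {G P : End F V → Prop} (hG : ∀ u, G u → C.IsIsomTo C u)
    (hG' : ∀ u : End F V, C.IsIsomTo C u → u ^ r = 1 → G u) (hs : ∀ u (c : F), c ≠ 0 → P (c • u) → P u)
    (hn : ∀ c : F, c * T.σ c = 1 → c ^ r = 1 → c = 1) : Lhs G r P ↔ LL C r P := by
  refine ⟨fun H u a b e => H u (hG' u a b) ⟨1, by simpa⟩ fun c e' => e ?_, fun H u a ⟨z, b⟩ e => ?_⟩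
  · rcases subsingleton_or_nontrivial V with _ | _
    · exact Subsingleton.elim _ _
    rw [e', hn c (scal_norm hC (e' ▸ a)) ((algebraMap F (End F V)).injective (by rw [map_pow, ← e', b, map_one])), map_one]
  haveI := nontriv e
  let φ : {w : F // w * T.σ w = 1} → {w : F // w * T.σ w = 1} := fun w => ⟨w ^ r, by rw [map_pow, ← mul_pow, w.2, one_pow]⟩
  obtain ⟨w, hw⟩ := Finite.surjective_of_injective (f := φ) (fun x y h => Subtype.ext (by
    have y0 := left_ne_zero_of_mul_eq_one y.2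
    refine (div_eq_one_iff_eq y0).1 (hn _ (by rw [map_div₀, div_mul_div_comm, x.2, y.2, div_one]) ?_)
    rw [div_pow, show x.1 ^ r = y.1 ^ r from congrArg Subtype.val h, div_self (pow_ne_zero _ y0)]))
    ⟨z, scal_norm hC (b ▸ isom_pow (hG u a) r)⟩
  exact lhs_of_ll hC hG hs H u a w.2 (b.trans (congrArg _ (congrArg Subtype.val hw).symm)) e

theorem hn_p [Fact p.Prime] [CharP F p] (c : F) (h : c ^ p = 1) : c = 1 :=
  frobenius_inj F p (h.trans (map_one _).symm)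

theorem hn_id [Fact r.Prime] (h2 : r ≠ 2) (c : F) (h : c * c = 1) (h' : c ^ r = 1) : c = 1 := by
  obtain ⟨k, hk⟩ := (Fact.out : r.Prime).odd_of_ne_two h2
  rwa [hk, pow_succ, pow_mul, sq, h, one_pow, one_mul] at h'

theorem inv_hs (P : Submodule F V → Prop) (u : End F V) (c : F) (hc : c ≠ 0) :
    (∃ A, P A ∧ ∀ x ∈ A, (c • u) x ∈ A) → ∃ A, P A ∧ ∀ x ∈ A, u x ∈ A := fun ⟨A, a, b⟩ => ⟨A, a, inv_smul hc b⟩

/-- realisable Jordan data with given class -/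
def Cls.Rc (κ : Cls T) (D : Multiset (K × ℕ)) (δ : ℤˣ) : Prop :=
  ∃ (m : ℕ) (C : CForm T (Fin m → F)) (u : End F (Fin m → F)), C.Nondeg ∧ C.IsIsomTo C u ∧ JD u D ∧ κ.cl C = δ

variable [FiniteDimensional F V] [FiniteDimensional F W] [Finite F]

theorem Cls.Rc.out (h : κ.Rc D δ) (hC : C.Nondeg) (hd : finrank F V = dimD D) (hδ : κ.cl C = δ) :
    ∃ u : End F V, C.IsIsomTo C u ∧ JD u D :=
  let ⟨_, _, _, a, b, c, d⟩ := h
  let ⟨u, e, f⟩ := Cls.transport (κ := κ) hC a (c.dim.trans hd.symm) (d.trans hδ.symm) b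
  ⟨u, e, c.of_sim (fsim_sim f)⟩

theorem Cls.rc_of (hC : C.Nondeg) (hu : C.IsIsomTo C u) (h : JD u D) : κ.Rc D (κ.cl C) := by
  obtain ⟨C₀, a, b⟩ := Cls.ex_of (κ := κ) hC
  obtain ⟨u, e, f⟩ := Cls.transport (κ := κ) a hC (by simp) b.symm hu
  exact ⟨_, C₀, u, a, e, h.of_sim (fsim_sim f), b⟩

theorem Cls.Rc.add (h : κ.Rc D δ) (h' : κ.Rc D' δ') : κ.Rc (D + D') (δ * δ') := by
  obtain ⟨_, _, _, a, b, c, rfl⟩ := h
  obtain ⟨_, _, _, a', b', c', rfl⟩ := h'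
  exact κ.mul a a' ▸ Cls.rc_of (osum_nondeg a a') (osum_isom b b') (c.prod c')

theorem Cls.rc_rl (κ : Cls T) (h : Rl T D) : ∃ δ, κ.Rc D δ := let ⟨m, C, u, a, b, c⟩ := h; ⟨_, m, C, u, a, b, c, rfl⟩

theorem card_ts_iso (h : C.Iso C') :
    Nat.card {s // C.TS s ∧ finrank F s = m} = Nat.card {s // C'.TS s ∧ finrank F s = m} := by
  obtain ⟨e, he⟩ := h
  exact Nat.card_congr ((Submodule.orderIsoMapComap e).toEquiv.subtypeEquiv fun s =>
    and_congr (ts_map_iff (f := e.toLinearMap) he).symm (by rw [← e.finrank_map_eq s]; rfl))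

variable [Algebra.IsAlgebraic F K]

theorem rc_alt (h : Rl (altType F) D) : (altCls F).Rc D 1 := let ⟨m, C, u, a, b, c⟩ := h; ⟨m, C, u, a, b, c, rfl⟩

omit [Algebra.IsAlgebraic F K] in
theorem rc_rq (h2 : (2 : F) ≠ 0) (h : Rq F D δ s) : (quadCls F).Rc D δ :=
  let ⟨m, Q, g, a, b, c, _⟩ := h; ⟨m, _, _, a, g.2, b, (cl_odd h2 Q).trans c⟩

omit [Algebra.IsAlgebraic F K] in
theorem rc_rt (h2 : (2 : F) = 0) (h : ∀ τ, Rt F D τ) (δ : ℤˣ) : (quadCls F).Rc D δ :=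
  let ⟨m, C, u, a, b, c, d⟩ := h (δ = 1)
  ⟨_, C, u, a, b, c, by rw [cl_even a (k := m) (by simp), d, sg_self, qsign_eq_one_of_two h2, one_pow, mul_one]⟩

theorem reg_perp (hC : C.Nondeg) (hu : C.IsIsomTo C u) (h : JD u (UN K {n})) (hm : 2 * m ≤ n) :
    ∀ x ∈ LinearMap.ker ((u - 1) ^ m), ∀ y ∈ LinearMap.ker ((u - 1) ^ m), C.B x y = 0 := fun x hx y hy => by
  have e := hC.finrank_add_finrank_perp (LinearMap.ker ((u - 1) ^ m))
  rw [reg_dim h (by omega), h.dim] at e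
  refine C.mem_perp.1 ?_ x hx
  rw [reg_ker h (perp_inv hC hu (ker_inv u m))]
  exact pow_apply_of_le hy (by simp [UN, dimD] at e; omega)

theorem reg_quad {C : CForm (quadType F) V} (hC : C.Nondeg) (hu : C.IsIsomTo C u) (h : JD u (UN K {n}))
    (hm : 2 * m + 2 ≤ n ∨ (2 : F) ≠ 0 ∧ 2 * m ≤ n) : C.TS (LinearMap.ker ((u - 1) ^ m)) := by
  refine quad_ts_iff.2 fun x hx => ?_
  rcases hm with hm | ⟨h2, hm⟩
  swap; · simpa [quad_B_self, h2] using reg_perp hC hu h hm x hx x hx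
  obtain ⟨k, rfl⟩ : ∃ k, n = m + 1 + k := ⟨n - (m + 1), by omega⟩
  have := LinearMap.finrank_range_add_finrank_ker ((u - 1) ^ (k + 1))
  rw [reg_dim h (by omega), h.dim] at this
  rw [← (reg_iff h (A := LinearMap.range ((u - 1) ^ (k + 1))) (by omega)).1 ⟨by simp [UN, dimD] at this; omega, by
    rintro _ ⟨y, rfl⟩
    exact ⟨u y, by rw [← End.mul_apply, ← End.mul_apply, (((Commute.refl u).sub_right (.one_right u)).pow_right _).eq]⟩⟩] at hx
  obtain ⟨y, rfl⟩ := hx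
  have h0 : ((u - 1) ^ k) y ∈ LinearMap.ker ((u - 1) ^ (m + 1)) := by
    rw [LinearMap.mem_ker, ← pow_apply_add, (un_pow h _).2 (by simp)]; rfl
  have h1 := reg_perp hC hu h (m := m + 1) (by omega)
  have := h1 _ h0 _ h0
  rw [pow_apply_succ, LinearMap.sub_apply, sub_eq_add_neg, C.N_add, hu.2, End.one_apply, map_neg,
    h1 _ (ker_inv u _ _ h0) _ h0, C.N_neg, ← two_mul, ← quad_B_self, this]
  simp

variable [Fact p.Prime] [CharP F p]

theorem ts_p_of {μ : Multiset ℕ} (hC : C.Nondeg) (hu : C.IsIsomTo C u) (h : JD u (UN K μ)) (s₀ : Submodule F V)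
    (H : ∀ s, (C.TS s ∧ finrank F s = m) ∧ (∀ x ∈ s, u x ∈ s) ↔ s = s₀) :
    ¬ p ∣ Nat.card {s // C.TS s ∧ finrank F s = m} := by
  haveI := finite_sub (F := F) (V := V)
  obtain ⟨x, hx, rfl⟩ := exists_isomE hC hu
  exact reg_not_dvd _ h (fun s b => ⟨b.1.map hx, (finrank_sm x s).trans b.2⟩) s₀ fun s => by rw [sm_fix]; exact H s

theorem ts_p_reg (hC : C.Nondeg) (hu : C.IsIsomTo C u) (h : JD u (UN K {n})) (hm : m ≤ n)
    (H : C.TS (LinearMap.ker ((u - 1) ^ m))) : ¬ p ∣ Nat.card {s // C.TS s ∧ finrank F s = m} :=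
  ts_p_of hC hu h _ fun s => by
    rw [and_assoc, reg_iff h hm]; exact and_iff_right_of_imp fun e => e ▸ H

omit [Algebra.IsAlgebraic F K] in
theorem ts_p_alt {C : CForm (altType F) V} (hC : C.Nondeg) (h0 : 0 < m) (hm : 2 * m ≤ finrank F V) :
    ¬ p ∣ Nat.card {s // C.TS s ∧ finrank F s = m} := by
  obtain ⟨k, hk⟩ := alt_even hC
  obtain ⟨k, rfl⟩ : ∃ l, k = l + 1 := ⟨k - 1, by omega⟩
  have : Rl (altType F) (UN (AlgebraicClosure F) {2 * (k + 1)}) := by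
    by_cases h2 : (2 : F) = 0
    · haveI : CharP F 2 := (CharP.charP_iff_prime_eq_zero Nat.prime_two).2 h2
      obtain ⟨_, C, u, a, b, c, -⟩ := rt_reg (K := AlgebraicClosure F) h2 k True
      exact Rl.alt2 ⟨_, C, u, a, b, c⟩
    · exact rl_alt_reg h2 k.succ_pos
  obtain ⟨u, a, b⟩ := (rc_alt this).out hC (by simp [hk, UN, dimD]) rfl
  exact ts_p_reg hC a b (by omega) ⟨fun _ _ => alt_N0 _, reg_perp hC a b (hk ▸ hm)⟩

omit [Finite F] [Algebra.IsAlgebraic F K] [Fact p.Prime] [CharP F p] in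
theorem rc_herm [Fintype F] [Algebra.IsAlgebraic F K] [IsAlgClosed K] {q : ℕ} (hF : Fintype.card F = q ^ 2) {μ : Multiset ℕ}
    (h : ∀ k ∈ μ, 0 < k) : (hermCls hF).Rc (UN K μ) 1 := by
  obtain ⟨g, hg⟩ := exists_gu_jd hF (D := UN K μ) (UN_st (by simp)) (fun x hx => by simp [(mem_UN.1 hx).1])
    (fun x hx => h _ (mem_UN.1 hx).2) rfl
  exact ⟨_, _, _, H11.hermC_nondeg hF, (guRep hF _).isom g, hg, rfl⟩

omit [Finite F] in
theorem ts_p_herm [Fintype F] {q : ℕ} (hF : Fintype.card F = q ^ 2) {C : CForm (H11.hermT hF) V} (hC : C.Nondeg)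
    (h0 : 0 < m) (hm : 2 * m ≤ finrank F V) : ¬ p ∣ Nat.card {s // C.TS s ∧ finrank F s = m} := by
  obtain ⟨u, a, b⟩ := (rc_herm (K := AlgebraicClosure F) hF (μ := {finrank F V}) (by simp; omega)).out hC
    (by simp [UN, dimD]) rfl
  have := reg_perp hC a b hm
  exact ts_p_reg hC a b (by omega) ⟨fun x hx => by simpa [C.B_self, hermType] using this x hx x hx, this⟩

theorem ts_p_quad {C : CForm (quadType F) V} (hC : C.Nondeg) (h0 : 0 < m) (hm : 2 * m < finrank F V) :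
    ¬ p ∣ Nat.card {s // C.TS s ∧ finrank F s = m} := by
  by_cases h2 : (2 : F) = 0
  · obtain ⟨k, hk⟩ := quad_even h2 hC
    obtain ⟨k, rfl⟩ : ∃ l, k = l + 1 := ⟨k - 1, by omega⟩
    obtain ⟨u, a, b⟩ := (rc_rt h2 (rt_reg (K := AlgebraicClosure F) h2 k) _).out hC (by simp [hk, dimD]; ring) rfl
    exact ts_p_reg (n := 2 * k + 2) hC a b (by omega) (reg_quad (n := 2 * k + 2) hC a b (.inl (by omega)))
  have p2 : p ≠ 2 := by rintro rfl; exact h2 (CharP.cast_eq_zero F 2)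
  have R := fun k δ => rc_rq h2 (rq_reg (K := AlgebraicClosure F) h2 p2 k δ)
  obtain ⟨k, hk | hk⟩ := (finrank F V).even_or_odd'
  swap
  · obtain ⟨u, a, b⟩ := (R k _).out hC (by simp [hk, dimD]) rfl
    exact ts_p_reg (n := 2 * k + 1) hC a b (by omega) (reg_quad (n := 2 * k + 1) hC a b (.inr ⟨h2, by omega⟩))
  obtain ⟨k, rfl⟩ : ∃ l, k = l + 1 := ⟨k - 1, by omega⟩
  obtain ⟨n₁, C₁, u₁, a₁, b₁, c₁, d₁⟩ := R k ((quadCls F).cl C)
  obtain ⟨n₂, C₂, u₂, a₂, b₂, c₂, d₂⟩ := R 0 1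
  have e₁ := c₁.dim
  have e₂ := c₂.dim
  simp only [dimD, Multiset.map_singleton, Multiset.sum_singleton] at e₁ e₂
  rw [← card_ts_iso (((quadCls F).iso_iff (osum_nondeg a₁ a₂) hC (by rw [finrank_prod, e₁, e₂, hk]; ring)).2
    (by rw [(quadCls F).mul a₁ a₂, d₁, d₂, mul_one]))]
  obtain rfl : u₂ = 1 := sub_eq_zero.1 (by simpa using (un_pow (μ := {1}) c₂ 1).2 (by simp))
  have t := reg_quad (n := 2 * k + 1) (m := m) a₁ b₁ c₁ (.inr ⟨h2, by omega⟩)
  have fr : ∀ A : Submodule F (Fin n₁ → F), finrank F (A.map (LinearMap.inl F _ (Fin n₂ → F))) = finrank F A := fun A =>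
    (A.equivMapOfInjective _ LinearMap.inl_injective).finrank_eq.symm
  refine ts_p_of (K := AlgebraicClosure F) (μ := {2 * k + 1} + {1}) (osum_nondeg a₁ a₂) (osum_isom b₁ b₂) (by rw [UN_add]; exact c₁.prod c₂)
    ((LinearMap.ker ((u₁ - 1) ^ m)).map (.inl F _ _)) fun s => ⟨fun ⟨⟨h3, h4⟩, i⟩ => ?_, ?_⟩
  swap
  · rintro rfl
    refine ⟨⟨t.map_of isom_inl, by rw [fr, reg_dim (n := 2 * k + 1) c₁ (by omega)]⟩, ?_⟩
    rintro _ ⟨x, hx, rfl⟩
    exact ⟨_, ker_inv u₁ m x hx, by simp⟩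
  have i' : ∀ x ∈ s.comap (LinearMap.inl F _ _), u₁ x ∈ s.comap (LinearMap.inl F _ _) := fun x hx => by
    simpa using i _ hx
  have e := reg_ker (n := 2 * k + 1) c₁ i'
  have l := Submodule.map_comap_le (LinearMap.inl F _ _) s
  have l' := Submodule.finrank_mono l
  rw [fr, h4] at l'
  suffices finrank F (s.comap (LinearMap.inl F _ _)) = m by
    rw [← this, ← e]; exact (Submodule.eq_of_le_of_finrank_eq l (by rw [fr, this, h4])).symm
  by_contra H
  refine H (le_antisymm l' (h4 ▸ fr _ ▸ Submodule.finrank_mono fun x hx => ⟨x.1, ?_⟩))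
  have h5 : (u₁ - 1) x.1 ∈ s.comap (LinearMap.inl F _ _) := by
    convert s.sub_mem (i x hx) hx using 1; exact Submodule.mem_comap.trans (by congr! 1; ext <;> simp)
  rw [e, LinearMap.mem_ker, ← End.mul_apply, ← pow_succ] at h5
  have h6 := h3.1 x hx
  rw [show (osum C₁ C₂).N x = C₁.N x.1 + C₂.N x.2 from rfl, t.1 _ (pow_apply_of_le h5 (by omega)), zero_add] at h6
  have : x.2 = 0 := by_contra fun h7 => by have := (hasTS_one_iff.2 ⟨_, h7, h6⟩).two_mul_le a₂; omega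
  have : LinearMap.inl F _ _ x.1 = x := Prod.ext rfl this.symm
  exact ⟨Submodule.mem_comap.2 (this.symm ▸ hx), this⟩

end H25.El
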