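import Cfsg.Agent.H25.El12

/-! Elusive actions, XIII: non-liftable elements and involutions. -/

set_option autoImplicit false

namespace H25.El

open Module Polynomial Function H22 H27.Sp H12 H12.CForm Pointwise

universe u

variable {F : Type u} {K : Type*} [Field F] [Field K] [Algebra F K] {T : FormType F} {θ : K →+* K}
  {V W : Type u} [AddCommGroup V] [Module F V] [AddCommGroup W] [Module F W] {C : CForm T V} {C' : CForm T W}
  {a m n j k r p N : ℕ} {α β γ δ δ' η s : ℤˣ} {κ : Cls T} {u : End F V} {z : F} {A : Submodule F V} [Fact r.Prime]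

/-- non-liftable scalars -/
structure NL (κ : Cls T) (θ : K →+* K) (r : ℕ) (z : F) : Prop where
  tg : TG T θ
  hr : (r : F) ≠ 0
  ne : z ≠ 0
  pow : ∀ a : K, a ^ r = algebraMap F K z → du θ a ^ r = algebraMap F K z
  per : ∀ a : K, a ^ r = algebraMap F K z → minimalPeriod (du θ) a = r
  rg : ∀ E : Multiset K, (∀ a ∈ E, a ^ r = algebraMap F K z) → Rg T E
  cl : ∀ {W : Type u} [AddCommGroup W] [Module F W] [FiniteDimensional F W] (C : CForm T W) (v : End F W),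
    C.Nondeg → C.IsIsomTo C v → v ^ r = algebraMap F _ z → κ.cl C = 1

theorem mem_srt {c a : K} (h : a ∈ N • rt r c) : a ^ r = c := mem_rt.1 (Multiset.mem_of_mem_nsmul h)

variable [FiniteDimensional F V] [FiniteDimensional F W] [Finite F] [Algebra.IsAlgebraic F K] [IsAlgClosed K]

theorem srt_card (c : K) : (N • rt r c).card = r * N := by rw [Multiset.card_nsmul, rt_card, mul_comm]

namespace NL
variable (h : NL κ θ r z)
include h

theorem ev (hC : C.Nondeg) (hu : C.IsIsomTo C u) (h1 : u ^ r = algebraMap F _ z) :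
    ∃ N, EV u (N • rt r (algebraMap F K z)) ∧ finrank F V = r * N := by
  obtain ⟨E, a, b⟩ := exists_ev_pow (K := K) h.hr h.ne h1
  obtain ⟨N, rfl, c⟩ := eq_smul_rt du_inj h.pow h.per (ev_sym h.tg hC hu a) b
  exact ⟨N, a, a.dim.trans c⟩

omit [Finite F] [Algebra.IsAlgebraic F K] in
theorem st (N : ℕ) : (N • rt r (algebraMap F K z)).map (du θ) = N • rt r (algebraMap F K z) :=
  st_smul (rt_st (castK K h.hr) (by simpa using h.ne) du_inj h.pow) N

theorem nd_iff (hC : C.Nondeg) (hu : C.IsIsomTo C u) (h1 : u ^ r = algebraMap F _ z) (hm : m ≤ finrank F V) :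
    (∃ A, κ.ND C A m γ ∧ ∀ x ∈ A, u x ∈ A) ↔ r ∣ m ∧ γ = 1 := by
  constructor
  · rintro ⟨A, a, i⟩
    obtain ⟨N, -, e⟩ := h.ev a.nd (isom_res hu i) (restrict_pow i h1)
    exact ⟨⟨N, a.2.1 ▸ e⟩, a.2.2 ▸ h.cl _ _ a.nd (isom_res hu i) (restrict_pow i h1)⟩
  · rintro ⟨⟨M, rfl⟩, rfl⟩
    obtain ⟨N, a, e⟩ := h.ev hC hu h1
    rw [smul_split _ (Nat.le_of_mul_le_mul_left (e ▸ hm) (Fact.out : r.Prime).pos)] at a
    obtain ⟨A, i, b, c⟩ := h.tg.nd_split hC hu a (h.rg _ fun a ha => (Multiset.mem_add.1 ha).elim mem_srt mem_srt)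
      (rt_fr h.hr h.ne M) (h.st M)
    exact ⟨A, ⟨b, c.dim.trans (srt_card _), h.cl _ _ (C.restrict_nondeg_iff.2 b) (isom_res hu i) (restrict_pow i h1)⟩, i⟩

theorem exists_elt (hC : C.Nondeg) (hn : finrank F V = r * N) (hδ : κ.cl C = 1) (N0 : N ≠ 0) :
    ∃ u : End F V, C.IsIsomTo C u ∧ u ^ r = algebraMap F _ z ∧ EV u (N • rt r (algebraMap F K z)) ∧
      ∀ c, u ≠ algebraMap F _ c := by
  have z0 : algebraMap F K z ≠ 0 := by simpa using h.ne
  obtain ⟨_, C₁, u₁, a, b, c⟩ := h.tg.rl _ (rt_fr h.hr h.ne N) (h.st N) (fun a ha => ne0 (mem_srt ha) z0)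
    (h.rg _ fun a => mem_srt)
  have r0 := (Fact.out : r.Prime).ne_zero
  obtain ⟨u, d, e⟩ := Cls.Rc.out (κ := κ) ⟨_, C₁, u₁, a, b, c, h.cl _ _ a b ((EV.pow_iff c r0 z).2 fun _ => mem_srt)⟩ hC
    (by rw [dimD_ss, srt_card, hn]) hδ
  refine ⟨u, d, (EV.pow_iff e r0 z).2 fun _ => mem_srt, e, fun c e' => ?_⟩
  obtain ⟨a, ha, ha'⟩ := rt_ne (castK K h.hr) z0 (algebraMap F K c)
  exact ha' ((EV.scalar_iff e c).1 e' a (Multiset.mem_nsmul.2 ⟨N0, ha⟩))

theorem ts_iff (hC : C.Nondeg) (hu : C.IsIsomTo C u) (h1 : u ^ r = algebraMap F _ z) (hm : 2 * m ≤ finrank F V)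
    (h2 : ∀ a : K, a ^ r = algebraMap F K z → minimalPeriod (fr F) a = r) :
    (∃ A, (C.TS A ∧ finrank F A = m) ∧ ∀ x ∈ A, u x ∈ A) ↔ r ∣ m := by
  obtain ⟨N, a, e⟩ := h.ev hC hu h1
  rw [h.tg.ts_iff hC hu a (h.rg _ fun _ => mem_srt)]
  constructor
  · rintro ⟨E₁, E₂, b, c, rfl⟩
    exact st_dvd fr_inj c fun x hx => by rw [h2 x (mem_srt (N := N) (by simp [b, hx]))]
  · rintro ⟨M, rfl⟩
    rw [e, mul_left_comm] at hm
    refine ⟨_, (N - 2 * M) • rt r (algebraMap F K z), ?_, rt_fr h.hr h.ne M, srt_card _⟩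
    rw [h.st, ← add_nsmul, ← two_mul]
    exact smul_split _ (Nat.le_of_mul_le_mul_left hm (Fact.out : r.Prime).pos)

end NL

theorem NL.ts_two (h : NL κ θ 2 z) (hC : C.Nondeg) (hu : C.IsIsomTo C u) (h1 : u ^ 2 = algebraMap F _ z)
    (hm : 2 * m ≤ finrank F V) (h2 : IsSquare z) : ∃ A, (C.TS A ∧ finrank F A = m) ∧ ∀ x ∈ A, u x ∈ A := by
  obtain ⟨N, a, e⟩ := h.ev hC hu h1
  obtain ⟨w, rfl⟩ := h2
  have h3 : algebraMap F K w ^ 2 = algebraMap F K (w * w) := by rw [map_mul, sq]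
  rw [h.tg.ts_iff hC hu a (h.rg _ fun _ => mem_srt)]
  refine ⟨.replicate m (algebraMap F K w), (N - m) • rt 2 (algebraMap F K (w * w)), ?_, st_repl (fr_alg w) m, by simp⟩
  rw [smul_split _ (show m ≤ N by omega), ← orb_eq_rt h.pow h3 (h.per _ h3)]
  simp [orb, Multiset.range_succ, Multiset.nsmul_cons, Multiset.nsmul_singleton, add_comm]

section Inv
omit [Fact r.Prime] [Algebra.IsAlgebraic F K] [IsAlgClosed K]

omit [FiniteDimensional F V] [Finite F] in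
theorem inv_V1 (h : u ^ 2 = 1) {x : V} (hx : x ∈ V1 u) : u x = -x := by
  obtain ⟨y, rfl⟩ := hx
  have : u (u y) = y := LinearMap.congr_fun (sq u ▸ h) y
  simp [this]

omit [FiniteDimensional F V] [Finite F] in
theorem inv_iff1 (h : u ^ 2 = 1) (P : Submodule F V → Prop) :
    (∃ A ≤ V1 u, P A ∧ ∀ x ∈ A, u x ∈ A) ↔ ∃ A ≤ V1 u, P A :=
  exists_congr fun A => and_congr_right fun l => and_iff_left fun x hx => inv_V1 h (l hx) ▸ A.neg_mem hx

variable (h2 : (2 : F) ≠ 0) (hC : C.Nondeg) (hu : C.IsIsomTo C u) (h : u ^ 2 = 1) (h1 : κ.ND C (V1 u) a α)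
include h2 hC hu h h1

omit h2 h in
theorem inv_nd0 : κ.ND C (V0 u) (finrank F V - a) (α * κ.cl C) := perp_V1 hC hu ▸ h1.perp hC

theorem inv_ts_iff : (∃ A, (C.TS A ∧ finrank F A = m) ∧ ∀ x ∈ A, u x ∈ A) ↔
    ∃ m₀ m₁, m = m₀ + m₁ ∧ κ.HT (finrank F V - a) (α * κ.cl C) m₀ ∧ κ.HT a α m₁ := by
  simp only [fix_ts (r := 2) (by simpa) hC hu h, inv_iff1 h, Cls.exists_ts_iff h1, Cls.exists_ts_iff (inv_nd0 hC hu h1)]

theorem inv_nd_iff : (∃ A, κ.ND C A m γ ∧ ∀ x ∈ A, u x ∈ A) ↔ ∃ m₀ m₁ γ₀ γ₁, m = m₀ + m₁ ∧ γ = γ₀ * γ₁ ∧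
    (m₀ ≤ finrank F V - a ∧ κ.Ex m₀ γ₀ ∧ κ.Ex (finrank F V - a - m₀) (γ₀ * (α * κ.cl C))) ∧
      m₁ ≤ a ∧ κ.Ex m₁ γ₁ ∧ κ.Ex (a - m₁) (γ₁ * α) := by
  simp only [fix_nd κ (r := 2) (by simpa) hC hu h, inv_iff1 h, Cls.exists_nd_iff hC h1,
    Cls.exists_nd_iff hC (inv_nd0 hC hu h1)]

omit hC hu h1 in
theorem inv_det : LinearMap.det u = (-1) ^ finrank F (V1 u) := by
  obtain ⟨e, he⟩ := sim_restrict (compl01 (r := 2) (by simpa) h) (V0_inv u) (V1_inv u)
  refine (congrArg LinearMap.det (show u = e.toLinearMap ∘ₗ (u.restrict (V0_inv u)).prodMap (u.restrict (V1_inv u)) ∘ₗ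
    e.symm.toLinearMap from LinearMap.ext fun x => by simpa using (he (e.symm x)).symm)).trans ?_
  rw [LinearMap.det_conj,
    LinearMap.det_prodMap, show u.restrict (V0_inv u) = (1 : End F (V0 u)) from LinearMap.ext fun x =>
      Subtype.ext (mem_V0.1 x.2), show u.restrict (V1_inv u) = (-1 : F) • (1 : End F (V1 u)) from LinearMap.ext fun x =>
      Subtype.ext (by simpa using inv_V1 h x.2)]
  simp

omit h2 hC hu in
theorem inv_scalar (h2 : (2 : F) ≠ 0) : (∀ c, u ≠ algebraMap F _ c) ↔ a ≠ 0 ∧ a ≠ finrank F V := by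
  have c := compl01 (r := 2) (by simpa) h
  rw [← h1.2.1, Ne, Ne, Submodule.finrank_eq_zero, show finrank F (V1 u) = finrank F V ↔ V1 u = ⊤ from
    ⟨Submodule.eq_top_of_finrank_eq, fun e => by rw [e, finrank_top]⟩]
  refine ⟨fun H => ⟨fun e => H 1 (by rwa [LinearMap.range_eq_bot, sub_eq_zero, ← map_one (algebraMap F _)] at e), fun e => H (-1)
    (LinearMap.ext fun x => by simpa using inv_V1 h (e ▸ Submodule.mem_top))⟩, ?_⟩
  rintro ⟨b, d⟩ z rfl
  by_cases e : z = 1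
  · simp [e, V1] at b
  · exact d (LinearMap.range_eq_top.2 fun x => ⟨(z - 1)⁻¹ • x, by
      rw [← map_one (algebraMap F _), ← map_sub, Module.algebraMap_end_apply, smul_inv_smul₀ (sub_ne_zero.2 e)]⟩)

omit hu h h1 in
theorem exists_inv' (hA : C.NondegOn A) : ∃ u : End F V, C.IsIsomTo C u ∧ u ^ 2 = 1 ∧ V1 u = A := by
  obtain ⟨g, -, -, a, b⟩ := exists_isom_scal hC hA 1 (fun x hx => hx) (-1) (by simp)
  have c := hC.isCompl_perp hA
  refine ⟨g.1, g.2, LinearMap.ext fun x => ?_, le_antisymm ?_ fun x hx => ⟨-(2 : F)⁻¹ • x, ?_⟩⟩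
  · obtain ⟨y, hy, z, hz, rfl⟩ := Submodule.mem_sup.1 (c.sup_eq_top ▸ Submodule.mem_top : x ∈ A ⊔ C.perp A)
    simp [sq, a y hy, b z hz]
  · rintro _ ⟨x, rfl⟩
    obtain ⟨y, hy, z, hz, rfl⟩ := Submodule.mem_sup.1 (c.sup_eq_top ▸ Submodule.mem_top : x ∈ A ⊔ C.perp A)
    simpa [a y hy, b z hz, add_sub_add_right_eq_sub] using A.sub_mem (A.neg_mem hy) hy
  · simp only [LinearMap.sub_apply, map_smul, LinearEquiv.coe_coe, a x hx, End.one_apply, Units.val_neg, Units.val_one]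
    match_scalars; field_simp; ring

end Inv

theorem nl_id (tg : TG T (RingHom.id K)) (h2 : (2 : F) ≠ 0)
    (cl : ∀ {W : Type u} [AddCommGroup W] [Module F W] [FiniteDimensional F W] (C : CForm T W) (v : End F W),
      C.Nondeg → C.IsIsomTo C v → v ^ 2 = algebraMap F _ (-1) → κ.cl C = 1) : NL κ (RingHom.id K) 2 (-1) := by
  have k : ∀ a : K, a ^ 2 = algebraMap F K (-1) → a ^ 2 ≠ 1 := fun a h e =>
    castK K (r := 2) (by simpa) (by rw [e, map_neg, map_one] at h; push_cast; linear_combination h)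
  refine ⟨tg, by simpa, by simp, fun a h => by simp [du, h], fun a h => minimalPeriod_eq_prime ?_ fun e => k a h ?_,
    fun E h => .inr fun a ha => k a (h a ha), cl⟩
  · simp [IsPeriodicPt, IsFixedPt, du]
  · have a0 : a ≠ 0 := ne0 h (by simp)
    rw [sq]; nth_rw 1 [← e]; simp [du, a0]

theorem nl_alt (h2 : (2 : F) ≠ 0) : NL (altCls F) (RingHom.id K) 2 (-1) := nl_id tg_alt h2 fun _ _ _ _ _ => rfl

theorem nl_quad (h2 : (2 : F) ≠ 0) : NL (quadCls F) (RingHom.id K) 2 (-1) := by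
  refine nl_id tg_quad h2 fun C v a b c => ?_
  have e : v * (-v) = 1 := by rw [mul_neg, ← sq, c]; simp
  have e' : v - -v = (1 + v) * (1 + v) := by
    rw [add_mul, mul_add, mul_add, ← sq v, c]; simp; abel
  have d : LinearMap.det (v - -v) ≠ 0 := by
    rw [sub_neg_eq_add, ← two_smul F, LinearMap.det_smul]
    exact mul_ne_zero (pow_ne_zero _ h2) ((isUnit_of_isom a b).map LinearMap.det).ne_zero
  have := qsign_eq_one.2 (quad_det_sq h2 a b e d (finBasis F _))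
  rw [qsign_mul d ((nondeg_iff_det_gram _).1 a), e', map_mul, qsign_mul_self, one_mul] at this
  exact (if_neg h2).trans (by rwa [dq, ofQuad_toQuad])

end H25.El
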