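import Cfsg.Agent.H25.El13

/-! Elusive actions, XIV: the group Omega, and involutions in odd characteristic. -/

set_option autoImplicit false

namespace H25.El

open Module Polynomial Function H22 H27.Sp H12 H12.CForm Pointwise

universe u

variable {F : Type u} [Field F] {T : FormType F} {V : Type u} [AddCommGroup V] [Module F V] {C : CForm T V}
  {a d m n : ℕ} {α γ δ s t : ℤˣ} {κ : Cls T} {u : End F V} {Q : QuadraticForm F V} {G P : End F V → Prop}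

/-- membership in Omega -/
def Om (Q : QuadraticForm F V) (u : End F V) : Prop := ∃ x ∈ OmegaV Q, (x : End F V) = u

theorem Om.isom (h : Om Q u) : (ofQuad Q).IsIsomTo (ofQuad Q) u := by obtain ⟨x, hx, rfl⟩ := h; exact OmegaV_le hx

variable [FiniteDimensional F V] [Finite F]

theorem om_iff (hQ : QNondeg Q) (hne : NotExc F V) (g : orth Q) : Om Q g.1 ↔ dickson Q g = 1 ∧ spinor Q g = 1 := by
  rw [← mem_commutator_iff hQ hne, ← mem_OmegaV]
  exact ⟨fun ⟨x, hx, e⟩ => LinearEquiv.toLinearMap_injective e ▸ hx, fun h => ⟨_, h, rfl⟩⟩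

theorem om_odd (hQ : QNondeg Q) (hne : NotExc F V) (hn : Odd n) (u : End F V) (hu : (ofQuad Q).IsIsomTo (ofQuad Q) u)
    (h : u ^ n = 1) : Om Q u := by
  obtain ⟨x, hx, rfl⟩ := exists_isomE hQ hu
  have : (⟨x, hx⟩ : orth Q) ^ n = 1 := Subtype.ext (LinearEquiv.toLinearMap_injective
    ((map_pow LinearEquiv.automorphismGroup.toLinearMapMonoidHom x n).trans h))
  have k : ∀ φ : orth Q →* ℤˣ, φ ⟨x, hx⟩ = 1 := fun φ => by
    obtain ⟨k, rfl⟩ := hn
    rw [← map_one φ, ← this, map_pow, add_comm, upow_add_two, pow_one]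
  exact (om_iff hQ hne ⟨x, hx⟩).2 ⟨k _, k _⟩

theorem om_two (h2 : (2 : F) = 0) (hQ : QNondeg Q) (hne : NotExc F V) (hu : (ofQuad Q).IsIsomTo (ofQuad Q) u) :
    Om Q u ↔ Even (finrank F (V1 u)) := by
  obtain ⟨x, hx, rfl⟩ := exists_isomE hQ hu
  have : finrank F (V1 (x : End F V)) + finrank F (V0 (x : End F V)) = finrank F V :=
    LinearMap.finrank_range_add_finrank_ker _
  rw [om_iff hQ hne ⟨x, hx⟩, spinor_eq_one_of_char_two hQ hne h2, dickson_eq hQ hne, ← this, add_left_comm, ← two_mul,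
    upow_add_two, neg_one_pow_eq_one_iff_even (by decide)]
  simp

variable (h2 : (2 : F) ≠ 0)
include h2

theorem sp_neg (hQ : QNondeg Q) (h : Even (finrank F V)) : spinor Q (negOne Q) = dq Q := by
  obtain ⟨_ | m, hd⟩ := h
  · haveI := finrank_zero_iff.1 hd
    rw [← cl_odd h2, Cls.cl_zero hQ hd, show negOne Q = 1 from orth_ext fun _ => Subsingleton.elim _ _, map_one]
  obtain ⟨b, b1, b2, b3⟩ := exists_orth_basis h2 hQ one_ne_zero (n := 2 * m + 1) (by omega)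
  have hb : ∀ i, Q (b i) ≠ 0 := fun i => by
    by_cases h : i = Fin.last _
    exacts [h ▸ b3, (b2 i h).trans_ne one_ne_zero]
  rw [map_negOne b hb b1 b.span_eq, dq_eq hQ b, det_gram_of_orth b1]
  simp only [ofQuad_N]
  rw [qsign_mul (pow_ne_zero _ h2) (Finset.prod_ne_zero_iff.2 fun i _ => hb i), qsign_prod _ _ fun i _ => hb i,
    Fintype.card_fin, show (2 : F) ^ (2 * m + 1 + 1) = 2 ^ (m + 1) * 2 ^ (m + 1) by ring, qsign_mul_self, one_mul]
  simp only [spinor_refl hQ (notExc_of_two_ne_zero h2) (hb _)]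

theorem om_inv (hQ : QNondeg Q) (u : End F V) (a : ℕ) (α : ℤˣ) (hu : (ofQuad Q).IsIsomTo (ofQuad Q) u) (h : u ^ 2 = 1)
    (h1 : (quadCls F).ND (ofQuad Q) (V1 u) a α) : Om Q u ↔ Even a ∧ α = 1 := by
  have h0 := inv_nd0 hQ hu h1
  obtain ⟨x, hx, rfl⟩ := exists_isomE hQ hu
  rw [om_iff hQ (notExc_of_two_ne_zero h2) ⟨x, hx⟩, dickson_eq_one_iff hQ h2, inv_det h2 h, h1.2.1,
    neg_one_pow_eq_one_iff_even (fun e => h2 (by linear_combination -e))]
  refine and_congr_right fun e => ?_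
  have n0 : QNondeg ((ofQuad Q).restrict (V0 (x : End F V))).toQuad := by rw [QNondeg, ofQuad_toQuad]; exact h0.nd
  have n1 : QNondeg ((ofQuad Q).restrict (V1 (x : End F V))).toQuad := by rw [QNondeg, ofQuad_toQuad]; exact h1.nd
  rw [← (fsim_inv h2 (prod_nd n0 n1) (g := sumH _ _ (1, negOne _)) (g' := ⟨x, hx⟩)
    ⟨Submodule.prodEquivOfIsCompl _ _ (compl01 (r := 2) (by simpa) h), quad_isIsomTo _ fun y =>
      (isom_coprod (perp_V0 hQ hu).ge).2 y, fun y => by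
        simpa [sumH_apply, negOne_apply] using congrArg₂ (· + ·) (mem_V0.1 y.1.2).symm (inv_V1 h y.2.2).symm⟩).2, (sum_inv h2 n0 n1 _ _).2,
    map_one, one_mul, sp_neg h2 n1 (h1.2.1 ▸ e), ← cl_odd h2, ofQuad_toQuad, h1.2.2]

theorem om_cx (hQ : QNondeg Q) (u : End F V) (d : ℕ) (hu : (ofQuad Q).IsIsomTo (ofQuad Q) u)
    (h : u ^ 2 = algebraMap F _ (-1)) (hd : finrank F V = 2 * d) (d0 : d ≠ 0) : Om Q u ↔ qsign (2 : F) ^ d = 1 := by
  have N := nl_quad (K := AlgebraicClosure F) h2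
  have ne := notExc_of_two_ne_zero (V := V) h2
  obtain ⟨n, h3, h4⟩ := N.ev hQ hu h
  obtain rfl : n = d := by omega
  obtain ⟨x, hx, rfl⟩ := exists_isomE hQ hu
  have := h3.det
  rw [Multiset.prod_nsmul, rt_prod] at this
  rw [om_iff hQ ne ⟨x, hx⟩, dickson_eq_one_iff hQ h2, and_iff_right ((algebraMap F (AlgebraicClosure F)).injective
    (this.trans (by simp [show (-1 : AlgebraicClosure F) ^ 3 = -1 by ring])))]
  let P : QuadraticForm F (F × F) := QuadraticMap.sq.prod QuadraticMap.sq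
  have p : ∀ x y : F × F, QuadraticMap.polar P x y = 2 * (x.1 * y.1 + x.2 * y.2) := fun x y => by
    simp [P, QuadraticMap.polar]; ring
  have hP : QNondeg P := fun x H => Prod.ext (by simpa [ofQuad_B, p, h2] using H (1, 0))
    (by simpa [ofQuad_B, p, h2] using H (0, 1))
  have p1 : P (1, 0) = 1 := by simp [P]
  have p2 : P (1, 1) = 2 := by simp [P, one_add_one_eq_two]
  have g : ∀ x, (refl P (1, 0) * refl P (1, 1)).1 x = (x.2, -x.1) := fun x => by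
    ext <;> simp [refl_apply, p1, p2, p, h2] <;> field_simp <;> ring
  obtain ⟨k, h5, h6⟩ := N.ev hP (refl P (1, 0) * refl P (1, 1)).2 (LinearMap.ext fun x => by
    simp only [sq, End.mul_apply, LinearEquiv.coe_coe, g]; ext <;> simp)
  obtain rfl : k = 1 := by simp at h6; omega
  have h7 := Rq.of h2 hP _ h5
  rw [map_mul, spinor_refl hP (notExc_of_two_ne_zero h2) (by simp [p1]), spinor_refl hP (notExc_of_two_ne_zero h2)
    (by simp [p2, h2]), p1, p2, qsign_one, one_mul, one_nsmul] at h7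
  have h8 : ∀ n, ∃ δ, Rq F (((n + 1) • rt 2 (algebraMap F (AlgebraicClosure F) (-1))).map (·, 1)) δ
      (qsign (2 : F) ^ (n + 1)) := fun n => by
    induction n with
    | zero => exact ⟨_, by simpa using h7⟩
    | succ n ih => obtain ⟨δ, ih⟩ := ih; exact ⟨_, by rw [succ_nsmul, Multiset.map_add, pow_succ]; exact ih.add h2 h7⟩
  obtain ⟨n, rfl⟩ := Nat.exists_eq_succ_of_ne_zero d0
  obtain ⟨δ, h8⟩ := h8 n
  rw [(Rq.of h2 hQ ⟨x, hx⟩ h3).uniq h2 h8 (by simpa using (N.rg _ fun _ => mem_rt.1).resolve_left fun h => h.1 rfl)]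

theorem two_main (N : NL κ (RingHom.id (AlgebraicClosure F)) 2 (-1)) (hσ : ∀ a, T.σ a = a) (hC : C.Nondeg)
    (hn : finrank F V = n) (hδ : κ.cl C = δ) (n0 : n ≠ 0) (hG : ∀ u, G u → C.IsIsomTo C u)
    (hI : ∀ (u : End F V) a α, C.IsIsomTo C u → u ^ 2 = 1 → κ.ND C (V1 u) a α → (G u ↔ Even a ∧ α = 1))
    (hX : ∀ (u : End F V) d, C.IsIsomTo C u → u ^ 2 = algebraMap F _ (-1) → finrank F V = 2 * d → d ≠ 0 → (G u ↔ t ^ d = 1))
    (f : κ.Fi s) (hE : ∀ a, Even a → κ.Ex a 1) {R : ℕ → Prop} {S : Prop}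
    (h1 : ∀ (u : End F V) a, C.IsIsomTo C u → u ^ 2 = 1 → κ.ND C (V1 u) a 1 → (P u ↔ R a))
    (h3 : ∀ u : End F V, C.IsIsomTo C u → u ^ 2 = algebraMap F _ (-1) → (P u ↔ S)) :
    Lhs G 2 P ↔ (∀ a, Even a → 0 < a → a < n → R a) ∧ ∀ d, n = 2 * d → δ = 1 → t ^ d = 1 → S := by
  subst hn hδ
  refine ⟨fun H => ⟨fun a e l l' => ?_, fun d e e' e'' => ?_⟩, fun H u g ⟨z, b⟩ e => ?_⟩
  · obtain ⟨A, -, hA⟩ := (Cls.exists_nd_iff hC (Cls.nd_top hC)).2 ⟨l'.le, hE a e, f.emb (Cls.ex_of hC) (hE a e) l'⟩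
    obtain ⟨u, b, c, rfl⟩ := exists_inv' h2 hC hA.1
    exact (h1 u a b c hA).1 (H u ((hI u a 1 b c hA).2 ⟨e, rfl⟩) ⟨1, by simpa⟩ ((inv_scalar c hA h2).2 ⟨l.ne', l'.ne⟩))
  · obtain ⟨u, b, c, -, g⟩ := N.exists_elt hC e e' (by omega)
    exact (h3 u b c).1 (H u ((hX u d b c e (by omega)).2 e'') ⟨_, c⟩ g)
  haveI := nontriv e
  have i := hG u g
  have := scal_norm hC (b ▸ isom_pow i 2)
  rw [hσ, mul_self_eq_one_iff] at this
  rcases this with rfl | rfl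
  · rw [map_one] at b
    have n := κ.nd_self (nd_V1 (r := 2) (by simpa) hC i b)
    obtain ⟨e1, e2⟩ := (hI u _ _ i b n).1 g
    obtain ⟨e3, e4⟩ := (inv_scalar b n h2).1 e
    exact (h1 u _ i b (e2 ▸ n)).2 (H.1 _ e1 (Nat.pos_of_ne_zero e3) ((Submodule.finrank_le _).lt_of_ne e4))
  · obtain ⟨d, -, e1⟩ := N.ev hC i b
    exact (h3 u i b).2 (H.2 d e1 (N.cl C u hC i b) ((hX u d i b e1 (by omega)).1 g))

theorem ts_two (N : NL κ (RingHom.id (AlgebraicClosure F)) 2 (-1)) (hσ : ∀ a, T.σ a = a) (hC : C.Nondeg)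
    (hn : finrank F V = n) (hδ : κ.cl C = δ) (n3 : 3 ≤ n) (hG : ∀ u, G u → C.IsIsomTo C u)
    (hI : ∀ (u : End F V) a α, C.IsIsomTo C u → u ^ 2 = 1 → κ.ND C (V1 u) a α → (G u ↔ Even a ∧ α = 1))
    (hX : ∀ (u : End F V) d, C.IsIsomTo C u → u ^ 2 = algebraMap F _ (-1) → finrank F V = 2 * d → d ≠ 0 → (G u ↔ t ^ d = 1))
    (f : κ.Fi s) (hE : ∀ a, Even a → κ.Ex a 1) (hm : C.HasTS m) :
    Lhs G 2 (fun u => ∃ A, (C.TS A ∧ finrank F A = m) ∧ ∀ x ∈ A, u x ∈ A) ↔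
      (s = 1 ∨ 2 * m + 2 < n ∨ 2 * m + 2 = n ∧ δ = s ^ m) ∧ ∀ d, n = 2 * d → δ = 1 → t ^ d = 1 → IsSquare (-1 : F) ∨ Even m := by
  have l := hm.two_mul_le hC
  rw [two_main h2 N hσ hC hn hδ (by omega) hG hI hX f hE (fun u a b c d => inv_ts_iff h2 hC b c d)
    (S := IsSquare (-1 : F) ∨ Even m) fun u b c => ?_]
  swap
  · rcases lift_or (K := AlgebraicClosure F) (r := 2) (z := (-1 : F)) (by simp) with ⟨w, h⟩ | ⟨-, -, h⟩
    · exact iff_of_true (N.ts_two hC b c l ⟨w, by rw [← h, sq]⟩) (.inl ⟨w, by rw [← h, sq]⟩)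
    rw [N.ts_iff hC b c l h, even_iff_two_dvd, or_iff_right]
    rintro ⟨w, e⟩
    have := h (algebraMap F _ w) (by rw [e, map_mul, sq])
    rw [minimalPeriod_eq_one_iff_isFixedPt.2 (fr_alg w)] at this
    omega
  have h1 := (f.ht.1 ((Cls.ht_iff hC).2 hm)).2
  have h0 := Cls.ex_of (κ := κ) hC
  rw [hn, hδ] at *
  refine and_congr_left' ⟨fun H => or_iff_not_imp_left.2 fun e => ?_, ?_⟩
  · obtain ⟨m₀, m₁, rfl, a, b⟩ := H 2 even_two two_pos (by omega)
    obtain rfl : m₁ = 0 := by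
      rcases (f.ht.1 b).2 with b | ⟨b, b'⟩
      · omega
      · obtain rfl : m₁ = 1 := by omega
        exact absurd (by simpa using b'.symm) e
    exact (f.ht.1 a).2.imp (by omega) fun a => ⟨by omega, by simpa using a.2⟩
  rintro H _ ⟨b, rfl⟩ l1 l2
  have e1 := hE _ ⟨b, rfl⟩
  simp only [f.ht, f.emb h0 e1 l2, e1, true_and]
  simp only [one_mul]
  by_cases e : s ^ b = 1
  · rcases le_total m b with l3 | l3
    · exact ⟨0, m, by omega, .inl (by omega), l3.lt_or_eq.imp (by omega) fun e' => ⟨by omega, by rw [e', e]⟩⟩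
    · exact ⟨m - b, b, by omega, h1.imp (by omega) fun h => ⟨by omega, by rw [upow_sub _ l3, e, one_mul, h.2]⟩,
        .inr ⟨by omega, e.symm⟩⟩
  have s1 : s ≠ 1 := by rintro rfl; simp at e
  rcases le_or_gt b m with l3 | l3
  · refine ⟨m + 1 - b, b - 1, by omega, (H.resolve_left s1).imp (by omega) fun h => ⟨by omega, ?_⟩, .inl (by omega)⟩
    rw [upow_sub _ (by omega), pow_succ, mul_left_comm, u_ne e s1, mul_one, h.2]
  · exact ⟨0, m, by omega, .inl (by omega), .inl (by omega)⟩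

theorem nd_two_alt {C : CForm (altType F) V} (hC : C.Nondeg) (hm : Even m) (l : m ≤ finrank F V) (n0 : finrank F V ≠ 0) :
    Lhs (fun u : End F V => C.IsIsomTo C u) 2 fun u => ∃ A, (altCls F).ND C A m 1 ∧ ∀ x ∈ A, u x ∈ A := by
  rw [two_main h2 (nl_alt h2) (fun _ => rfl) hC rfl rfl n0 (fun _ h => h) (t := 1)
    (fun u a α b c d => iff_of_true b (alt_ex.1 d.ex)) (fun u d b _ _ _ => iff_of_true b (one_pow _)) fi_alt
    (fun a h => alt_ex.2 ⟨h, rfl⟩) (fun u a b c d => inv_nd_iff h2 hC b c d) fun u b c => (nl_alt (K := AlgebraicClosure F) h2).nd_iff hC b c l]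
  refine ⟨fun a e l1 l2 => ⟨m - min m a, min m a, 1, 1, by omega, rfl, ?_⟩, fun _ _ _ _ => ⟨hm.two_dvd, rfl⟩⟩
  obtain ⟨k, hk⟩ := alt_even hC
  simp only [alt_ex, Nat.even_iff, mul_one, and_true] at *
  exact ⟨⟨by omega, by omega, by omega, rfl⟩, by omega⟩

theorem nd_two_quad (hQ : QNondeg Q) (hn : finrank F V = n) (hδ : (quadCls F).cl (ofQuad Q) = δ) (m0 : 0 < m) (l : m < n) :
    Lhs (Om Q) 2 (fun u => ∃ A, (quadCls F).ND (ofQuad Q) A m γ ∧ ∀ x ∈ A, u x ∈ A) ↔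
      ∀ d, n = 2 * d → δ = 1 → qsign (2 : F) ^ d = 1 → Even m ∧ γ = 1 := by
  rw [two_main h2 (nl_quad h2) (fun _ => rfl) hQ hn hδ (by omega) (fun _ h => h.isom) (om_inv h2 hQ) (om_cx h2 hQ) fi_quad
    (fun a h => quad_ex.2 ⟨fun _ => h, fun _ => rfl⟩) (fun u a b c d => inv_nd_iff h2 hQ b c d)
    fun u b c => (nl_quad (K := AlgebraicClosure F) h2).nd_iff hQ b c (by omega), even_iff_two_dvd]
  refine and_iff_right fun a e l1 l2 => ?_
  obtain ⟨b, rfl⟩ := e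
  simp only [quad_ex, h2, false_imp_iff, true_and, hn, hδ, one_mul]
  rcases le_or_gt (n - (b + b)) (m - 1) with l3 | l3
  · exact ⟨n - (b + b), m - (n - (b + b)), δ, δ * γ, by omega, by rw [← mul_assoc, uu, one_mul],
      ⟨le_rfl, by omega, fun _ => uu _⟩, by omega⟩
  · exact ⟨m - 1, 1, 1, γ, by omega, (one_mul _).symm, ⟨by omega, fun _ => rfl, by omega⟩, by omega⟩

end H25.El
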