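import Cfsg.Agent.H25.El14
import Cfsg.Agent.H12.GeoForm

/-! Elusive actions, XV: symplectic and orthogonal groups, cross characteristic. -/

set_option autoImplicit false

namespace H25.El

open Module Polynomial Function H22 H27.Sp H12 H12.CForm Pointwise

universe u

variable {F : Type u} [Field F] {T : FormType F} {V : Type u} [AddCommGroup V] [Module F V] {C : CForm T V}
  {a c d i l m n r N : ℕ} {α γ δ η s t : ℤˣ} {κ : Cls T} {u : End F V} {Q : QuadraticForm F V} {G P : End F V → Prop}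

section Bridge
variable {ι : Type} [Fintype ι] [DecidableEq ι] (P : End F (ι → F) → Prop)

theorem sp_lhs [Finite F] (P : End F (ι ⊕ ι → F) → Prop) : (∀ x : Matrix.symplecticGroup ι F,
    (∃ c : F, ((x ^ r : Matrix.symplecticGroup ι F) : Matrix (ι ⊕ ι) (ι ⊕ ι) F) = c • (1 : Matrix _ _ F)) →
      (∀ c : F, (x : Matrix (ι ⊕ ι) (ι ⊕ ι) F) ≠ c • (1 : Matrix _ _ F)) → P (Matrix.toLin' x.1)) ↔
      Lhs (fun u => (H11.spForm ι F).IsIsomTo (H11.spForm ι F) u) r P := by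
  rw [← lhs_iff (fun x : Matrix.symplecticGroup ι F => x.1) (by simp) (fun _ => True)]
  · simp
  · refine fun u => ⟨fun h => ⟨⟨LinearMap.toMatrix' u, (H11.mem_symplecticGroup_iff _).2 fun x y => by
      simpa using h.1 x y⟩, trivial, by simp⟩, ?_⟩
    rintro ⟨x, -, rfl⟩; exact ⟨(H11.mem_symplecticGroup_iff _).1 x.2, fun _ => rfl⟩

theorem gl_ex (H : Subgroup ((ι → F) ≃ₗ[F] (ι → F))) (u : End F (ι → F)) : (∃ x ∈ H, (x : End F (ι → F)) = u) ↔
    ∃ x : GL ι F, x ∈ H.comap (glHom ι F) ∧ Matrix.toLin' (x : Matrix ι ι F) = u :=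
  ⟨fun ⟨x, a, b⟩ => let ⟨y, e⟩ := (glEquiv ι F).surjective x
    ⟨y, Subgroup.mem_comap.2 ((show glHom ι F y = x from e).symm ▸ a), by rw [← b, ← e]; rfl⟩, fun ⟨x, a, b⟩ => ⟨_, a, b⟩⟩

theorem om_lhs [Finite F] (Q : QuadraticForm F (ι → F)) : (∀ x : GL ι F, x ∈ Cfsg.Geo.omegaGL Q →
    (∃ c : F, ((x ^ r : GL ι F) : Matrix ι ι F) = c • (1 : Matrix ι ι F)) →
      (∀ c : F, (x : Matrix ι ι F) ≠ c • (1 : Matrix ι ι F)) → P (Matrix.toLin' (x : Matrix ι ι F))) ↔ Lhs (Om Q) r P :=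
  lhs_iff (fun x : GL ι F => (x : Matrix ι ι F)) (by simp) _ _ _ fun u => omegaGL_eq Q ▸ gl_ex _ u

theorem om_lhs_odd [Finite F] [Fact r.Prime] (h2 : (2 : F) ≠ 0) {Q : QuadraticForm F (ι → F)} (hQ : QNondeg Q)
    (hn : Odd (Fintype.card ι)) : (∀ x : GL ι F, x ∈ Cfsg.Geo.omegaGL Q → orderOf x = r →
      P (Matrix.toLin' (x : Matrix ι ι F))) ↔ Lhs (Om Q) r P := by
  rw [← om_lhs]
  haveI : Nonempty ι := Fintype.card_pos_iff.1 hn.pos
  have k : ∀ x ∈ Cfsg.Geo.omegaGL Q, ∀ c : F, (x : Matrix ι ι F) = c • (1 : Matrix ι ι F) → x = 1 := fun x hx c e => by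
    obtain ⟨y, hy, e'⟩ := (gl_ex _ _).2 ⟨x, omegaGL_eq Q ▸ hx, toLin'_eq_smul.1 e⟩
    have h1 := (dickson_eq_one_iff hQ h2 _).1 ((om_iff hQ (notExc_of_two_ne_zero h2) ⟨y, OmegaV_le hy⟩).1 ⟨y, hy, rfl⟩).1
    have h3 : c * c = 1 := scal_norm hQ (e' ▸ OmegaV_le hy)
    obtain ⟨k, hk⟩ := hn
    rw [e', Algebra.algebraMap_eq_smul_one, LinearMap.det_smul, finrank_fintype_fun_eq_card, hk, pow_succ, pow_mul, sq, h3]
      at h1
    exact Units.ext (by simpa [show c = 1 by simpa using h1] using e)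
  refine forall₂_congr fun x hx => ⟨fun H ⟨c, a⟩ b => H (orderOf_eq_prime (k _ (pow_mem hx r) c a) ?_),
    fun H a => H ⟨1, by simp [← a]⟩ fun c e => ?_⟩
  · rintro rfl; exact b 1 (by simp)
  · rw [k x hx c e, orderOf_one] at a; exact (Fact.out : r.Prime).one_lt.ne a

theorem ts_alt [Finite F] {C : CForm (altType F) V} {A : Submodule F V} : C.TS A ↔ ∀ x ∈ A, ∀ y ∈ A, C.B x y = 0 :=
  and_iff_right fun _ _ => alt_N0 _

theorem nd_iff' {A : Submodule F V} : (∀ x ∈ A, x ≠ 0 → ∃ y ∈ A, C.B x y ≠ 0) ↔ C.NondegOn A :=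
  forall₂_congr fun _ _ => by rw [← not_imp_not]; simp

end Bridge

theorem card_odd [Finite F] (h2 : (2 : F) ≠ 0) : Nat.card F % 2 = 1 := by
  have := Fintype.ofFinite F
  rw [Nat.card_eq_fintype_card, ← Nat.odd_iff, odd_card_iff]; exact h2

theorem sq_neg [Finite F] (h2 : (2 : F) ≠ 0) : IsSquare (-1 : F) ↔ Nat.card F % 4 = 1 := by
  have := Fintype.ofFinite F
  have := card_odd h2
  rw [FiniteField.isSquare_neg_one_iff, ← Nat.card_eq_fintype_card]; omega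

theorem qs_eq (a : F) : qsign a = sg (IsSquare a) := by rw [← qsign_eq_one, sg_self]

theorem qs_neg [Finite F] (h2 : (2 : F) ≠ 0) : qsign (-1 : F) = sg (Nat.card F % 4 = 1) := by rw [qs_eq, sq_neg h2]

theorem qs_two [Finite F] (h2 : (2 : F) ≠ 0) : qsign (2 : F) = sg (Nat.card F % 8 = 1 ∨ Nat.card F % 8 = 7) := by
  have := Fintype.ofFinite F
  have := card_odd h2
  rw [qs_eq, FiniteField.isSquare_two_iff, ← Nat.card_eq_fintype_card, sg_inj]; omega

theorem eta_pow (O V : Prop) : (sg O * s ^ a) ^ N * (sg V * s ^ d) = sg ((O ∨ Even N) ↔ V) * s ^ (a * N + d) := by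
  rw [mul_pow, sg_pow, ← pow_mul, mul_mul_mul_comm, sg_mul, pow_add]

theorem eta_eq {O V : Prop} (h : l + a * N = d) : (sg O * s ^ a) ^ N * (sg V * s ^ d) = s ^ l ↔ ((O ∨ Even N) ↔ V) := by
  rw [eta_pow, show a * N + d = l + 2 * (a * N) by omega, upow_add_two, mul_eq_right, sg_eq_one]

theorem c_even (hc : c = if Even i then i else 2 * i) : ∃ a, c = 2 * a := by
  split_ifs at hc with h
  exacts [let ⟨a, h⟩ := h; ⟨a, by omega⟩, ⟨i, hc⟩]

variable [FiniteDimensional F V] [Finite F] [Fact r.Prime] (hr : (r : F) ≠ 0) (h2 : r ≠ 2)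
  (hi : i = orderOf (Nat.card F : ZMod r)) (hc : c = if Even i then i else 2 * i)
include hr h2 hi hc

theorem ts_id (h : Blk κ (RingHom.id (AlgebraicClosure F)) r c η (if Even i then Nat.card F else -Nat.card F))
    (f : κ.Fi s) (hη : Odd i → η = s ^ i) (hC : C.Nondeg) (hn : finrank F V = n) (hδ : κ.cl C = δ)
    (hd : r ∣ Nat.card {s // C.TS s ∧ finrank F s = m}) (hm : C.HasTS m) :
    LL C r (fun u => ∃ A, (C.TS A ∧ finrank F A = m) ∧ ∀ x ∈ A, u x ∈ A) ↔ i ≤ m ∧ (Odd i ∧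
      (n % c = 0 ∧ η ^ (n / c) * δ ≠ 1 ∨ 2 * (m % i) < n % c ∨ 2 * (m % i) = n % c ∧ η ^ (n / c) * δ = s ^ (m % i)) ∨
      Even i ∧ (r - 1) / i + 2 * (m / i) ≤ n / i ∧ (n % c = 0 ∧ η ^ (n / c) * δ ≠ 1 ∧ 2 * (m % i) ≤ i ∧
        (2 * (m % i) = i → -η = s ^ (m % i)) ∧ (r - 1) / i + 2 * (m / i) < n / i ∨ 2 * (m % i) < n % c ∨
          2 * (m % i) = n % c ∧ η ^ (n / c) * δ = s ^ (m % i))) := by
  have e := exists_pow_neg_one (Fact.out : r.Prime) h2 (ord_pos hr)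
  rw [← hi] at e
  by_cases H : Even i
  · obtain rfl : c = i := by rw [hc, if_pos H]
    obtain ⟨j, hj⟩ := e.2 H
    rw [h.ts_num2 f hi du_id (j := j) (by simpa) (by obtain ⟨a, rfl⟩ := H; rw [pow_add, uu]) hC hn hδ hd hm]
    simp only [H, Nat.not_odd_iff_even.2 H, false_and, true_and, false_or]
  · rw [if_neg H] at hc
    rw [h.ts_num1 f hi hc du_id (fun j e' => H (e.1 ⟨j, by simpa using e'⟩)) (.inl fun a => by simp [du])
      (hη (Nat.not_even_iff_odd.1 H)) hC hn hδ hd hm]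
    simp only [H, Nat.not_even_iff_odd.1 H, false_and, true_and, or_false]

theorem alt_ts {C : CForm (altType F) V} (hC : C.Nondeg) (hn : finrank F V = n)
    (hd : r ∣ Nat.card {s // C.TS s ∧ finrank F s = m}) (hm : C.HasTS m) :
    Lhs (fun u : End F V => C.IsIsomTo C u) r (fun u => ∃ A, (C.TS A ∧ finrank F A = m) ∧ ∀ x ∈ A, u x ∈ A) ↔
      i ≤ m ∧ 2 * (m % i) ≤ n % c ∧ (Odd i ∨ (r - 1) / i + 2 * (m / i) ≤ n / i) := by
  rw [lhs_iff_ll hC (fun _ h => h) (fun _ h _ => h) (inv_hs _) (hn_id h2),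
    ts_id hr h2 hi hc (blk_alt hr h2 hi hc) fi_alt (by simp) hC hn rfl hd hm]
  have := Nat.even_or_odd i
  simp only [one_pow, show (altCls F).cl C = 1 from rfl, mul_one, ne_eq, not_true, false_and, and_false, false_or, and_true,
    ← le_iff_lt_or_eq]
  tauto

theorem alt_nd {C : CForm (altType F) V} (hC : C.Nondeg) (hn : finrank F V = n)
    (hd : r ∣ Nat.card {s // (altCls F).ND C s m 1}) (hm : Even m) (m0 : 0 < m) (l : m < n) :
    Lhs (fun u : End F V => C.IsIsomTo C u) r (fun u => ∃ A, (altCls F).ND C A m 1 ∧ ∀ x ∈ A, u x ∈ A) ↔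
      c ≤ m ∧ m % c ≤ n % c := by
  have h := blk_alt (K := AlgebraicClosure F) hr h2 hi hc
  rw [lhs_iff_ll hC (fun _ h => h) (fun _ h _ => h) (inv_hs _) (hn_id h2),
    h.nd_num fi_alt hC hn rfl hd (alt_ex.2 ⟨hm, rfl⟩) m0 l]
  have : m % c = 0 → c ≤ m := fun e => Nat.le_of_dvd m0 (Nat.dvd_of_mod_eq_zero e)
  simp only [one_pow, show (altCls F).cl C = 1 from rfl, mul_one, ne_eq, not_true, false_or, and_true, implies_true]
  omega

variable (hQ : QNondeg Q) (hne : NotExc F V) (hn : finrank F V = n) {X : Prop}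
  (hX : ∀ d, n = 2 * d → ((ofQuad Q).HasTS d ↔ X))
include hQ hne hn

omit hr hi hc hn in
theorem om_ll {P : Submodule F V → Prop} : Lhs (Om Q) r (fun u => ∃ A, P A ∧ ∀ x ∈ A, u x ∈ A) ↔
    LL (ofQuad Q) r fun u => ∃ A, P A ∧ ∀ x ∈ A, u x ∈ A :=
  lhs_iff_ll hQ (fun _ h => h.isom) (om_odd hQ hne ((Fact.out : r.Prime).odd_of_ne_two h2)) (inv_hs _) (hn_id h2)

include hX

omit hr h2 hi hne [Fact r.Prime] in
theorem eta_cl (h : 2 * l = n % c) : (sg (Odd i) * qsign (-1 : F) ^ (c / 2)) ^ (n / c) * (quadCls F).cl (ofQuad Q) =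
    qsign (-1 : F) ^ l ↔ ((Odd i ∨ Even (n / c)) ↔ X) := by
  obtain ⟨a, ha⟩ := c_even hc
  have := Nat.div_add_mod n c
  have e : n = 2 * (l + c / 2 * (n / c)) := by
    rw [ha, Nat.mul_div_cancel_left _ two_pos, ← ha, mul_add, ← mul_assoc, ← ha]; omega
  rw [cl_even hQ (hn.trans e), eta_eq rfl, hX _ e]

theorem quad_ts (hd : r ∣ Nat.card {s // (ofQuad Q).TS s ∧ finrank F s = m}) (hm : (ofQuad Q).HasTS m) :
    Lhs (Om Q) r (fun u => ∃ A, ((ofQuad Q).TS A ∧ finrank F A = m) ∧ ∀ x ∈ A, u x ∈ A) ↔ i ≤ m ∧ (Odd i ∧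
      (n % c = 0 ∧ ¬ X ∨ 2 * (m % i) < n % c ∨ 2 * (m % i) = n % c ∧ X) ∨
      Even i ∧ (r - 1) / i + 2 * (m / i) ≤ n / i ∧ (n % c = 0 ∧ ¬ (Even (n / i) ↔ X) ∧ 2 * (m % i) ≤ i ∧
        (r - 1) / i + 2 * (m / i) < n / i ∨ 2 * (m % i) < n % c ∨ 2 * (m % i) = n % c ∧ (Even (n / i) ↔ X))) := by
  rw [om_ll h2 hQ hne, ts_id hr h2 hi hc (blk_quad hr h2 hi hc) fi_quad (fun h => by
    rw [sg_pos h, one_mul, hc, if_neg (Nat.not_even_iff_odd.2 h), Nat.mul_div_cancel_left _ two_pos]) hQ hn rfl hd hm]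
  have e0 := fun h : n % c = 0 => (eta_cl (l := 0) hc hQ hn hX h.symm).not
  have e1 := eta_cl (l := m % i) hc hQ hn hX
  refine and_congr_right' (or_congr (and_congr_right fun h => ?_) (and_congr_right fun h => and_congr_right' ?_))
  · simp only [h, true_or, true_iff, pow_zero] at e0 e1 ⊢
    exact or_congr (and_congr_right e0) (or_congr_right (and_congr_right e1))
  · obtain rfl : c = i := by rw [hc, if_pos h]
    have o := Nat.not_odd_iff_even.2 h
    simp only [o, false_or, pow_zero] at e0 e1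
    simp only [o]
    refine or_congr (and_congr_right fun k => and_congr (e0 k) (and_congr_right' (and_iff_right fun e => ?_)))
      (or_congr_right (and_congr_right e1))
    rw [sg_neg not_false, show c / 2 = m % c by omega, neg_one_mul, neg_neg]

theorem quad_nd {Y : Prop} (hY : ∀ e, m = 2 * e → γ = sg Y * qsign (-1 : F) ^ e) (hp : Even n ∨ Even m)
    (hd : r ∣ Nat.card {s // (quadCls F).ND (ofQuad Q) s m γ}) (hm : (2 : F) = 0 → Even m) (m0 : 0 < m) (l : m < n) :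
    Lhs (Om Q) r (fun u => ∃ A, (quadCls F).ND (ofQuad Q) A m γ ∧ ∀ x ∈ A, u x ∈ A) ↔
      n % c = 0 ∧ (¬ ((Odd i ∨ Even (n / c)) ↔ X) ∨ m % c = 0 ∧ ((Odd i ∨ Even (m / c)) ↔ Y)) ∨
        0 < n % c ∧ c ≤ m ∧ m % c ≤ n % c ∧ (m % c = 0 → ((Odd i ∨ Even (m / c)) ↔ Y)) ∧
          (m % c = n % c → (((Odd i ∨ Even (m / c)) ↔ Y) ↔ ((Odd i ∨ Even (n / c)) ↔ X))) := by
  rw [om_ll h2 hQ hne, (blk_quad (K := AlgebraicClosure F) hr h2 hi hc).nd_num fi_quad hQ hn rfl hd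
    (quad_ex.2 ⟨hm, by omega⟩) m0 l]
  obtain ⟨a, ha⟩ := c_even hc
  have a2 : c / 2 = a := by omega
  have e1 := Nat.div_add_mod n c
  have e2 := Nat.div_add_mod m c
  have e3 : ∀ N, c * N = 2 * (a * N) := fun N => by rw [ha, mul_assoc]
  have := e3 (n / c)
  have := e3 (m / c)
  have k1 : m % c = 0 → (γ * (sg (Odd i) * qsign (-1 : F) ^ (c / 2)) ^ (m / c) = 1 ↔ ((Odd i ∨ Even (m / c)) ↔ Y)) :=
    fun h => by
      rw [hY (a * (m / c)) (by omega), mul_comm, a2]; simpa only [pow_zero] using eta_eq (l := 0) (zero_add (a * (m / c)))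
  refine or_congr (and_congr_right fun k => or_congr (by simpa using (eta_cl (l := 0) hc hQ hn hX k.symm).not)
    (and_congr_right k1)) (and_congr_right' (and_congr_right' (and_congr_right' (and_congr (imp_congr_right k1)
      (imp_congr_right fun k => ?_)))))
  obtain ⟨l, hl⟩ : ∃ l, n % c = 2 * l := ⟨n % c / 2, by simp only [Nat.even_iff] at hp; omega⟩
  rw [hY (l + a * (m / c)) (by omega), cl_even (k := l + a * (n / c)) hQ (by omega), hX _ (by omega), mul_comm (sg Y * _),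
    eta_pow, eta_pow, a2, mul_mul_mul_comm, sg_mul, ← pow_add, show a * (m / c) + (l + a * (m / c)) +
      (a * (n / c) + (l + a * (n / c))) = 0 + 2 * (a * (m / c) + a * (n / c) + l) by omega, upow_add_two, pow_zero, mul_one,
    sg_eq_one]

end H25.El
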