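import Cfsg.Agent.H25.El15

/-! Elusive actions, XVI: unipotent isometries. -/

set_option autoImplicit false

namespace H25.El

open Module Polynomial Function H22 H27.Sp H12 H12.CForm Pointwise

universe u

variable {F : Type u} {K : Type*} [Field F] [Field K] [Algebra F K] {T : FormType F}
  {V W X : Type u} [AddCommGroup V] [Module F V] [AddCommGroup W] [Module F W] [AddCommGroup X] [Module F X]
  {C : CForm T V} {a c i j k m n p : ℕ} {γ δ s : ℤˣ} {κ : Cls T} {u : End F V} {A : Submodule F V} {μ ν : Multiset ℕ}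

theorem exists_two_smul {P : ℕ → Prop} [DecidablePred P] (h : ∀ a, P a → Even (μ.count a)) : ∃ ν, μ.filter P = ν + ν := by
  obtain ⟨S, A, e, h1⟩ := exists_half (μ.filter P)
  suffices S = 0 from ⟨A, by rw [e, two_nsmul, this, zero_add]⟩
  refine Multiset.eq_zero_of_forall_notMem fun a ha => ?_
  have h2 := congrArg (Multiset.count a) e
  have h3 := (Multiset.mem_filter.1 (e ▸ Multiset.mem_add.2 (.inl ha))).2
  have := h a h3
  rw [Multiset.count_filter_of_pos h3, Multiset.count_add, Multiset.count_nsmul, Multiset.count_eq_one_of_mem h1 ha] at h2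
  rw [h2, Nat.even_iff] at this; omega

variable [FiniteDimensional F V] [FiniteDimensional F W] [FiniteDimensional F X] [Finite F]

theorem fsim_nd {C₁ : CForm T W} {C₂ : CForm T X} {u₁ : End F W} {u₂ : End F X} (h1 : C₁.Nondeg)
    (h : FSim (osum C₁ C₂) (u₁.prodMap u₂) C u) : ∃ A, κ.ND C A (finrank F W) (κ.cl C₁) ∧ ∀ x ∈ A, u x ∈ A := by
  obtain ⟨e, e1, e2⟩ := h
  have k := isom_comp (f := e.toLinearMap) e1 isom_inl
  obtain ⟨i, -⟩ := emb_inv (u := u) (v := u₁) (h1.injective_of_isIsomTo k.1) fun x => by simpa using e2 (x, 0)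
  exact ⟨_, Cls.nd_range k h1, i⟩

variable [Algebra.IsAlgebraic F K]

theorem un_pos (h : JD u (UN K μ)) : ∀ k ∈ μ, 0 < k := fun k hk => h.pos (1, k) (mem_UN.2 ⟨rfl, hk⟩)

theorem jd_eq {ι : Type*} [Fintype ι] {d : ι → ℕ} (J : JB (u - 1) d) (hd : ∀ k, 0 < d k) (h : JD u (UN K μ)) :
    μ = Finset.univ.val.map d :=
  nType_unique (un_pos h) (by simpa) fun m => by rw [← un_ker h, J.finrank_ker, Multiset.map_map]; rfl

theorem jd_jb (h : JD u (UN K μ)) :
    ∃ (t : ℕ) (d : Fin t → ℕ) (_ : JB (u - 1) d), (∀ k, 0 < d k) ∧ μ = Finset.univ.val.map d := by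
  obtain ⟨t, d, hd, ⟨J⟩⟩ := exists_jb ((un_pow h μ.sum).2 fun k hk => Multiset.single_le_sum (by simp) k hk)
  exact ⟨t, d, J, fun k => (hd k).1, jd_eq J (fun k => (hd k).1) h⟩

theorem un_alt_even {C : CForm (altType F) V} (hC : C.Nondeg) (hu : C.IsIsomTo C u) (h : JD u (UN K μ)) (i : ℕ)
    (hi : Odd i) : Even (μ.count i) := by
  obtain ⟨t, d, J, hd, rfl⟩ := jd_jb h
  rw [← card_Bk_count]
  exact even_of_alt (J.gram_alt hd hu.1 (alt_isAlt C) hi) (J.det_gram_ne hd (toSQ hC) hu.1 i)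

theorem un_quad_even (h2 : (2 : F) ≠ 0) {C : CForm (quadType F) V} (hC : C.Nondeg) (hu : C.IsIsomTo C u)
    (h : JD u (UN K μ)) (i : ℕ) (hi : Even i) : Even (μ.count i) := by
  obtain ⟨t, d, J, hd, rfl⟩ := jd_jb h
  rw [← card_Bk_count]
  exact even_of_alt (J.gram_alt' hd hu.1 h2 (quad_symm C) hi) (J.det_gram_ne hd (toSQ hC) hu.1 i)

theorem ll_un [Fact p.Prime] [CharP F p] {P : End F V → Prop} (hC : C.Nondeg) (H : LL C p P) (h1 : P 1)
    (h : κ.Rc (UN K μ) (κ.cl C)) (hd : μ.sum = finrank F V) (hp : ∀ k ∈ μ, k ≤ p) :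
    ∃ u : End F V, C.IsIsomTo C u ∧ JD u (UN K μ) ∧ P u := by
  obtain ⟨u, a, b⟩ := h.out hC (by simp [hd]) rfl
  refine ⟨u, a, b, (eq_or_ne u 1).elim (fun e => e ▸ h1) (H u a ?_)⟩
  simpa using un_char b (p := p) (j := 1) (by simpa)

theorem rc_hyp (tg : TG T (RingHom.id K)) (hσ : ∀ a, T.σ a = a) (f : κ.Fi s) (h : ∀ k ∈ ν, 0 < k) :
    κ.Rc (UN K (ν + ν)) (s ^ ν.sum) := by
  obtain ⟨b, hb⟩ := exists_un (F := F) (K := K) (V := Fin ν.sum → F) h (by simp)
  obtain ⟨S⟩ := exists_SQ T.σσ (Fin ν.sum → F)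
  obtain ⟨w, hw⟩ := (un_unit hb).exists_right_inv
  have H : ∀ x y, S.β (S.adj w x) (b y) = S.β x y := fun x y => by
    rw [S.adj_spec, ← Module.End.mul_apply, mul_eq_one_comm.1 hw]; rfl
  have h1 := hb.adj_inv' hσ S (fun x hx => by simp [(mem_UN.1 hx).1]) hw
  rw [UN_st (by simp)] at h1
  have n := hypC_nd tg S
  have : κ.cl (hypC tg S) = s ^ ν.sum := by
    refine (((f.ht.1 ((Cls.ht_iff n).2 ⟨LinearMap.range (.inl F _ _), ⟨?_, ?_⟩, ?_⟩)).2).resolve_left
      (by simp [two_mul])).2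
    · rintro _ ⟨x, rfl⟩; simp [hypC]
    · rintro _ ⟨x, rfl⟩ _ ⟨y, rfl⟩; simp [hypC_B]
    · rw [LinearMap.finrank_range_of_inj LinearMap.inl_injective]; simp
  exact this ▸ UN_add (K := K) ▸ Cls.rc_of n (u := (S.adj w).prodMap b)
    ⟨fun x y => by simp [hypC_B, H], fun x => by simp [hypC, H]⟩ (h1.prod hb)

variable [IsAlgClosed K]

theorem jd_of_jb {ι : Type*} [Fintype ι] {d : ι → ℕ} (J : JB (u - 1) d) (hd : ∀ k, 0 < d k) :
    JD u (UN K (Finset.univ.val.map d)) := by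
  obtain ⟨D, hD⟩ := exists_jd (K := K) u
  have := (hD.sub_pow 1 (Finset.univ.sup d)).1 (by simpa using J.pow_eq_zero fun _ => Finset.le_sup (by simp))
  obtain ⟨μ, rfl⟩ := exists_UN (D := D) fun x hx => by simpa using (this x hx).1
  exact jd_eq J hd hD ▸ hD

theorem nd_un (hC : C.Nondeg) (hu : C.IsIsomTo C u) (h : JD u (UN K μ)) (hA : C.NondegOn A) (i : ∀ x ∈ A, u x ∈ A) :
    ∃ ν ν', μ = ν + ν' ∧ JD (u.restrict i : End F _) (UN K ν) ∧ JD (u.restrict (perp_inv hC hu i) : End F _) (UN K ν') := by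
  obtain ⟨D, h1⟩ := exists_jd (K := K) (u.restrict i : End F _)
  obtain ⟨D', h2⟩ := exists_jd (K := K) (u.restrict (perp_inv hC hu i) : End F _)
  obtain ⟨ν, ν', e, rfl, rfl⟩ := UN_split (jd_of_compl (hC.isCompl_perp hA) h h1 h2)
  exact ⟨ν, ν', e, h1, h2⟩

omit [FiniteDimensional F V] in
theorem emb_jb (K : Type*) [Field K] [Algebra F K] [Algebra.IsAlgebraic F K] [IsAlgClosed K] (hu : C.IsIsomTo C u)
    (k0 : 0 < k) (v : Fin c → V) (hv : ∀ l, ((u - 1) ^ k) (v l) = 0)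
    (hG : (Matrix.of fun l l' => C.B (((u - 1) ^ (k - 1)) (v l)) (v l')).det ≠ 0) :
    ∃ (A : Submodule F V) (i : ∀ x ∈ A, u x ∈ A), C.NondegOn A ∧ JD (u.restrict i : End F A) (UN K (.replicate c k)) := by
  obtain ⟨N, hN⟩ := exists_of_nType (F := F) (V := Fin (c * k) → F) (μ := Finset.univ.val.map fun _ : Fin c => k) (by simp)
  obtain ⟨J⟩ := (show NType (N + 1 - 1) _ by rwa [add_sub_cancel_right]).jb
  have hd : ∀ _ : Fin c, 0 < k := fun _ => k0
  have e : ∀ x, J.lift (u - 1) v ((N + 1) x) = u (J.lift (u - 1) v x) := fun x => by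
    simpa [eq_sub_iff_add_eq] using J.lift_comm hv x
  have n : (C.comap (J.lift (u - 1) v)).Nondeg := nondeg_of_inj (J.inj_of_gram hd (fun x y => by
      simp only [CForm.comap, LinearMap.compl₂_apply, LinearMap.comp_apply, e, hu.1]) T.σσ fun i => by
    by_cases h : k = i
    · subst h
      rw [← Matrix.det_submatrix_equiv_self
        (Equiv.subtypeUnivEquiv fun _ => rfl : Bk (fun _ : Fin c => k) k ≃ Fin c)] at hG
      convert hG using 2
      ext l l'
      simp only [JB.gram_apply, CForm.comap, LinearMap.compl₂_apply, LinearMap.comp_apply, J.lift_pow hv, J.lift_e hv]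
      rfl
    · haveI : IsEmpty (Bk (fun _ : Fin c => k) i) := ⟨fun x => h x.2⟩
      simp)
  have k : (C.comap (J.lift (u - 1) v)).IsIsomTo C (J.lift (u - 1) v) := ⟨fun _ _ => rfl, fun _ => rfl⟩
  obtain ⟨i, s⟩ := emb_inv (n.injective_of_isIsomTo k.1) e
  exact ⟨_, i, ndOn_range k n, by simpa using (jd_of_jb (K := K) J hd).of_sim s⟩

theorem alt_block (h2 : (2 : F) ≠ 0) {C : CForm (altType F) V} (hC : C.Nondeg) (hu : C.IsIsomTo C u) (h : JD u (UN K μ))
    (hk : k ∈ μ) (hm : ∀ j ∈ μ, j ≤ k) : ∃ (A : Submodule F V) (i : ∀ x ∈ A, u x ∈ A), C.NondegOn A ∧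
      JD (u.restrict i : End F A) (UN K (.replicate (if Even k then 1 else 2) k)) := by
  have k0 := un_pos h k hk
  have h0 := (un_pow h k).2 hm
  obtain ⟨k, rfl⟩ : ∃ l, k = l + 1 := ⟨k - 1, by omega⟩
  obtain ⟨x, hx⟩ := not_forall.1 fun H => mt (un_pow h k).1 (fun H => (H _ hk).not_gt k.lt_succ_self) (LinearMap.ext H)
  obtain ⟨y, hy⟩ := not_forall.1 (mt (hC _) hx)
  have sw : ∀ x y, C.B (((u - 1) ^ k) y) x = -(-1) ^ k * C.B (((u - 1) ^ k) x) y := fun x y => by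
    rw [C.symm, InvF.swap hu.1 k (by simp [h0])]; simp [altType]
  have z : ∀ v, ((u - 1) ^ (k + 1)) v = 0 := fun v => by simp [h0]
  split_ifs with e
  · obtain ⟨v, hv⟩ : ∃ v, C.B (((u - 1) ^ k) v) v ≠ 0 := by
      by_contra! H
      have := H (x + y)
      simp only [map_add, LinearMap.add_apply, H, sw x y, (Nat.not_even_iff_odd.1 (Nat.even_add_one.1 e)).neg_one_pow] at this
      exact hy ((mul_eq_zero.1 (by linear_combination this)).resolve_left h2)
    exact emb_jb K hu k0 ![v] (fun _ => z _) (by simpa)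
  · have e' := (by simpa [Nat.even_add_one] using e : Even k).neg_one_pow (α := F)
    have d : ∀ v, C.B (((u - 1) ^ k) v) v = 0 := fun v =>
      (mul_eq_zero.1 (by linear_combination sw v v - C.B (((u - 1) ^ k) v) v * e')).resolve_left h2
    exact emb_jb K hu k0 ![x, y] (fun _ => z _) (by simpa [Matrix.det_fin_two, d, sw x y, e'])

theorem alt_sub (h2 : (2 : F) ≠ 0) (n : ℕ) : ∀ {V : Type u} [AddCommGroup V] [Module F V] [FiniteDimensional F V]
    {C : CForm (altType F) V} {u : End F V} {μ ν : Multiset ℕ}, μ.card ≤ n → C.Nondeg → C.IsIsomTo C u → JD u (UN K μ) →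
    ν ≤ μ → (∀ a, Odd a → Even (ν.count a)) → ∃ A, (altCls F).ND C A ν.sum 1 ∧ ∀ x ∈ A, u x ∈ A := by
  induction n with
  | zero =>
    intro V _ _ _ C u μ ν l _ _ _ h _
    obtain rfl : ν = 0 := Multiset.card_eq_zero.1 (by have := Multiset.card_le_card h; omega)
    exact ⟨⊥, Cls.nd_bot, by simp⟩
  | succ n ih =>
    intro V _ _ _ C u μ ν l hC hu h h1 h3
    rcases eq_or_ne μ 0 with rfl | e
    · exact ih (by simp) hC hu h h1 h3
    obtain ⟨k, hk, hm⟩ := μ.exists_max_image id e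
    obtain ⟨A, i, a, b⟩ := alt_block h2 hC hu h hk hm
    obtain ⟨β, μ', rfl, b', c⟩ := nd_un hC hu h a i
    obtain rfl := UN_inj (b.unique b')
    have n' := (Cls.ND.perp hC ((altCls F).nd_self a)).nd
    have key : ∀ ν ≤ μ', (∀ a, Odd a → Even (ν.count a)) → ∃ B ≤ C.perp A, (altCls F).ND C B ν.sum 1 ∧ ∀ x ∈ B, u x ∈ B :=
      fun ν l1 l2 => by
        rw [inv_res_iff (perp_inv hC hu i)]
        simp only [Cls.nd_map (isom_subtype _) (Submodule.injective_subtype _)]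
        exact ih (by simp at l; split_ifs at l <;> omega) n' (isom_res hu _) c l1 l2
    by_cases H : Multiset.replicate (if Even k then 1 else 2) k ≤ ν
    · obtain ⟨ν', rfl⟩ := Multiset.le_iff_exists_add.1 H
      obtain ⟨B, d, f, g⟩ := key ν' (le_of_add_le_add_left h1) fun a ha => by
        have := h3 a ha
        rw [Multiset.count_add, Multiset.count_replicate] at this
        split_ifs at this with e1 e2
        · exact absurd (e1 ▸ e2) (Nat.not_even_iff_odd.2 ha)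
        · simpa [Nat.even_add] using this
        · simpa using this
      exact ⟨_, by simpa [b.dim, altCls] using ((altCls F).nd_self a).sup f d, sup_inv i g⟩
    obtain ⟨B, -, f⟩ := key ν (Multiset.le_iff_count.2 fun a => by
      have := Multiset.le_iff_count.1 h1 a
      rw [Multiset.count_add, Multiset.count_replicate] at this
      rw [← Multiset.le_count_iff_replicate_le] at H
      split_ifs at this H with e1 e2
      · subst e1; omega
      · subst e1; have := h3 k (Nat.not_even_iff_odd.1 e2); rw [Nat.even_iff] at this; omega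
      all_goals omega) h3
    exact ⟨B, f⟩

theorem rc_un_alt (h2 : (2 : F) ≠ 0) (h : ∀ k ∈ μ, 0 < k) (h' : ∀ a, Odd a → Even (μ.count a)) :
    (altCls F).Rc (UN K μ) 1 := by
  obtain ⟨ν, e⟩ := exists_two_smul h'
  have h1 := rc_hyp (F := F) (K := K) (ν := ν) tg_alt (fun _ => rfl) fi_alt fun k hk =>
    h k (Multiset.mem_of_mem_filter (e ▸ Multiset.mem_add.2 (.inl hk)))
  have h3 : ∀ ν : Multiset ℕ, (∀ k ∈ ν, 0 < k ∧ ¬ Odd k) → Rl (altType F) (UN K ν) := fun ν H => by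
    induction ν using Multiset.induction_on with
    | empty => exact Rl.zero _
    | cons a ν ih =>
      obtain ⟨a0, b, rfl⟩ : 0 < a ∧ Even a := by simpa using H a (by simp)
      rw [← Multiset.singleton_add, UN_add, ← two_mul]
      exact (rl_alt_reg h2 (by omega)).add (ih fun k hk => H k (by simp [hk]))
  rw [← Multiset.filter_add_not Odd μ, UN_add, e]
  simpa using h1.add (rc_alt (h3 _ fun k hk => ⟨h k (Multiset.mem_of_mem_filter hk), (Multiset.mem_filter.1 hk).2⟩))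

variable [Fact p.Prime] [CharP F p]

omit [Algebra.IsAlgebraic F K] [IsAlgClosed K] in
theorem alt_nd_p (h2 : (2 : F) ≠ 0) {C : CForm (altType F) V} (hC : C.Nondeg) (hn : finrank F V = n) (hm : Even m)
    (l : m ≤ n) : Lhs (fun u : End F V => C.IsIsomTo C u) p (fun u => ∃ A, (altCls F).ND C A m 1 ∧ ∀ x ∈ A, u x ∈ A) ↔
      ∀ μ : Multiset ℕ, (∀ a ∈ μ, 0 < a ∧ a ≤ p) → (∀ a, Odd a → Even (μ.count a)) → μ.sum = n →
        ∃ ν, ν ≤ μ ∧ ν.sum = m ∧ ∀ a, Odd a → Even (ν.count a) := by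
  subst hn
  rw [lhs_iff_ll hC (fun _ h => h) (fun _ h _ => h) (inv_hs _) fun c _ => hn_p c]
  refine ⟨fun H μ a b c => ?_, fun H u a b _ => ?_⟩
  · obtain ⟨A, -, hA⟩ := (Cls.exists_nd_iff hC (Cls.nd_top hC)).2
      ⟨l, alt_ex.2 ⟨hm, rfl⟩, alt_ex.2 ⟨(alt_ex.1 (Cls.ex_of hC)).1.tsub hm, rfl⟩⟩
    obtain ⟨u, d, e, A, f, i⟩ := ll_un (κ := altCls F) (K := AlgebraicClosure F) hC H ⟨A, hA, fun _ h => h⟩
      (rc_un_alt h2 (fun k hk => (a k hk).1) b) c fun k hk => (a k hk).2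
    obtain ⟨ν, ν', rfl, g, -⟩ := nd_un hC d e f.1 i
    exact ⟨ν, Multiset.le_add_right _ _, by simpa [f.2.1] using g.dim.symm, un_alt_even f.nd (isom_res d i) g⟩
  · obtain ⟨μ, c, d⟩ := exists_un_of_pow (K := AlgebraicClosure F) b
    obtain ⟨ν, e, rfl, f⟩ := H μ d (un_alt_even hC a c) (by simpa using c.dim.symm)
    exact alt_sub h2 _ le_rfl hC a c e f

omit [Finite F] [Algebra.IsAlgebraic F K] [IsAlgClosed K] in
theorem herm_nd_p [Fintype F] {q : ℕ} (hF : Fintype.card F = q ^ 2) {C : CForm (H11.hermT hF) V} (hC : C.Nondeg)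
    (hn : finrank F V = n) (l : m ≤ n) : LL C p (fun u => ∃ A, (hermCls hF).ND C A m 1 ∧ ∀ x ∈ A, u x ∈ A) ↔
      ∀ μ : Multiset ℕ, (∀ a ∈ μ, 0 < a ∧ a ≤ p) → μ.sum = n → ∃ ν, ν ≤ μ ∧ ν.sum = m := by
  subst hn
  refine ⟨fun H μ a c => ?_, fun H u a b _ => ?_⟩
  · obtain ⟨A, -, hA⟩ := (Cls.exists_nd_iff hC (Cls.nd_top hC)).2 ⟨l, (herm_ex hF).2 rfl, (herm_ex hF).2 rfl⟩
    obtain ⟨u, d, e, A, f, i⟩ := ll_un (κ := hermCls hF) (K := AlgebraicClosure F) hC H ⟨A, hA, fun _ h => h⟩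
      (rc_herm hF fun k hk => (a k hk).1) c fun k hk => (a k hk).2
    obtain ⟨ν, ν', rfl, g, -⟩ := nd_un hC d e f.1 i
    exact ⟨ν, Multiset.le_add_right _ _, by simpa [f.2.1] using g.dim.symm⟩
  · obtain ⟨μ, c, d⟩ := exists_un_of_pow (K := AlgebraicClosure F) b
    obtain ⟨ν, e, rfl⟩ := H μ d (by simpa using c.dim.symm)
    obtain ⟨ν', rfl⟩ := Multiset.le_iff_exists_add.1 e
    obtain ⟨_, C₁, u₁, a₁, b₁, c₁, -⟩ := rc_herm (K := AlgebraicClosure F) hF (μ := ν) fun k hk => (d k (by simp [hk])).1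
    obtain ⟨_, C₂, u₂, a₂, b₂, c₂, -⟩ := rc_herm (K := AlgebraicClosure F) hF (μ := ν') fun k hk => (d k (by simp [hk])).1
    have := fsim_nd (κ := hermCls hF) a₁ (herm_fsim (H11.frob_ne_id hF) (osum_nondeg a₁ a₂) hC (osum_isom b₁ b₂) a
      ((c₁.prod c₂).sim (UN_add (K := AlgebraicClosure F) ▸ c)))
    rwa [c₁.dim, dimD_UN] at this

end H25.El
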