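import Cfsg.Agent.H25.El16
import Cfsg.Agent.H22.Wall2

/-! Elusive actions, XVII: bridges, and involutions in characteristic two. -/

set_option autoImplicit false

namespace H25.El

open Module Polynomial Function H22 H27.Sp H12 H12.CForm Pointwise

universe u

variable {F : Type u} [Field F] {T : FormType F} {V W : Type u} [AddCommGroup V] [Module F V] [AddCommGroup W] [Module F W]
  {C : CForm T V} {C' : CForm T W} {a a₁ a₂ d e j j' k m m' n r : ℕ} {γ γ' δ : ℤˣ} {κ : Cls T} {u : End F V} {v : End F W}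
  {A : Submodule F V} {b b' X Y : Prop} {G P : End F V → Prop} [FiniteDimensional F V] [FiniteDimensional F W] [Finite F]

theorem num_aux {c i : ℕ} (hc : c = if Even i then i else 2 * i) (n : ℕ) (m0 : 0 < m) : (m % c = 0 → c ≤ m) ∧
    m % c % 2 = m % 2 ∧ n % c % 2 = n % 2 ∧ (m % c = n % c → (n + m - 2 * (n % c)) / c = n / c + m / c) ∧
      (i % 2 = 0 → c = i ∧ n / i = n / c ∧ m / i = m / c ∧ (n + m - 2 * (n % c)) / i = (n + m - 2 * (n % c)) / c) := by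
  obtain ⟨a, ha⟩ := c_even hc
  refine ⟨fun h => Nat.le_of_dvd m0 (Nat.dvd_of_mod_eq_zero h), Nat.mod_mod_of_dvd _ ⟨a, ha⟩, Nat.mod_mod_of_dvd _ ⟨a, ha⟩,
    fun h => (Nat.eq_zero_or_pos c).elim (fun e => by simp [e]) fun e => ?_, fun h => by simp [hc, Nat.even_iff, h]⟩
  have := Nat.div_add_mod n c
  have := Nat.div_add_mod m c
  rw [show n + m - 2 * (n % c) = c * (n / c + m / c) by rw [mul_add]; omega, Nat.mul_div_cancel_left _ e]

theorem nd_sg {C : CForm (quadType F) V} (hm : m = 2 * e) : (quadCls F).ND C A m (sg Y * qsign (-1 : F) ^ e) ↔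
    finrank F A = m ∧ C.NondegOn A ∧ ((∃ U ≤ A, C.TS U ∧ finrank F U = e) ↔ Y) := by
  rw [Cls.ND, and_left_comm]
  refine and_congr_right fun h1 => and_congr_right fun (h2 : C.NondegOn A) => ?_
  have h := (quadCls F).nd_self h2
  rw [Cls.exists_ts_iff h, quad_ht, and_iff_right h.ex, h1, or_iff_right (by omega), and_iff_right hm.symm]
  generalize (quadCls F).cl (C.restrict A) = x
  generalize qsign (-1 : F) ^ e = y
  by_cases h : Y <;> rcases Int.units_eq_one_or x with rfl | rfl <;> rcases Int.units_eq_one_or y with rfl | rfl <;>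
    simp [h, sg]

section Bridge

variable {ι : Type} [Fintype ι] [DecidableEq ι] {Q : QuadraticForm F (ι → F)} {A A₀ : Submodule F (ι → F)}

theorem geo_nd : Cfsg.Geo.IsNondegenerateOn (QuadraticMap.polar Q) A ↔ (ofQuad Q).NondegOn A :=
  ⟨nondegOn_of_geo (ofQuad Q) (.inl fun _ _ => rfl), geo_of_nondegOn (ofQuad Q) (.inl fun _ _ => rfl)⟩

theorem geo_pl (h : finrank F A = 2 * e) :
    Cfsg.Geo.IsPlusTypeOn Q A ↔ ∃ U ≤ A, (ofQuad Q).TS U ∧ finrank F U = e :=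
  exists_congr fun U => and_congr_right' (and_congr (ts_quad_iff Q).symm (by omega))

theorem geo_plus (hm : m = 2 * e) : (finrank F A = m ∧ Cfsg.Geo.IsNondegenerateOn (QuadraticMap.polar Q) A ∧
    Cfsg.Geo.IsPlusTypeOn Q A) ↔ (quadCls F).ND (ofQuad Q) A m (sg True * qsign (-1 : F) ^ e) := by
  rw [nd_sg hm, geo_nd, iff_true]
  exact and_congr_right fun h => by rw [geo_pl (h.trans hm)]

theorem geo_minus (hm : m = 2 * e) : (finrank F A = m ∧ Cfsg.Geo.IsNondegenerateOn (QuadraticMap.polar Q) A ∧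
    ¬ Cfsg.Geo.IsPlusTypeOn Q A) ↔ (quadCls F).ND (ofQuad Q) A m (sg False * qsign (-1 : F) ^ e) := by
  rw [nd_sg hm, geo_nd, iff_false]
  exact and_congr_right fun h => by rw [geo_pl (h.trans hm)]

theorem geo_plus' (hm : m = 2 * e) : (finrank F A = m ∧ (∀ u ∈ A, u ≠ 0 → ∃ v ∈ A, QuadraticMap.polar Q u v ≠ 0) ∧
    ∃ U, U ≤ A ∧ 2 * finrank F U = m ∧ ∀ u ∈ U, Q u = 0) ↔
      (quadCls F).ND (ofQuad Q) A m (sg True * qsign (-1 : F) ^ e) := by
  rw [nd_sg hm, ← nd_iff', iff_true]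
  exact and_congr_right' (and_congr_right' (exists_congr fun U => and_congr_right'
    (and_comm.trans (and_congr (ts_quad_iff Q).symm (by omega)))))

theorem geo_iso (h : finrank F A₀ = m ∧ Cfsg.Geo.IsNondegenerateOn (QuadraticMap.polar Q) A₀) :
    (finrank F A = m ∧ Cfsg.Geo.IsNondegenerateOn (QuadraticMap.polar Q) A ∧ Cfsg.Geo.AreIsometricFor Q A A₀) ↔
      (quadCls F).ND (ofQuad Q) A m ((quadCls F).cl ((ofQuad Q).restrict A₀)) := by
  have h0 : (quadCls F).ND (ofQuad Q) A₀ m _ := ⟨geo_nd.1 h.2, h.1, rfl⟩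
  have : Cfsg.Geo.AreIsometricFor Q A A₀ ↔ ((ofQuad Q).restrict A).Iso ((ofQuad Q).restrict A₀) :=
    (quad_iso_iff (C := (ofQuad Q).restrict A) (C' := (ofQuad Q).restrict A₀)).symm
  rw [this, geo_nd]
  exact ⟨fun H => h0.of_iso H.2.2.symm, fun H => ⟨H.2.1, H.1, H.iso h0⟩⟩

end Bridge

theorem nd_alt {C : CForm (altType F) V} : (finrank F A = m ∧ ∀ x ∈ A, x ≠ 0 → ∃ y ∈ A, C.B x y ≠ 0) ↔
    (altCls F).ND C A m 1 := by rw [nd_iff']; exact ⟨fun h => ⟨h.2, h.1, rfl⟩, fun h => ⟨h.2.1, h.1⟩⟩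

theorem rank_kd (u : End F V) : finrank F (V1 u) + kd u (.X - 1) = finrank F V := by
  rw [kd, show aeval u (.X - 1 : F[X]) = u - 1 by simp]; exact LinearMap.finrank_range_add_finrank_ker _

theorem rank_sim (h : Sim u v) : finrank F (V1 u) = finrank F (V1 v) := by
  have := rank_kd u; have := rank_kd v; have := h.kd_eq (.X - 1); obtain ⟨e, -⟩ := h; have := e.finrank_eq; omega

theorem rank_prod (u : End F V) (v : End F W) :
    finrank F (V1 (u.prodMap v : End F (V × W))) = finrank F (V1 u) + finrank F (V1 v) := by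
  have := rank_kd u; have := rank_kd v; have := rank_kd (u.prodMap v : End F (V × W))
  rw [kd_prodMap, finrank_prod] at this; omega

/-- an involution of rank `j` on the model space -/
def Cls.I2 (κ : Cls T) (m : ℕ) (γ : ℤˣ) (j : ℕ) (b : Prop) : Prop :=
  ∃ (C : CForm T (Fin m → F)) (u : End F (Fin m → F)), C.Nondeg ∧ κ.cl C = γ ∧ C.IsIsomTo C u ∧ u ^ 2 = 1 ∧
    finrank F (V1 u) = j ∧ ((∀ x, C.B x (u x) = 0) ↔ b)

theorem isom_sq {t : C.isom} : t ^ 2 = 1 ↔ (t.1 : End F V) ^ 2 = 1 := by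
  rw [Subtype.ext_iff, ← LinearEquiv.toLinearMap_inj]; rfl

variable [CharP F 2] (h : Ch2 T)
include h

theorem lhs_two (hC : C.Nondeg) (hG : ∀ u, G u → C.IsIsomTo C u) : Lhs G 2 P ↔ ∀ u, G u → u ^ 2 = 1 → u ≠ 1 → P u := by
  have k : ∀ (u : End F V) c, C.IsIsomTo C u → u ≠ 1 → u = algebraMap F _ c → c = 1 := fun u c a b e => by
    haveI : Nontrivial V := not_subsingleton_iff_nontrivial.1 fun _ => b (Subsingleton.elim _ _)
    exact hn_p (p := 2) c (by simpa [h.σ, sq] using scal_norm hC (e ▸ a))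
  refine ⟨fun H u a b c => H u a ⟨1, by simpa⟩ fun z e => c (by rw [e, k u z (hG u a) c e, map_one]),
    fun H u a ⟨c, b⟩ d => H u a (by_contra fun e => e ?_) (by simpa using d 1)⟩
  rw [b, k _ c (isom_pow (hG u a) 2) e b, map_one]

theorem inv_fsim (hC : C.Nondeg) (hC' : C'.Nondeg) (e : finrank F W = finrank F V) (e' : κ.cl C' = κ.cl C)
    (hu : C.IsIsomTo C u) (hv : C'.IsIsomTo C' v) (u2 : u ^ 2 = 1) (v2 : v ^ 2 = 1)
    (r : finrank F (V1 v) = finrank F (V1 u)) (a : (∀ x, C'.B x (v x) = 0) ↔ ∀ x, C.B x (u x) = 0) : FSim C' v C u := by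
  obtain ⟨w, hw, g, g1, g2⟩ := Cls.transport hC hC' e e' hv
  obtain ⟨x, hx, rfl⟩ := exists_isomE hC hw
  obtain ⟨y, hy, rfl⟩ := exists_isomE hC hu
  obtain ⟨c, hc⟩ := isConj_iff.1 ((inv_isConj_iff h hC (t := ⟨x, hx⟩) (s := ⟨y, hy⟩) (isom_sq.2 (LinearMap.ext fun z => by
    obtain ⟨z, rfl⟩ := g.surjective z
    simpa [sq, ← g2] using congrArg g (LinearMap.congr_fun v2 z))) (isom_sq.2 u2)).2
      ⟨(rank_sim ⟨g, g2⟩).symm.trans r, .trans (g.surjective.forall.trans (forall_congr' fun z => by rw [← g1.1, g2]; rfl)) a⟩)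
  refine ⟨g.trans c.1, isom_comp (f := c.1.toLinearMap) (g := g.toLinearMap) c.2 g1, fun z => ?_⟩
  simpa [g2] using congrArg (fun t : C.isom => t.1 (g z)) (mul_inv_eq_iff_eq_mul.1 hc)

theorem i2_nd (h1 : κ.I2 m γ j b) (h2 : κ.I2 m' γ' j' b') (hC : C.Nondeg) (hn : finrank F V = m + m') (hδ : κ.cl C = γ * γ')
    (hu : C.IsIsomTo C u) (u2 : u ^ 2 = 1) (r : finrank F (V1 u) = j + j') (a : (∀ x, C.B x (u x) = 0) ↔ b ∧ b') :
    ∃ A, κ.ND C A m γ ∧ ∀ x ∈ A, u x ∈ A := by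
  obtain ⟨C₁, u₁, a₁, rfl, c₁, d₁, rfl, f₁⟩ := h1
  obtain ⟨C₂, u₂, a₂, rfl, c₂, d₂, rfl, f₂⟩ := h2
  have := fsim_nd (κ := κ) a₁ (inv_fsim (κ := κ) h hC (osum_nondeg a₁ a₂) (by simp [hn]) (by rw [κ.mul a₁ a₂, hδ]) hu
    (osum_isom c₁ c₂) u2 (by rw [sq, LinearMap.prodMap_mul, ← sq, ← sq, d₁, d₂]; rfl) (by rw [rank_prod, r]) (by
      rw [a, ← f₁, ← f₂]
      exact ⟨fun H => ⟨fun x => by simpa [osum_B] using H (x, 0), fun x => by simpa [osum_B] using H (0, x)⟩,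
        fun H x => by simp [osum_B, H.1, H.2]⟩))
  simpa using this

theorem i2_alt (h1 : κ.HT m γ j) (hj : Even j) : κ.I2 m γ j True := by
  obtain ⟨C, a, b, W, c, rfl⟩ := h1
  obtain ⟨t, d, rfl, f⟩ := exists_inv_alt h a c hj
  exact ⟨C, t.1, a, b, t.2, isom_sq.1 d, rfl, iff_of_true f trivial⟩

theorem alt_ht2 (hC : C.Nondeg) (hu : C.IsIsomTo C u) (u2 : u ^ 2 = 1) (a : ∀ x, C.B x (u x) = 0) :
    Even (finrank F (V1 u)) ∧ C.HasTS (finrank F (V1 u)) := by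
  obtain ⟨y, hy, rfl⟩ := exists_isomE hC hu
  exact ⟨Alt.even h hC (t := ⟨y, hy⟩) (isom_sq.2 u2) a, _, Alt.ts h (t := ⟨y, hy⟩) (isom_sq.2 u2) a, rfl⟩

theorem V1_le_V0 (hC : C.Nondeg) (hu : C.IsIsomTo C u) (u2 : u ^ 2 = 1) : V1 u ≤ V0 u ∧ 2 * finrank F (V1 u) ≤ finrank F V := by
  obtain ⟨y, hy, rfl⟩ := exists_isomE hC hu
  have : V1 (y : End F V) ≤ V0 (y : End F V) := perp_V1 hC hu ▸ rg_le_perp (t := ⟨y, hy⟩) (isom_sq.2 u2)
  have h1 := Submodule.finrank_mono this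
  have : finrank F (V1 (y : End F V)) + finrank F (V0 (y : End F V)) = finrank F V :=
    LinearMap.finrank_range_add_finrank_ker _
  exact ⟨‹_›, by omega⟩

theorem two_nd (hN : ∀ n δ k, κ.Ex n δ → 2 * k < n → κ.I2 n δ (k + 1) False) (hC : C.Nondeg) (hn : finrank F V = 2 * d)
    (hδ : κ.cl C = δ) (hG : ∀ u, G u → C.IsIsomTo C u) (hG' : ∀ u : End F V, C.IsIsomTo C u → Even (finrank F (V1 u)) → G u)
    (l : e ≤ d) (h0 : ∀ j, C.HasTS j ↔ j ≤ a) (h1 : ∀ j, κ.HT (2 * e) γ j ↔ j ≤ a₁)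
    (h2 : ∀ j, κ.HT (2 * d - 2 * e) (γ * δ) j ↔ j ≤ a₂) :
    Lhs G 2 (fun u => ∃ A, κ.ND C A (2 * e) γ ∧ ∀ x ∈ A, u x ∈ A) ↔ a / 2 ≤ a₁ / 2 + a₂ / 2 := by
  have z : ∀ u : End F V, u = 1 ↔ finrank F (V1 u) = 0 := fun u => by
    rw [Submodule.finrank_eq_zero, LinearMap.range_eq_bot, sub_eq_zero]
  have hδ' : κ.cl C = γ * (γ * δ) := by rw [← mul_assoc, uu, one_mul, hδ]
  rw [lhs_two h hC hG]
  refine ⟨fun H => (Nat.eq_zero_or_pos (a / 2)).elim (by omega) fun a0 => ?_, fun H u b c u1 => ?_⟩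
  · obtain ⟨U, b, c⟩ := (h0 (2 * (a / 2))).2 (by omega)
    obtain ⟨t, f, rfl, g⟩ := exists_inv_alt h hC b (c ▸ even_two_mul _)
    change finrank F (V1 (t.1 : End F V)) = _ at c
    obtain ⟨A, hA, i⟩ := H t.1 (hG' _ t.2 (c ▸ even_two_mul _)) (isom_sq.1 f) (mt (z _).1 (by omega))
    have f' : (t.1 : End F V) ^ 2 = algebraMap F _ 1 := by simpa using isom_sq.1 f
    have k1 := alt_ht2 h hA.nd (isom_res t.2 i) (by simpa using restrict_pow i f') fun x => g x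
    have k2 := alt_ht2 h (hA.perp hC).nd (isom_res t.2 (perp_inv hC t.2 i)) (by simpa using restrict_pow _ f') fun x => g x
    have k3 := (rank_prod _ _).symm.trans (rank_sim (sim_restrict (hC.isCompl_perp hA.1) i (perp_inv hC t.2 i)))
    rw [← Cls.ht_iff (κ := κ) hA.nd, hA.2.1, hA.2.2, h1, Nat.even_iff] at k1
    rw [← Cls.ht_iff (κ := κ) (hA.perp hC).nd, (hA.perp hC).2.1, (hA.perp hC).2.2, hn, hδ, h2, Nat.even_iff] at k2
    omega
  have hu := hG u b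
  have u0 := mt (z u).2 u1
  by_cases f : ∀ x, C.B x (u x) = 0
  · obtain ⟨k1, k2⟩ := alt_ht2 h hC hu c f
    rw [h0] at k2
    rw [Nat.even_iff] at k1
    exact i2_nd h (i2_alt h ((h1 (min (finrank F (V1 u)) (2 * (a₁ / 2)))).2 (by omega)) (by rw [Nat.even_iff]; omega))
      (i2_alt h ((h2 (finrank F (V1 u) - min (finrank F (V1 u)) (2 * (a₁ / 2)))).2 (by omega)) (by rw [Nat.even_iff]; omega))
      hC (by omega) hδ' hu c (by omega) (by simpa)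
  have k : ∀ n δ j, κ.HT (2 * n) δ 0 → j ≤ n → κ.I2 (2 * n) δ j (j = 0) := fun n δ j a b => by
    rcases j with _ | j
    · simpa using i2_alt h a (by simp)
    · simpa using hN _ _ j (ex_iff_ht.2 a) (by omega)
  have := (V1_le_V0 h hC hu c).2
  exact i2_nd h (k e γ (min (finrank F (V1 u)) e) ((h1 0).2 (by simp)) (by omega))
    (k (d - e) _ (finrank F (V1 u) - min (finrank F (V1 u)) e) (mul_tsub 2 d e ▸ (h2 0).2 (by simp)) (by omega))
    hC (by omega) hδ' hu c (by omega) (iff_of_false f (by omega))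

omit h in
theorem alt_nd_two {C : CForm (altType F) V} (hC : C.Nondeg) (hn : finrank F V = 2 * d) (l : e ≤ d) :
    Lhs (fun u : End F V => C.IsIsomTo C u) 2 (fun u => ∃ A, (altCls F).ND C A (2 * e) 1 ∧ ∀ x ∈ A, u x ∈ A) ↔
      d % 2 = 1 ∨ e % 2 = 0 := by
  rw [two_nd (a := d) (a₁ := e) (a₂ := d - e) ch2_alt (fun n δ k ⟨C, a, b⟩ c => by
      obtain ⟨t, d, e, f⟩ := exists_nonalt_alt a (k := k) (by simpa)
      exact ⟨C, t.1, a, b, t.2, isom_sq.1 d, e, iff_of_false f id⟩) hC hn rfl (fun _ h => h) (fun _ h _ => h) l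
    (fun j => by rw [← Cls.ht_iff (κ := altCls F) hC, alt_ht, hn]; simp [altCls]) (fun j => by simp [alt_ht])
    fun j => by rw [alt_ht, ← mul_tsub]; simp [altCls]]
  omega

omit h in
open Classical in
theorem ht_two (e0 : 0 < e) : (quadCls F).HT (2 * e) (sg Y * qsign (-1 : F) ^ e) j ↔ j ≤ if Y then e else e - 1 := by
  rw [quad_ht, quad_ex, and_iff_right ⟨by simp, by omega⟩, CharTwo.neg_eq, qsign_one, one_pow, one_pow, mul_one, sg_eq_one]
  split_ifs with h <;> simp only [h, and_true, and_false, or_false] <;> omega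

omit h in
theorem quad_nd_two {Q : QuadraticForm F V} (hQ : QNondeg Q) (hne : NotExc F V) (hn : finrank F V = 2 * d)
    (hX : (ofQuad Q).HasTS d ↔ X) (e0 : 0 < e) (l : e < d) : Lhs (Om Q) 2 (fun u => ∃ A, (quadCls F).ND (ofQuad Q) A (2 * e)
      (sg Y * qsign (-1 : F) ^ e) ∧ ∀ x ∈ A, u x ∈ A) ↔
      (X → Y ∧ (d % 2 = 1 ∨ e % 2 = 0)) ∧ (¬ X → d % 2 = 0 ∨ (Y ↔ e % 2 = 0)) := by
  classical
  have c := cl_even hQ hn
  rw [hX] at c
  rw [two_nd ch2_quad (fun n δ k ⟨C, a, b⟩ c => ?_) hQ hn c (fun _ h => h.isom)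
    (fun u a => (om_two (CharP.cast_eq_zero F 2) hQ hne a).2) l.le
    (fun j => by rw [← Cls.ht_iff (κ := quadCls F) hQ, hn, c, ht_two (by omega)]) (fun j => ht_two e0)
    fun j => by rw [← mul_tsub, mul_mul_mul_comm, sg_mul, ← pow_add, show e + d = d - e + 2 * e by omega, upow_add_two,
      ht_two (by omega)]]
  · by_cases X <;> by_cases Y <;> simp [*] <;> omega
  · obtain ⟨Q, rfl⟩ : ∃ Q, C = ofQuad Q := ⟨_, C.ofQuad_toQuad.symm⟩
    obtain ⟨t, d, e, f⟩ := exists_nonalt_quad a (k := k) (by simpa)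
    exact ⟨_, t.1, a, b, t.2, isom_sq.1 d, e, iff_of_false f id⟩

omit h

theorem ns_iff {Q : QuadraticForm F V} (hu : (ofQuad Q).IsIsomTo (ofQuad Q) u) :
    (finrank F A = 1 ∧ ∃ x ∈ A, Q x ≠ 0) ∧ (∀ x ∈ A, u x ∈ A) ↔ ∃ x ∈ V0 u, Q x ≠ 0 ∧ A = F ∙ x := by
  refine ⟨fun ⟨⟨a, x, b, c⟩, i⟩ => ?_, ?_⟩
  · have x0 : x ≠ 0 := by rintro rfl; simp at c
    obtain rfl : (F ∙ x) = A := Submodule.eq_of_le_of_finrank_eq (by simpa) (by rw [finrank_span_singleton x0, a])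
    obtain ⟨z, hz⟩ := Submodule.mem_span_singleton.1 (i x b)
    have : Q (z • x) = Q x := hz ▸ hu.2 x
    rw [QuadraticMap.map_smul, smul_eq_mul, mul_eq_right₀ c, ← sq] at this
    exact ⟨x, mem_V0.2 (by rw [← hz, hn_p (p := 2) z this, one_smul]), c, rfl⟩
  · rintro ⟨x, a, b, rfl⟩
    exact ⟨⟨finrank_span_singleton (by rintro rfl; simp at b), x, Submodule.mem_span_singleton_self x, b⟩,
      le_V0_inv (by simpa)⟩

theorem ns_iff' {Q : QuadraticForm F V} (hu : (ofQuad Q).IsIsomTo (ofQuad Q) u) :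
    (∃ A : Submodule F V, (finrank F A = 1 ∧ ∃ x ∈ A, Q x ≠ 0) ∧ ∀ x ∈ A, u x ∈ A) ↔ ∃ x ∈ V0 u, Q x ≠ 0 := by
  simp [ns_iff hu]

theorem ns_two {Q : QuadraticForm F V} (hQ : QNondeg Q) (hne : NotExc F V) (hn : finrank F V = 2 * d) (d0 : d ≠ 0) :
    Lhs (Om Q) 2 (fun u => ∃ A : Submodule F V, (finrank F A = 1 ∧ ∃ x ∈ A, Q x ≠ 0) ∧ ∀ x ∈ A, u x ∈ A) ↔
      ¬ (Even d ∧ (ofQuad Q).HasTS d) := by
  rw [lhs_two ch2_quad hQ fun _ h => h.isom]
  refine ⟨fun H ⟨a, U, b, c⟩ => ?_, fun H u a b _ => (ns_iff' a.isom).2 ?_⟩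
  · obtain ⟨t, f, rfl, -⟩ := exists_inv_alt ch2_quad hQ b (c ▸ a)
    change finrank F (V1 (t.1 : End F V)) = _ at c
    obtain ⟨x, g, h⟩ := (ns_iff' t.2).1 (H t.1 ((om_two (CharP.cast_eq_zero F 2) hQ hne t.2).2 (c ▸ a)) (isom_sq.1 f)
      fun e => d0 (by simp [← c, e, V1]))
    have : finrank F (V1 (t.1 : End F V)) + finrank F (V0 (t.1 : End F V)) = finrank F V :=
      LinearMap.finrank_range_add_finrank_ker _
    rw [← Submodule.eq_of_le_of_finrank_eq (V1_le_V0 ch2_quad hQ t.2 (isom_sq.1 f)).1 (by omega)] at g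
    exact h (b.1 x g)
  obtain ⟨c, e⟩ := V1_le_V0 ch2_quad hQ a.isom b
  rcases e.lt_or_eq with e | e
  · exact perp_V1 hQ a.isom ▸ exists_nonsingular_perp hQ e
  obtain ⟨x, hx⟩ := not_forall.1 (mt (alt_ht2 ch2_quad hQ a.isom b) (by rwa [show finrank F (V1 u) = d by omega]))
  obtain ⟨y, hy, rfl⟩ := exists_isomE hQ a.isom
  exact ⟨y x - x, c ⟨x, rfl⟩, fun h => hx ((Q_sub_apply ⟨y, hy⟩ x).symm.trans h)⟩

theorem ns_odd [Fact r.Prime] (h2 : r ≠ 2) {Q : QuadraticForm F V} (hQ : QNondeg Q) (hne : NotExc F V) (n0 : 0 < finrank F V)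
    (hd : r ∣ Nat.card {A : Submodule F V // finrank F A = 1 ∧ ∃ x ∈ A, Q x ≠ 0}) :
    ¬ Lhs (Om Q) r (fun u => ∃ A : Submodule F V, (finrank F A = 1 ∧ ∃ x ∈ A, Q x ≠ 0) ∧ ∀ x ∈ A, u x ∈ A) := by
  have hr : (r : F) ≠ 0 := cast_ne (p := 2) h2
  have h := blk_quad (K := AlgebraicClosure F) hr h2 rfl rfl
  rw [om_ll h2 hQ hne]
  intro H
  obtain ⟨N, h1, hM⟩ := h.exists_max hQ
  obtain ⟨E, hE⟩ := h.exists_rts N
  obtain ⟨x, hx, d, -⟩ := h.exists_elt hQ hE h1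
  obtain ⟨A, a, b⟩ : ∃ A : Submodule F V, (finrank F A = 1 ∧ ∃ x ∈ A, Q x ≠ 0) ∧ ∀ y ∈ A, (x : End F V) y ∈ A := by
    refine (eq_or_ne (x : End F V) 1).elim (fun e => (ns_iff' hx).2 ?_) (H _ hx d.pow)
    obtain ⟨y, -, hy⟩ := exists_nonsingular_perp hQ (U := ⊥) (by simpa)
    exact ⟨y, by simp [e], hy⟩
  refine form_deg _ hr hQ hx d.pow (fun g a s ⟨b, y, c, e⟩ => ⟨by rw [finrank_sm, b], g y, ⟨y, c, rfl⟩, (a.2 y).trans_ne e⟩)
    (fun g a => h.small d hM a) (fun s s' a a' b b' => ?_) hd A a b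
  obtain ⟨y, c, e, rfl⟩ := (ns_iff d.isom).1 ⟨a, b⟩
  obtain ⟨y', c', e', rfl⟩ := (ns_iff d.isom).1 ⟨a', b'⟩
  have k : ∀ y ∈ V0 (x : End F V), (F ∙ y) ⊓ V1 (x : End F V) = ⊥ ∧ (F ∙ y) ⊓ V0 (x : End F V) = F ∙ y := fun y c =>
    ⟨((compl01 hr d.pow).disjoint.mono_left (by simpa)).eq_bot, inf_eq_left.2 (by simpa)⟩
  obtain ⟨z, hz⟩ := FiniteField.isSquare_of_char_two (ringChar.eq F 2) (Q y / Q y')
  have z0 : z ≠ 0 := by rintro rfl; simp [e, e'] at hz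
  rw [(k y c).1, (k y c).2, (k y' c').1, (k y' c').2, ← Submodule.span_singleton_smul_eq z0.isUnit y']
  refine ⟨rfl, iso_span_singleton (by rintro rfl; simp at e) (smul_ne_zero z0 (by rintro rfl; simp at e')) ?_⟩
  change Q _ = Q _
  rw [QuadraticMap.map_smul, ← hz, smul_eq_mul, div_mul_cancel₀ _ e']

end H25.El
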