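import Cfsg.Agent.H25.El17

/-! Elusive actions, XVIII: unipotent orthogonal elements in odd characteristic. -/

set_option autoImplicit false

namespace H25.El

open Module Polynomial Function H22 H27.Sp H12 H12.CForm Pointwise

universe u

variable {F : Type u} {K : Type*} [Field F] [Field K] [Algebra F K] {T : FormType F} {V : Type u} [AddCommGroup V] [Module F V]
  {C : CForm (quadType F) V} {a b c d e j k m n p : ℕ} {γ γ' δ : ℤˣ} {u : End F V} {A : Submodule F V} {μ ν ν' : Multiset ℕ}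

def m3 (a b c : ℕ) : Multiset ℕ := .replicate a 1 + .replicate b 2 + .replicate c 3

theorem m3_sum : (m3 a b c).sum = a + 2 * b + 3 * c := by simp [m3, mul_comm]

theorem m3_count : (m3 a b c).count k = if k = 1 then a else if k = 2 then b else if k = 3 then c else 0 := by
  simp only [m3, Multiset.count_add, Multiset.count_replicate]; split_ifs <;> omega

theorem mem_m3 (h : k ∈ m3 a b c) : 0 < k ∧ k ≤ 3 := by
  rw [← Multiset.count_ne_zero, m3_count] at h; split_ifs at h <;> omega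

theorem m3_split (h : m3 a b c = ν + ν') : ∃ a₁ a₂ b₁ b₂ c₁ c₂, ν = m3 a₁ b₁ c₁ ∧ ν' = m3 a₂ b₂ c₂ ∧ a = a₁ + a₂ ∧
    b = b₁ + b₂ ∧ c = c₁ + c₂ := by
  have H := fun k => congrArg (Multiset.count k) h
  simp only [m3_count, Multiset.count_add] at H
  refine ⟨_, _, _, _, _, _, ?_, ?_, H 1, H 2, H 3⟩ <;> ext k <;> have := H k <;> rw [m3_count] <;>
    split_ifs at this ⊢ <;> first | omega | subst k; rfl

/-- even parts have even multiplicity -/
abbrev Gd (μ : Multiset ℕ) : Prop := ∀ a, Even a → Even (μ.count a)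

theorem gd_m3 : Gd (m3 a b c) ↔ Even b := ⟨fun h => by simpa [m3_count] using h 2 (by simp), fun h k hk => by
  rw [m3_count]; split_ifs <;> first | exact h | exact .zero | (subst k; contradiction)⟩

theorem gd_swap (h : ∀ μ : Multiset ℕ, (∀ a ∈ μ, 0 < a ∧ a ≤ p) → Gd μ → μ.sum = n → (∃ a ∈ μ, Odd a) →
      ∃ ν, ν ≤ μ ∧ ν.sum = m ∧ Gd ν) (hp : Odd p) (hm : Even m) (n0 : n ≠ 0) (h1 : ∀ a ∈ μ, 0 < a ∧ a ≤ p) (h2 : Gd μ)
    (h3 : μ.sum = n) : ∃ ν, ν ≤ μ ∧ ν.sum = m ∧ Gd ν := by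
  by_contra H
  have ev : ∀ a ∈ μ, Even a := fun a ha => by_contra fun e => H (h μ h1 h2 h3 ⟨a, ha, Nat.not_even_iff_odd.1 e⟩)
  obtain ⟨k, hk⟩ := Multiset.exists_mem_of_ne_zero (s := μ) (by rintro rfl; exact n0 h3.symm)
  obtain ⟨ρ, rfl⟩ := Multiset.le_iff_exists_add.1 (Multiset.le_count_iff_replicate_le.1
    (Nat.le_of_dvd (Multiset.count_pos.2 hk) (h2 k (ev k hk)).two_dvd))
  have k1 := h1 k hk
  have k2 := Nat.even_iff.1 (ev k hk)
  have := Nat.odd_iff.1 hp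
  have c : ∀ (ρ : Multiset ℕ) a, Even a → ((k + 1) ::ₘ (k - 1) ::ₘ ρ).count a = ρ.count a := fun ρ a ha => by
    rw [Nat.even_iff] at ha; rw [Multiset.count_cons_of_ne (by omega), Multiset.count_cons_of_ne (by omega)]
  have g : ∀ ρ : Multiset ℕ, Gd (.replicate 2 k + ρ) ↔ Gd ρ := fun ρ => forall₂_congr fun a _ => by
    rw [Multiset.count_add, Multiset.count_replicate]; split_ifs <;> simp [Nat.even_add]
  obtain ⟨ν, l, s, f⟩ := h ((k + 1) ::ₘ (k - 1) ::ₘ ρ) (by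
    simp only [Multiset.mem_cons]
    rintro a (rfl | rfl | ha)
    exacts [by omega, by omega, h1 a (by simp [ha])]) (fun a ha => c ρ a ha ▸ (g ρ).1 h2 a ha)
    (by simp at h3 ⊢; omega) ⟨k + 1, by simp, by rw [Nat.odd_iff]; omega⟩
  have o : ∀ a ∈ ρ, a % 2 = 0 := fun a ha => Nat.even_iff.1 (ev a (by simp [ha]))
  have es : ∀ σ ≤ ρ, σ.sum % 2 = 0 := fun σ h => Nat.even_iff.1 (Multiset.sum_induction _ _ (fun _ _ => Even.add)
    (by simp) fun a ha => Nat.even_iff.2 (o a (Multiset.mem_of_le h ha)))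
  rw [Nat.even_iff] at hm
  by_cases e1 : k + 1 ∈ ν
  · obtain ⟨ν, rfl⟩ := Multiset.exists_cons_of_mem e1
    rw [Multiset.cons_le_cons_iff] at l
    by_cases e2 : k - 1 ∈ ν
    · obtain ⟨ν, rfl⟩ := Multiset.exists_cons_of_mem e2
      exact H ⟨.replicate 2 k + ν, add_le_add_right ((Multiset.cons_le_cons_iff _).1 l) _, by simp at s ⊢; omega, (g ν).2 fun a ha => c ν a ha ▸ f a ha⟩
    · have := es ν ((Multiset.le_cons_of_notMem e2).1 l); simp at s; omega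
  rw [Multiset.le_cons_of_notMem e1] at l
  by_cases e2 : k - 1 ∈ ν
  · obtain ⟨ν, rfl⟩ := Multiset.exists_cons_of_mem e2
    have := es ν ((Multiset.cons_le_cons_iff _).1 l); simp at s; omega
  · exact H ⟨ν, ((Multiset.le_cons_of_notMem e2).1 l).trans (Multiset.le_add_left _ _), s, f⟩

variable [FiniteDimensional F V] [Finite F] [Algebra.IsAlgebraic F K] [IsAlgClosed K] (h2 : (2 : F) ≠ 0)
include h2

theorem ts_of_N (h : ∀ x ∈ A, C.B x x = 0) : C.TS A := quad_ts_iff.2 fun x hx => by simpa [quad_B_self, h2] using h x hx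

theorem cl_two (hC : C.Nondeg) (hu : C.IsIsomTo C u) (h : JD u (UN K (m3 0 j 0))) : (quadCls F).cl C = qsign (-1 : F) ^ j := by
  have e : finrank F V = 2 * j := by simpa [m3_sum] using h.dim
  have k : ∀ x ∈ V1 u, C.B x x = 0 := fun x hx => C.mem_perp.1 ((perp_V1 hC hu).ge (by
    obtain ⟨z, rfl⟩ := hx
    simpa [sq] using LinearMap.congr_fun ((un_pow h 2).2 (by simp +contextual [m3, Multiset.mem_replicate])) z)) x hx
  have := un_ker h 1
  rw [pow_one] at this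
  have := LinearMap.finrank_range_add_finrank_ker (u - 1)
  rw [cl_even hC e, sg_pos ⟨V1 u, ts_of_N h2 k, by simp [m3, V1] at *; omega⟩, one_mul]

/-- a fixed line of class `γ` -/
def FL (C : CForm (quadType F) V) (u : End F V) (γ : ℤˣ) : Prop := ∃ x, u x = x ∧ (quadCls F).ND C (F ∙ x) 1 γ

theorem line_split (hC : C.Nondeg) (hu : C.IsIsomTo C u) (h : JD u (UN K μ)) {x : V} (hx : u x = x) (h0 : C.B x x ≠ 0) :
    ∃ γ ν i, (quadCls F).ND C (F ∙ x) 1 γ ∧ μ = {1} + ν ∧ JD (u.restrict i : End F (C.perp (F ∙ x))) (UN K ν) := by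
  have x0 : x ≠ 0 := by rintro rfl; simp at h0
  have n : C.NondegOn (F ∙ x) := fun y hy H => by
    obtain ⟨c, rfl⟩ := Submodule.mem_span_singleton.1 hy
    have := H x (Submodule.mem_span_singleton_self x)
    simp_all
  obtain ⟨ν₁, ν, e, a, b⟩ := nd_un hC hu h n (le_V0_inv (by simpa [sub_eq_zero]))
  have := a.dim
  rw [finrank_span_singleton x0, dimD_UN] at this
  obtain ⟨k, rfl⟩ := Multiset.card_eq_one.1 (show ν₁.card = 1 from le_antisymm (this ▸ by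
    simpa using Multiset.card_nsmul_le_sum (un_pos a)) (Multiset.card_pos.2 (by rintro rfl; simp at this)))
  exact ⟨_, ν, _, ⟨n, finrank_span_singleton x0, rfl⟩, by rw [e, show k = 1 by simpa using this.symm], b⟩

omit h2 in
theorem nd_line {x : V} (h : (quadCls F).ND C (F ∙ x) 1 γ) : C.B x x ≠ 0 := fun e => by
  have := h.1 x (Submodule.mem_span_singleton_self x) fun y hy => by
    obtain ⟨c, rfl⟩ := Submodule.mem_span_singleton.1 hy; simp [e]
  have := this ▸ h.2.1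
  rw [Submodule.span_zero_singleton] at this; simp at this

theorem fl_uniq (hC : C.Nondeg) (hu : C.IsIsomTo C u) (h : JD u (UN K μ)) (h1 : μ.count 1 ≤ 1) (a : FL C u γ) (b : FL C u γ') :
    γ = γ' := by
  obtain ⟨x, a1, a2⟩ := a
  obtain ⟨y, b1, b2⟩ := b
  obtain ⟨-, ν, i, -, rfl, c⟩ := line_split h2 hC hu h a1 (nd_line a2)
  obtain ⟨_, hw, z, hz, rfl⟩ := Submodule.mem_sup.1 ((hC.isCompl_perp a2.1).sup_eq_top ▸ Submodule.mem_top (x := y))
  obtain ⟨w, rfl⟩ := Submodule.mem_span_singleton.1 hw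
  have z0 : C.B z z = 0 := by_contra fun e => by
    obtain ⟨-, ν, -, -, rfl, -⟩ := line_split h2 (a2.perp hC).nd (isom_res hu i) c (x := ⟨z, hz⟩)
      (Subtype.ext (by simpa [a1] using b1)) e
    simp at h1
  have o := C.mem_perp.1 hz x (Submodule.mem_span_singleton_self x)
  have e : C.N (w • x + z) = C.N (w • x) := by
    have : C.N z = 0 := by simpa [quad_B_self, h2] using z0
    simp [C.N_add, o, this]
  have w0 : w ≠ 0 := by rintro rfl; exact nd_line b2 (by simpa)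
  have := iso_span_singleton (C := C) (C' := C) (smul_ne_zero w0 (by rintro rfl; simpa using nd_line a2))
    (by intro H; simpa [H] using nd_line b2) e
  rw [Submodule.span_singleton_smul_eq w0.isUnit] at this
  exact ((a2.of_iso this).uniq b2).2

theorem fl_of (hC : C.Nondeg) (hu : C.IsIsomTo C u) (h : JD u (UN K μ)) (hA : (quadCls F).ND C A m γ) (i : ∀ x ∈ A, u x ∈ A)
    (h1 : JD (u.restrict i : End F A) (UN K (m3 1 j 0))) : FL C u (γ * qsign (-1 : F) ^ j) := by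
  have hu' := isom_res hu i
  obtain ⟨x, a, b⟩ : ∃ x ∈ V0 (u.restrict i : End F A), (C.restrict A).B x x ≠ 0 := by
    by_contra! H
    have := (show (C.restrict A).HasTS _ from ⟨_, ts_of_N h2 H, rfl⟩).two_mul_le hA.nd
    have := un_ker h1 1
    rw [pow_one] at this
    have := h1.dim
    simp [m3, V0] at *; omega
  obtain ⟨β, ν, i', c, e, f⟩ := line_split h2 hA.nd hu' h1 (mem_V0.1 a) b
  obtain rfl : ν = m3 0 j 0 := add_left_cancel (e.symm.trans (by simp [m3]))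
  have := cl_two h2 (c.perp hA.nd).nd (isom_res hu' i') f
  rw [(c.perp hA.nd).2.2, hA.2.2] at this
  refine ⟨x, congrArg Subtype.val (mem_V0.1 a), ?_⟩
  rw [← this, mul_left_comm, uu, mul_one]
  simpa using (Cls.nd_map (isom_subtype A) A.injective_subtype).2 c

variable [Fact p.Prime] [CharP F p]

theorem rc_un_quad (p : ℕ) [Fact p.Prime] [CharP F p] (h : ∀ k ∈ μ, 0 < k) (h' : Gd μ) (hδ : (∃ a ∈ μ, Odd a) ∨ δ = qsign (-1 : F) ^ (μ.sum / 2)) :
    (quadCls F).Rc (UN K μ) δ := by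
  haveI := charP_of_injective_algebraMap (algebraMap F K).injective p
  have p2 : p ≠ 2 := by rintro rfl; exact h2 (CharP.cast_eq_zero F 2)
  obtain ⟨ν, e⟩ := exists_two_smul h'
  have h1 := rc_hyp (F := F) (K := K) (ν := ν) tg_quad (fun _ => rfl) fi_quad fun k hk =>
    h k (Multiset.mem_of_mem_filter (e ▸ Multiset.mem_add.2 (.inl hk)))
  have h3 : ∀ ν : Multiset ℕ, (∀ k ∈ ν, ¬ Even k) → ∀ δ, (ν = 0 → δ = 1) → (quadCls F).Rc (UN K ν) δ := fun ν H => by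
    induction ν using Multiset.induction_on with
    | empty => exact fun δ hδ => by simpa [hδ rfl] using rc_hyp (F := F) (K := K) (ν := 0) tg_quad (fun _ => rfl) fi_quad (by simp)
    | cons a ν ih =>
      obtain ⟨b, rfl⟩ : Odd a := by simpa using H a (by simp)
      intro δ _
      rw [← Multiset.singleton_add, UN_add, ← mul_one δ]
      exact (rc_rq h2 (rq_reg h2 p2 b δ)).add (ih (fun k hk => H k (by simp [hk])) 1 fun _ => rfl)
  have k := Multiset.filter_add_not Even μ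
  rw [← k, UN_add, e, ← one_mul δ, ← uu (qsign (-1 : F) ^ ν.sum), mul_assoc]
  refine h1.add (h3 _ (fun k hk => (Multiset.mem_filter.1 hk).2) _ fun z => ?_)
  rw [hδ.resolve_left fun ⟨a, b, c⟩ => Multiset.filter_eq_nil.1 z a b (Nat.not_even_iff_odd.2 c), ← k, z, e, add_zero,
    Multiset.sum_add, ← two_mul, Nat.mul_div_cancel_left _ two_pos, uu]

variable {Q : QuadraticForm F V} (hQ : QNondeg Q) (hn : finrank F V = n) (hδ : (quadCls F).cl (ofQuad Q) = δ) (m0 : 0 < m)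
  (l : m < n) (H : Lhs (Om Q) p fun u => ∃ A, (quadCls F).ND (ofQuad Q) A m γ ∧ ∀ x ∈ A, u x ∈ A)
include hQ hn hδ m0 l H

theorem om_un (h : JD u (UN K μ)) (hu : (ofQuad Q).IsIsomTo (ofQuad Q) u) (h1 : ∀ k ∈ μ, k ≤ p) :
    ∃ A, ∃ i : ∀ x ∈ A, u x ∈ A, (quadCls F).ND (ofQuad Q) A m γ ∧ ∃ ν ν', μ = ν + ν' ∧ ν.sum = m ∧
      JD (u.restrict i : End F _) (UN K ν) ∧ JD (u.restrict (perp_inv hQ hu i) : End F _) (UN K ν') := by
  have p2 : p ≠ 2 := by rintro rfl; exact h2 (CharP.cast_eq_zero F 2)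
  rw [om_ll p2 hQ (notExc_of_two_ne_zero h2)] at H
  obtain ⟨A, a, i⟩ : ∃ A, (quadCls F).ND (ofQuad Q) A m γ ∧ ∀ x ∈ A, u x ∈ A := by
    refine (eq_or_ne u 1).elim (fun e => ?_) (H u hu (by simpa using un_char h (p := p) (j := 1) (by simpa)))
    obtain ⟨A, -, hA⟩ := (Cls.exists_nd_iff (κ := quadCls F) (m := m) (γ := γ) hQ (Cls.nd_top hQ)).2
      ⟨by omega, quad_ex.2 ⟨by simp [h2], by omega⟩, quad_ex.2 ⟨by simp [h2], by omega⟩⟩
    exact ⟨A, hA, by simp [e]⟩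
  obtain ⟨ν, ν', e, b, c⟩ := nd_un hQ hu h a.1 i
  exact ⟨A, i, a, ν, ν', e, by simpa [a.2.1] using b.dim.symm, b, c⟩

theorem om_part (μ : Multiset ℕ) (h : ∀ k ∈ μ, 0 < k ∧ k ≤ p) (h' : Gd μ) (hs : μ.sum = n)
    (h1 : (∃ a ∈ μ, Odd a) ∨ δ = qsign (-1 : F) ^ (n / 2)) : ∃ ν, ν ≤ μ ∧ ν.sum = m ∧ Gd ν := by
  obtain ⟨u, a, b⟩ := (rc_un_quad (K := AlgebraicClosure F) h2 p (fun k hk => (h k hk).1) h' (hs ▸ h1)).out hQ
    (by simp [hn, hs]) hδ
  obtain ⟨A, i, c, ν, ν', rfl, e, f, -⟩ := om_un h2 hQ hn hδ m0 l H b a fun k hk => (h k hk).2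
  exact ⟨ν, Multiset.le_add_right _ _, e, un_quad_even h2 c.nd (isom_res a i) f⟩

theorem om_test (a b c : ℕ) (hb : b % 2 = 0) (hs : a + 2 * b + 3 * c = n) (h1 : a + c ≠ 0 ∨ δ = qsign (-1 : F) ^ b) :
    ∃ a₁ a₂ b₁ b₂ c₁ c₂, a = a₁ + a₂ ∧ b = b₁ + b₂ ∧ c = c₁ + c₂ ∧ m = a₁ + 2 * b₁ + 3 * c₁ ∧ b₁ % 2 = 0 ∧
      (a₁ + c₁ = 0 → γ = 1) ∧ (a₂ + c₂ = 0 → γ * δ = 1) := by
  have p3 : 3 ≤ p := (Fact.out : p.Prime).two_le.lt_of_ne' (by rintro rfl; exact h2 (CharP.cast_eq_zero F 2))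
  obtain ⟨u, d, e⟩ := (rc_un_quad (K := AlgebraicClosure F) (δ := δ) h2 p (fun k hk => (mem_m3 hk).1)
    ((gd_m3 (a := a) (c := c)).2 (Nat.even_iff.2 hb)) (by
      rcases Nat.eq_zero_or_pos a with rfl | a0
      · rcases Nat.eq_zero_or_pos c with rfl | c0
        · exact .inr (by simpa [m3_sum] using h1)
        · exact .inl ⟨3, by simpa [← Multiset.count_pos, m3_count], by decide⟩
      · exact .inl ⟨1, by simpa [← Multiset.count_pos, m3_count], by decide⟩)).out hQ (by simp [hn, hs, m3_sum]) hδ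
  obtain ⟨A, i, f, ν, ν', g, s, j, k⟩ := om_un h2 hQ hn hδ m0 l H e d fun k hk => (mem_m3 hk).2.trans p3
  obtain ⟨a₁, a₂, b₁, b₂, c₁, c₂, rfl, rfl, g'⟩ := m3_split g
  have e1 := gd_m3.1 (un_quad_even h2 f.nd (isom_res d i) j)
  have e2 := gd_m3.1 (un_quad_even h2 (f.perp hQ).nd (isom_res d _) k)
  have sq : ∀ b, Even b → qsign (-1 : F) ^ b = 1 := fun b hb => by obtain ⟨b, rfl⟩ := hb; rw [pow_add, uu]
  refine ⟨a₁, a₂, b₁, b₂, c₁, c₂, g'.1, g'.2.1, g'.2.2, by rw [← s, m3_sum], Nat.even_iff.1 e1, fun z => ?_, fun z => ?_⟩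
  · obtain ⟨rfl, rfl⟩ := Nat.add_eq_zero_iff.1 z
    rw [← f.2.2, cl_two h2 f.nd (isom_res d i) j, sq _ e1]
  · obtain ⟨rfl, rfl⟩ := Nat.add_eq_zero_iff.1 z
    rw [← hδ, ← (f.perp hQ).2.2, cl_two h2 (f.perp hQ).nd (isom_res d _) k, sq _ e2]

theorem om_not_odd (hm : m % 2 = 1) (n2 : n % 2 = 0) (n6 : 6 ≤ n) : False := by
  by_cases n4 : n % 4 = 2
  · obtain ⟨_, _, _, _, _, _, h⟩ := om_test h2 hQ hn hδ m0 l H 2 (n / 2 - 1) 0 (by omega) (by omega) (by simp)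
    obtain ⟨_, _, _, _, _, _, h'⟩ := om_test h2 hQ hn hδ m0 l H 0 (n / 2 - 3) 2 (by omega) (by omega) (by simp)
    omega
  have p3 : 3 ≤ p := (Fact.out : p.Prime).two_le.lt_of_ne' (by rintro rfl; exact h2 (CharP.cast_eq_zero F 2))
  let β : ℤˣ := if m % 4 = 1 then -γ else -(γ * δ)
  have R := fun a b c δ (h : Even b) k (h1 : k ∈ m3 a b c) (h3 : Odd k) => rc_un_quad (K := AlgebraicClosure F) (δ := δ) h2 p
    (fun k hk => (mem_m3 hk).1) ((gd_m3 (a := a) (c := c)).2 h) (.inl ⟨k, h1, h3⟩)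
  obtain ⟨_, C₁, u₁, a₁, b₁, c₁, d₁⟩ := R 1 0 0 β (by simp) 1 (by simp [m3]) (by decide)
  obtain ⟨_, C₂, u₂, a₂, b₂, c₂, d₂⟩ := R 0 (n / 2 - 2) 1 (β * δ) (by rw [Nat.even_iff]; omega) 3 (by simp [m3]) (by decide)
  have e₁ := c₁.dim
  have e₂ := c₂.dim
  rw [dimD_UN, m3_sum] at e₁ e₂
  obtain ⟨u, hu, s⟩ := Cls.transport (κ := quadCls F) hQ (osum_nondeg a₁ a₂) (by rw [finrank_prod]; omega)
    (by rw [(quadCls F).mul a₁ a₂, d₁, d₂, ← mul_assoc, uu, one_mul, hδ]) (osum_isom b₁ b₂)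
  have h : JD u (UN (AlgebraicClosure F) (m3 1 (n / 2 - 2) 1)) := by
    rw [show m3 1 (n / 2 - 2) 1 = m3 1 0 0 + m3 0 (n / 2 - 2) 1 by simp [m3, add_assoc], UN_add]
    exact (c₁.prod c₂).of_sim (fsim_sim s)
  have U := fun {γ γ'} => fl_uniq (γ := γ) (γ' := γ') h2 hQ hu h (by simp [m3_count])
  obtain ⟨B, f, i⟩ := fsim_nd (κ := quadCls F) a₁ s
  obtain ⟨ν, ν', g, j, -⟩ := nd_un hQ hu h f.1 i
  obtain ⟨x₁, _, y₁, _, z₁, _, rfl, -, -⟩ := m3_split g
  have := j.dim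
  rw [f.2.1, e₁, dimD_UN, m3_sum] at this
  obtain ⟨rfl, rfl, rfl⟩ : x₁ = 1 ∧ y₁ = 0 ∧ z₁ = 0 := by omega
  have L := fl_of h2 hQ hu h f i j
  rw [d₁, pow_zero, mul_one] at L
  obtain ⟨A, i, f, ν, ν', g, s, j, k⟩ := om_un h2 hQ hn hδ m0 l H h hu fun k hk => (mem_m3 hk).2.trans p3
  obtain ⟨a₁, a₂, b₁, b₂, c₁, c₂, rfl, rfl, g⟩ := m3_split g
  have e1 := gd_m3.1 (un_quad_even h2 f.nd (isom_res hu i) j)
  have e2 := gd_m3.1 (un_quad_even h2 (f.perp hQ).nd (isom_res hu _) k)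
  have sq : ∀ b, Even b → qsign (-1 : F) ^ b = 1 := fun b hb => by obtain ⟨b, rfl⟩ := hb; rw [pow_add, uu]
  have ne : ∀ γ : ℤˣ, -γ ≠ γ := by decide
  rw [m3_sum] at s
  by_cases m4 : m % 4 = 1
  · obtain ⟨rfl, rfl⟩ : a₁ = 1 ∧ c₁ = 0 := by rw [Nat.even_iff] at e1; omega
    exact ne γ (by simpa [β, m4, sq _ e1] using U L (fl_of h2 hQ hu h f i j))
  · obtain ⟨rfl, rfl⟩ : a₂ = 1 ∧ c₂ = 0 := by rw [Nat.even_iff] at e1; omega
    exact ne (γ * δ) (by simpa [β, m4, sq _ e2, hδ] using U L (fl_of h2 hQ hu h (f.perp hQ) _ k))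

end H25.El
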