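import Cfsg.Agent.H25.El18
import Cfsg.Agent.H22.PGc
import Cfsg.Agent.H27.Spec15

/-! Elusive actions, XIX: conjugating elements of `SL` into subgroups. -/

set_option autoImplicit false

namespace H25.El

open Module Polynomial Function H22 H27.Sp H12 H12.CForm Pointwise

universe u

section Num

theorem sym3 : ∀ a b c : ZMod 3, a + (b + c) = 0 → ∃ m, ({a, b, c} : Multiset _).map (m - ·) = {a, b, c} := by decide

theorem sym5 : ∀ a b c d e : ZMod 5, a + (b + (c + (d + e))) = 0 →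
    ∃ m, ({a, b, c, d, e} : Multiset _).map (m - ·) = {a, b, c, d, e} := by decide +kernel

theorem sym35 {r : ℕ} (h : r = 3 ∨ r = 5) {M : Multiset (ZMod r)} (h1 : M.card = r) (h2 : M.sum = 0) :
    ∃ m, M.map (m - ·) = M := by
  induction M using Quotient.inductionOn with | _ l => ?_
  rcases h with rfl | rfl
  · match l, h1 with | [a, b, c], _ => exact sym3 a b c (by simpa using h2)
  · match l, h1 with | [a, b, c, d, e], _ => exact sym5 a b c d e (by simpa using h2)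

theorem cancel_prod {r a b A B : ℕ} (h : r * (a * A) ∣ b * (A * B)) (hA : A ≠ 0) : r ∣ b * B :=
  (Dvd.intro a rfl).trans (Nat.dvd_of_mul_dvd_mul_right (Nat.pos_of_ne_zero hA) (by convert h using 1 <;> ring))

theorem prod_split (f : ℕ → ℕ) (m : ℕ) : ∏ i ∈ Finset.range (2 * m), f i =
    (∏ i ∈ Finset.range m, f (2 * i + 1)) * ∏ i ∈ Finset.range m, f (2 * i) := by
  induction m with
  | zero => simp
  | succ m ih => rw [mul_add, mul_one, Finset.prod_range_succ, Finset.prod_range_succ, ih, Finset.prod_range_succ,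
      Finset.prod_range_succ]; ring

theorem cast_pow_sub {r q i : ℕ} (hq : 0 < q) (h : r ∣ q ^ i - 1) : (q : ZMod r) ^ i = 1 := by
  have := (ZMod.natCast_eq_zero_iff _ _).2 h
  rwa [Nat.cast_sub (Nat.one_le_pow _ _ hq), Nat.cast_pow, Nat.cast_one, sub_eq_zero] at this

end Num

variable {F : Type u} {K : Type*} [Field F] [Field K] [Algebra F K] {V W : Type u} [AddCommGroup V] [Module F V]
  [AddCommGroup W] [Module F W] {u : End F V} {v : End F W} {E : Multiset K} {n r p : ℕ} {μ : Multiset ℕ}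
  {ι : Type} [Fintype ι] [DecidableEq ι] {H I : Subgroup (GL ι F)} {P : End F V → Prop} {Q : ℤ} {z : F}

/-- similar to an element of `H` -/
def SI (H : Subgroup (GL ι F)) (u : End F V) : Prop := ∃ h ∈ H, Sim (glE h) u

/-- `SL`-conjugate into `H` -/
def CJ (H : Subgroup (GL ι F)) (u : End F (ι → F)) : Prop :=
  ∃ g : GL ι F, g.1.det = 1 ∧ ∃ h ∈ H, u * glE g = glE g * glE h

/-- the centralizer has all determinants -/
def CD (u : End F V) : Prop := ∀ c : F, ∃ y : End F V, y * u = u * y ∧ LinearMap.det y = c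

abbrev SLp (F V : Type*) [Field F] [AddCommGroup V] [Module F V] (u : End F V) : Prop := LinearMap.det u = 1

theorem cj_gl (x : GL ι F) : CJ H (glE x) ↔ ∃ g ∈ Cfsg.Geo.specialLinear ι F, g⁻¹ * x * g ∈ H :=
  exists_congr fun g => and_congr (by simp [Cfsg.Geo.specialLinear, Units.ext_iff])
    ⟨fun ⟨h, a, b⟩ => by rw [← map_mul, ← map_mul, glE_injective.eq_iff, ← inv_mul_eq_iff_eq_mul, ← mul_assoc] at b
                         exact b ▸ a, fun h => ⟨_, h, by simp [← map_mul, mul_assoc]⟩⟩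

theorem gl_cj [Finite F] : (∀ x ∈ Cfsg.Geo.specialLinear ι F, (∃ z : F, ((x ^ r : GL ι F) : Matrix ι ι F) = z • (1 : Matrix ι ι F)) →
    (∀ z : F, (x : Matrix ι ι F) ≠ z • (1 : Matrix ι ι F)) → ∃ g ∈ Cfsg.Geo.specialLinear ι F, g⁻¹ * x * g ∈ H) ↔
      Lhs (SLp F _) r (CJ H) := by
  simp only [← cj_gl, glE_eq]
  refine lhs_iff (fun x : GL ι F => x.1) (by simp) _ _ _ fun u => ⟨fun h => ?_, ?_⟩
  · obtain ⟨g, rfl⟩ := exists_glE (det_unit u h)
    exact ⟨g, by simpa [Cfsg.Geo.specialLinear, Units.ext_iff, det_glE, SLp] using h, rfl⟩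
  · rintro ⟨x, a, rfl⟩
    simpa [Cfsg.Geo.specialLinear, Units.ext_iff, SLp] using a

theorem cj_sl (x : Matrix.SpecialLinearGroup ι F) : (∃ P : Matrix.SpecialLinearGroup ι F,
    P⁻¹ * x * P ∈ H.comap (Matrix.SpecialLinearGroup.toGL : _ →* GL ι F)) ↔ CJ H (Matrix.toLin' x.1) := by
  refine .trans ⟨fun ⟨P, h⟩ => ⟨P.toGL, ?_, by simpa using h⟩, fun ⟨g, a, b⟩ => ?_⟩ (cj_gl x.toGL).symm
  · exact range_toGL.le ⟨P, rfl⟩
  · obtain ⟨P, rfl⟩ := range_toGL.ge a
    exact ⟨P, by simpa using b⟩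

theorem sl_cj [Finite F] : (∀ x : Matrix.SpecialLinearGroup ι F, (∃ c : F, ((x ^ r : Matrix.SpecialLinearGroup ι F) : Matrix ι ι F) =
      c • (1 : Matrix ι ι F)) → (∀ c : F, (x : Matrix ι ι F) ≠ c • (1 : Matrix ι ι F)) → ∃ P : Matrix.SpecialLinearGroup ι F,
    P⁻¹ * x * P ∈ H.comap (Matrix.SpecialLinearGroup.toGL : _ →* GL ι F)) ↔ Lhs (SLp F _) r (CJ H) := by
  simp only [cj_sl]; exact sl_lhs _

theorem idx_sl : (H.comap (Matrix.SpecialLinearGroup.toGL : _ →* GL ι F)).index = H.relIndex (Cfsg.Geo.specialLinear ι F) := by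
  rw [Subgroup.index_comap, range_toGL]; rfl

theorem sim_of_mul {u v : End F (ι → F)} (g : GL ι F) (h : u * glE g = glE g * v) : Sim v u :=
  ⟨glEquiv ι F g, fun x => (LinearMap.congr_fun h x).symm⟩

theorem CJ.si {u : End F (ι → F)} (h : CJ H u) : SI H u := let ⟨g, _, h, a, b⟩ := h; ⟨h, a, sim_of_mul g b⟩

theorem sim_mul {u v : End F (ι → F)} (h : Sim v u) : ∃ g : GL ι F, u * glE g = glE g * v := by
  obtain ⟨e, he⟩ := h
  obtain ⟨g, hg⟩ := exists_glE (A := e.toLinearMap) ((LinearMap.isUnit_iff_isUnit_det _).2 e.isUnit_det')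
  exact ⟨g, hg ▸ LinearMap.ext fun x => (he x).symm⟩

theorem cj_of {u : End F (ι → F)} {h g : GL ι F} (hH : h ∈ H) (e : u * glE g = glE g * glE h) {y : End F (ι → F)}
    (hy : y * u = u * y) {k : GL ι F} (hk : k ∈ H) (d : LinearMap.det y * g.1.det * k.1.det = 1) : CJ H u := by
  obtain ⟨y, rfl⟩ := exists_glE ((LinearMap.isUnit_iff_isUnit_det y).2 (.of_mul_eq_one _ ((mul_assoc _ _ _).symm.trans d)))
  refine ⟨y * g * k, by simpa [det_glE] using d, k⁻¹ * h * k, H.mul_mem (H.mul_mem (H.inv_mem hk) hH) hk, ?_⟩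
  rw [← map_mul, show y * g * k * (k⁻¹ * h * k) = y * (g * h) * k by group]
  rw [map_mul, map_mul, map_mul, map_mul, map_mul, ← e, ← mul_assoc, ← mul_assoc, ← hy, mul_assoc (glE y) u]

theorem SI.cj {u : End F (ι → F)} (h : SI H u) (c : CD u) : CJ H u := by
  obtain ⟨h, a, b⟩ := h
  obtain ⟨g, e⟩ := sim_mul b
  obtain ⟨y, c, d⟩ := c g.1.det⁻¹
  exact cj_of a e c H.one_mem (by simp [d, g.det_ne_zero])

theorem SI.sim (h : SI H u) (e : Sim u v) : SI H v := let ⟨g, a, b⟩ := h; ⟨g, a, b.trans e⟩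

theorem sim_smul (h : Sim u v) (c : F) : Sim (c • u) (c • v) := let ⟨e, h⟩ := h; ⟨e, fun x => by simp [h]⟩

theorem SI.smul (hH : Cfsg.Geo.scalars ι F ≤ H) (u : End F V) (c : F) (hc : c ≠ 0) (h : SI H (c • u)) : SI H u := by
  obtain ⟨g, a, b⟩ := h
  obtain ⟨k, hk⟩ : ∃ k ∈ Cfsg.Geo.scalars ι F, k.1 = c⁻¹ • 1 := ⟨_, ⟨(Units.mk0 c hc)⁻¹, rfl⟩, by simp [Matrix.smul_one_eq_diagonal]⟩
  refine ⟨k * g, H.mul_mem (hH hk.1) a, ?_⟩
  have := sim_smul b c⁻¹
  rw [smul_smul, inv_mul_cancel₀ hc, one_smul] at this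
  convert this using 1
  simp [glE_eq, hk.2]

theorem CD.smul {c : F} (h : CD u) : CD (c • u) := fun d => let ⟨y, a, b⟩ := h d; ⟨y, by simp [a], b⟩

theorem idx_dvd [Finite F] {M : ℕ} (h : I ≤ H) (hM : ∀ g ∈ I, g.1.det ^ M = 1)
    (hr : r ∣ H.relIndex (Cfsg.Geo.specialLinear ι F)) [Nonempty ι] :
    r * (Nat.card I * (Nat.card F - 1)) ∣ M * Nat.card (GL ι F) := by
  let δ : GL ι F →* Fˣ := Matrix.GeneralLinearGroup.det
  have h1 := δ.ker.index_mul_card
  rw [Subgroup.index_ker, MonoidHom.range_eq_top.2 Matrix.GeneralLinearGroup.det_surjective, Subgroup.card_top,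
    Nat.card_units] at h1
  have h2 := (δ.ker.subgroupOf I).index_mul_card
  have h3 : (δ.ker.subgroupOf I).index ∣ M := by
    rw [← Subgroup.relIndex, Subgroup.relIndex_ker, ← IsCyclic.exponent_eq_card]
    refine Monoid.exponent_dvd_of_forall_pow_eq_one fun ⟨_, g, a, rfl⟩ => Subtype.ext (Units.ext ?_)
    simpa [δ] using hM g a
  have h4 := (I.subgroupOf δ.ker).index_mul_card
  have h5 : Nat.card (I.subgroupOf δ.ker) = Nat.card (δ.ker.subgroupOf I) := by
    rw [← Subgroup.inf_subgroupOf_right, ← Subgroup.inf_subgroupOf_left δ.ker,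
      Nat.card_congr (Subgroup.subgroupOfEquivOfLe inf_le_right).toEquiv,
      Nat.card_congr (Subgroup.subgroupOfEquivOfLe inf_le_left).toEquiv]
  obtain ⟨a, ha⟩ := hr.trans (Subgroup.relIndex_dvd_of_le_left _ h)
  obtain ⟨b, rfl⟩ := h3
  exact ⟨a * b, by rw [← h1, ← h4, ← h2, h5, show (I.subgroupOf δ.ker).index = r * a from ha]; ring⟩

theorem card_gl_n [Finite F] : ∃ N, Nat.card (GL (Fin n) F) =
    Nat.card F ^ N * ∏ i ∈ Finset.range n, (Nat.card F ^ (i + 1) - 1) := by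
  haveI := Fintype.ofFinite F
  exact ⟨∑ i ∈ Finset.range n, i, by rw [card_gl', Nat.card_eq_fintype_card, ← Finset.Ico_add_one_right_eq_Icc, Finset.prod_Ico_eq_prod_range]; simp [add_comm]⟩

variable [Finite F] [FiniteDimensional F V] [FiniteDimensional F W] [Fact r.Prime]

theorem dvd_prod_of {N : ℕ} {f : ℕ → ℕ} (hr : (r : F) ≠ 0) (h : r ∣ Nat.card F ^ N * ∏ i ∈ Finset.range n, f i) :
    ∃ i < n, r ∣ f i := by
  have hp : r.Prime := Fact.out
  rcases hp.dvd_mul.1 h with h | h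
  · obtain ⟨p, _⟩ := CharP.exists F
    haveI := Fintype.ofFinite F
    obtain ⟨k, a, b⟩ := FiniteField.card F p
    rw [Nat.card_eq_fintype_card, b] at h
    obtain rfl := (Nat.prime_dvd_prime_iff_eq hp a).1 (hp.dvd_of_dvd_pow (hp.dvd_of_dvd_pow h))
    exact absurd (CharP.cast_eq_zero F r) hr
  · simpa using (Prime.dvd_finset_prod_iff hp.prime _).1 h

theorem ord_le (hr : (r : F) ≠ 0) (h : r ∣ Nat.card (GL (Fin n) F)) : orderOf (Nat.card F : ZMod r) ≤ n := by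
  obtain ⟨N, e⟩ := card_gl_n (F := F) (n := n)
  obtain ⟨i, a, b⟩ := dvd_prod_of hr (e ▸ h)
  exact (orderOf_le_of_pow_eq_one i.succ_pos (cast_pow_sub Nat.card_pos b)).trans a

theorem cd_ss [Nontrivial V] (hr : (r : F) ≠ 0) (hz : z ≠ 0) (h : u ^ r = algebraMap F _ z) : CD u := fun c => by
  obtain ⟨s, a, b⟩ := exists_powType Fact.out hr hz h
  obtain ⟨f, hf⟩ := Multiset.exists_mem_of_ne_zero (s := s) (by
    rintro rfl; simpa [kd, finrank_pos.ne'] using b 0)
  exact b.exists_comm_det (fun f hf => (a f hf).1.ne_zero) hf (a f hf).2.1 c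

variable [Algebra.IsAlgebraic F K] [IsAlgClosed K]

theorem un_comm {k : ℕ} (h : JD u (UN K μ)) (hk : k ∈ μ) (c : F) :
    ∃ y : End F V, y * u = u * y ∧ LinearMap.det y = c ^ k := by
  obtain ⟨t, d, J, -, rfl⟩ := jd_jb h
  obtain ⟨i, -, rfl⟩ := Multiset.mem_map.1 hk
  simpa only [comm_sub_one] using J.exists_comm_det i c

theorem cd_un [Fact p.Prime] [CharP F p] (h : JD u (UN K μ)) (hk : 1 ∈ μ ∨ p ∈ μ) : CD u := fun c => by
  rcases hk with hk | hk
  · simpa using un_comm h hk c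
  · obtain ⟨c, rfl⟩ := surjective_frobenius F p c
    exact un_comm h hk c

theorem lhs_si [Fact p.Prime] [CharP F p] (hr : r = 2 ∨ r ≠ p) : Lhs (SLp F _) r (CJ H) ↔ Lhs (SLp F (ι → F)) r (SI H) := by
  refine ⟨fun h u a b c => (h u a b c).si, fun h u a b c => (h u a b c).cj ?_⟩
  haveI := nontriv c
  obtain ⟨z, b⟩ := b
  have z0 := scal_ne det_unit a b c
  refine (eq_or_ne r p).elim (fun e => ?_) fun e => cd_ss (cast_ne e) z0 b
  obtain rfl := hr.resolve_right (not_not.2 e)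
  subst e
  obtain ⟨w, rfl⟩ := surjective_frobenius F 2 z
  have w0 : w ≠ 0 := ne0 rfl z0
  obtain ⟨μ, h4, h5⟩ := exists_un_of_pow (K := AlgebraicClosure F) (smul_pow_one w0 b)
  obtain ⟨k, hk⟩ := Multiset.exists_mem_of_ne_zero (s := μ) (by rintro rfl; exact (finrank_pos (R := F) (M := ι → F)).ne' (by simpa using h4.dim))
  have := (cd_un (p := 2) h4 (by have := h5 k hk; obtain rfl | rfl : k = 1 ∨ k = 2 := by omega
                                 exacts [.inl hk, .inr hk])).smul (c := w)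
  rwa [smul_smul, mul_inv_cancel₀ w0, one_smul] at this

omit [Algebra.IsAlgebraic F K] [IsAlgClosed K] in
theorem root_val {w : F} (hw : w ≠ 0) (n0 : n ≠ 0) (h : padicValNat r (Nat.card F - 1) ≤ padicValNat r n)
    (h1 : (w ^ n) ^ r = 1) : w ^ n = 1 := by
  rw [← pow_mul, ← orderOf_dvd_iff_pow_eq_one] at h1
  have h2 := orderOf_dvd_of_pow_eq_one (pow_card_sub hw)
  have := (padicValNat_dvd_iff_le (p := r) (card_sub_ne F)).1 (pow_padicValNat_dvd.trans h2)
  have e := val_div (r := r) (Dvd.intro_left n rfl) (mul_ne_zero n0 (Fact.out : r.Prime).ne_zero)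
  have := dvd_div_of_val (r := r) (mul_ne_zero n0 (Fact.out : r.Prime).ne_zero) h1
  rw [Nat.mul_div_cancel _ (Fact.out : r.Prime).pos] at e this
  exact orderOf_dvd_iff_pow_eq_one.1 (this (by omega))

omit [Algebra.IsAlgebraic F K] [IsAlgClosed K] in
theorem exists_root_val (n0 : n ≠ 0) (h : padicValNat r n < padicValNat r (Nat.card F - 1)) (h1 : z ^ r = 1) :
    ∃ w : F, w ^ n = z := by
  obtain ⟨g, hg⟩ := exists_root_of_order (F := F) (d := r ^ (padicValNat r n + 1))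
    ((padicValNat_dvd_iff_le (card_sub_ne F)).2 h)
  have o : orderOf (g ^ n) = r := by
    have hp : r.Prime := Fact.out
    obtain ⟨j, a, b⟩ := (Nat.dvd_prime_pow hp).1 (Nat.gcd_dvd_left (r ^ (padicValNat r n + 1)) n)
    have c := (padicValNat_dvd_iff_le n0).1 (b ▸ Nat.gcd_dvd_right _ n : r ^ j ∣ n)
    have d := (Nat.pow_dvd_pow_iff_le_right hp.one_lt).1 (b ▸ Nat.dvd_gcd (pow_dvd_pow r (Nat.le_succ _)) pow_padicValNat_dvd)
    rw [orderOf_pow' _ n0, hg, b, c.antisymm d, pow_succ', Nat.mul_div_cancel _ (pow_pos hp.pos _)]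
  haveI : NeZero r := ⟨(Fact.out : r.Prime).ne_zero⟩
  obtain ⟨j, -, rfl⟩ := (o ▸ IsPrimitiveRoot.orderOf (g ^ n) : IsPrimitiveRoot _ r).eq_pow_of_pow_eq_one h1
  exact ⟨g ^ j, pow_right_comm _ _ _⟩

theorem Lhs.of_sl' (hr : (r : F) ≠ 0) (hn : finrank F V = n) (hs : ∀ u (c : F), c ≠ 0 → P (c • u) → P u)
    (h1 : ∀ u (E : Multiset K), EV u E → (∀ a ∈ E, a ^ r = 1) → (∀ c, u ≠ algebraMap F _ c) →
      (padicValNat r (Nat.card F - 1) ≤ padicValNat r n → E.prod = 1) → P u)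
    (h2 : ∀ u (z : F) (N : ℕ), z ≠ 0 → r ∣ Nat.card F - 1 → z ^ ((Nat.card F - 1) / r) ≠ 1 →
      EV u (N • rt r (algebraMap F K z)) → n = r * N → ((-1) ^ (r + 1) * z) ^ N = 1 → P u) : Lhs (SLp F V) r P := by
  intro u a b c
  refine Lhs.of_sl (K := K) (P := fun u => (∃ w : F, w ≠ 0 ∧ SLp F V (w • u)) → (∀ c, u ≠ algebraMap F _ c) → P u) hr
    (fun u c c0 H ⟨w, w0, a⟩ b => hs u c c0 (H ⟨w / c, by simp [*], by rwa [smul_smul, div_mul_cancel₀ _ c0]⟩
      fun d e => b (d / c) ?_)) (fun u E a b ⟨w, w0, d⟩ e => h1 u E a b e fun l => ?_)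
    (fun u z N a b c d e f _ _ => h2 u z N a b c d (hn ▸ e) f) u a b c ⟨1, one_ne_zero, by simpa⟩ c
  · rw [div_eq_inv_mul, map_mul, ← e, ← Algebra.smul_def, smul_smul, inv_mul_cancel₀ c0, one_smul]
  · haveI := nontriv e
    rw [SLp, LinearMap.det_smul, hn] at d
    have k : LinearMap.det u ^ r = 1 := by rw [← map_pow, (a.pow_one_iff (Fact.out : r.Prime).ne_zero).2 b, map_one]
    rw [root_val w0 (hn ▸ finrank_pos.ne') l (by simpa [mul_pow, k] using congrArg (· ^ r) d), one_mul] at d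
    rw [← a.det, d, map_one]

theorem Lhs.test (h : Lhs (SLp F V) r P) (hs : ∀ u (c : F), c ≠ 0 → P (c • u) → P u) (h1 : E.map (fr F) = E)
    (h2 : finrank F V = E.card) (h3 : ∀ a ∈ E, a ^ r = 1) (h4 : ∀ c, ∃ a ∈ E, a ≠ algebraMap F K c)
    (h5 : padicValNat r E.card < padicValNat r (Nat.card F - 1) ∨ E.prod = 1) : ∃ u, EV u E ∧ u ^ r = 1 ∧ P u := by
  obtain ⟨u, hu⟩ := exists_of_ev h1 h2
  have u1 := (hu.pow_one_iff (Fact.out : r.Prime).ne_zero).2 h3
  obtain ⟨w, hw⟩ : ∃ w : F, w ^ E.card = (LinearMap.det u)⁻¹ := h5.elim (fun l => exists_root_val (by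
      rintro e; simpa [Multiset.card_eq_zero.1 e] using h4 0) l (by rw [inv_pow, ← map_pow, u1]; simp))
    fun e => ⟨1, by rw [(algebraMap F K).injective (hu.det.trans (e.trans (map_one _).symm))]; simp⟩
  have d0 : LinearMap.det u ≠ 0 := ((LinearMap.isUnit_iff_isUnit_det u).1 (unit_of_pow u1)).ne_zero
  have w0 : w ≠ 0 := by
    rintro rfl
    rw [zero_pow (by rintro e; simpa [Multiset.card_eq_zero.1 e] using h4 0)] at hw
    exact d0 (by simpa using hw.symm)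
  refine ⟨u, hu, u1, hs u w w0 (h _ (by rw [SLp, LinearMap.det_smul, h2, hw, inv_mul_cancel₀ d0])
    ⟨w ^ r, by rw [_root_.smul_pow, u1, Algebra.algebraMap_eq_smul_one]⟩ fun c e => ?_)⟩
  obtain ⟨a, ha, e'⟩ := h4 (w⁻¹ * c)
  refine e' ((hu.scalar_iff _).1 ?_ a ha)
  rw [map_mul, ← e, ← Algebra.smul_def, smul_smul, inv_mul_cancel₀ w0, one_smul]

end H25.El
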