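import Cfsg.Agent.H25.El1

/-! Elusive actions, II: periods of roots, liftable and non-liftable elements. -/

set_option autoImplicit false

namespace H25.El

open Module Polynomial Function H22 H27.Sp

theorem per_eq {X : Type*} {φ : X → X} {a : X} {d : ℕ} (h : ∀ n, φ^[n] a = a ↔ d ∣ n) :
    minimalPeriod φ a = d :=
  Nat.dvd_antisymm (isPeriodicPt_iff_minimalPeriod_dvd.1 ((h d).2 dvd_rfl))
    ((h _).1 (iterate_minimalPeriod (f := φ) (x := a)))

section Num

theorem sub_exists {a N c n m : ℕ} (h : a + c * N = n) (hm : m ≤ n) (hk : m % c ≤ n % c) :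
    ∃ a₁ ≤ a, ∃ N₁ ≤ N, m = a₁ + c * N₁ := by
  have h1 : n % c ≤ a := by rw [← h, Nat.add_mul_mod_self_left]; exact Nat.mod_le _ _
  by_cases h2 : m / c ≤ N
  · exact ⟨m % c, hk.trans h1, _, h2, (Nat.mod_add_div m c).symm⟩
  · have := Nat.mul_le_mul_left c (not_le.1 h2).le
    have := Nat.mul_div_le m c
    exact ⟨m - c * N, by omega, N, le_rfl, by omega⟩

theorem mod_of_lt {a N c m : ℕ} (h : m = a + c * N) (ha : a < c) : m % c = a ∧ m / c = N := by
  subst h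
  exact ⟨by rw [Nat.add_mul_mod_self_left, Nat.mod_eq_of_lt ha],
    by rw [Nat.add_mul_div_left _ _ (by omega), Nat.div_eq_of_lt ha, zero_add]⟩

theorem val_div {r n : ℕ} [Fact r.Prime] (h : r ∣ n) (hn : n ≠ 0) :
    padicValNat r (n / r) + 1 = padicValNat r n := by
  rw [padicValNat.div h]
  have := one_le_padicValNat_of_dvd hn h
  omega

theorem dvd_div_of_val {r M d : ℕ} [Fact r.Prime] (hM : M ≠ 0) (h : d ∣ M)
    (h' : padicValNat r d < padicValNat r M) : d ∣ M / r := by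
  obtain ⟨e, rfl⟩ := h
  have d0 := left_ne_zero_of_mul hM
  have e0 := right_ne_zero_of_mul hM
  rw [padicValNat.mul d0 e0] at h'
  obtain ⟨f, rfl⟩ : r ∣ e := dvd_of_one_le_padicValNat (by omega)
  rw [mul_left_comm, Nat.mul_div_cancel_left _ (Fact.out : r.Prime).pos]
  exact dvd_mul_right _ _

end Num

variable {F K : Type*} [Field F] [Field K] {r : ℕ} [hr : Fact r.Prime] {Q : ℤ}

theorem zpow_one_iff {a : K} (h : a ^ r = 1) (h1 : a ≠ 1) (l : ℤ) : a ^ l = 1 ↔ (r : ℤ) ∣ l := by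
  have := IsPrimitiveRoot.orderOf a
  rw [orderOf_eq_prime h h1] at this
  exact this.zpow_eq_one_iff_dvd l

theorem ne0 {a c : K} (h : a ^ r = c) (hc : c ≠ 0) : a ≠ 0 := by
  rintro rfl; rw [zero_pow hr.out.ne_zero] at h; exact hc h.symm

theorem per_root {a : K} (h : a ^ r = 1) (h1 : a ≠ 1) (Q : ℤ) :
    minimalPeriod (· ^ Q) a = orderOf (Q : ZMod r) :=
  per_eq fun n => by rw [zp_iter, fix_iff (ne0 h one_ne_zero), zpow_one_iff h h1, dvd_iff_ord]

theorem per_nl {a : K} (hQ : (r : ℤ) ∣ Q - 1) (ha : a ≠ 0) (h : (a ^ (Q - 1)) ^ r = 1) (h1 : a ^ Q ≠ a) :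
    minimalPeriod (· ^ Q) a = r :=
  per_eq fun n => by
    rw [zp_iter, fix_iff ha, ← gs_mul, mul_comm, zpow_mul, zpow_one_iff h (mt (fix_iff ha).2 h1),
      ← Int.natCast_dvd_natCast, ← Int.dvd_iff_dvd_of_dvd_sub (hQ.trans (gs_sub Q n))]

omit hr in
theorem exists_root_of_order [Finite F] {d : ℕ} (h : d ∣ Nat.card F - 1) : ∃ z : F, orderOf z = d := by
  have := Fintype.ofFinite F
  obtain ⟨u, h, -⟩ := H11.exists_orderOf_eq F (d := d) (by rwa [← Nat.card_eq_fintype_card])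
  exact ⟨u, by rw [orderOf_units, h]⟩

theorem card_sub_ne (F : Type*) [Field F] [Finite F] : Nat.card F - 1 ≠ 0 := by
  have := Finite.one_lt_card (α := F); omega

theorem exists_pow_of [Finite F] {M : ℕ} (hM : M ∣ Nat.card F - 1) {z : F} (hz : z ^ M = 1)
    (h : ¬ r ∣ M ∨ z ^ (M / r) = 1) : ∃ w : F, w ^ M = 1 ∧ w ^ r = z := by
  have M0 : M ≠ 0 := ne_zero_of_dvd_ne_zero (card_sub_ne F) hM
  obtain ⟨g, hg⟩ := exists_root_of_order hM
  have pg : IsPrimitiveRoot g M := hg ▸ IsPrimitiveRoot.orderOf g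
  haveI : NeZero M := ⟨M0⟩
  obtain ⟨j, -, rfl⟩ := pg.eq_pow_of_pow_eq_one hz
  have g1 : ∀ k, (g ^ k) ^ M = 1 := fun k => by rw [pow_right_comm, pg.pow_eq_one, one_pow]
  by_cases hd : r ∣ M
  · have h := h.resolve_left (not_not.2 hd)
    rw [← pow_mul, pg.pow_eq_one_iff_dvd] at h
    obtain ⟨e, rfl⟩ := hd
    rw [Nat.mul_div_cancel_left _ hr.out.pos] at h
    obtain ⟨k, rfl⟩ := Nat.dvd_of_mul_dvd_mul_right (Nat.pos_of_ne_zero (right_ne_zero_of_mul M0)) h
    exact ⟨g ^ k, g1 k, by rw [← pow_mul, mul_comm]⟩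
  · obtain ⟨k, hk⟩ := exists_pow_eq_self_of_coprime (x := g) (n := r)
      (by rw [hg]; exact (Nat.Prime.coprime_iff_not_dvd hr.out).2 hd)
    exact ⟨(g ^ k) ^ j, by rw [← pow_mul g]; exact g1 _, by
      rw [pow_right_comm, pow_right_comm g, hk]⟩

theorem nl_iff [Finite F] {M N : ℕ} (hM : M ∣ Nat.card F - 1) (h : r ∣ M) (hN : N ≠ 0) :
    (∃ z : F, z ^ M = 1 ∧ z ^ (M / r) ≠ 1 ∧ ((-1) ^ (r + 1) * z) ^ N = 1) ↔
      padicValNat r M ≤ padicValNat r N ∨ r = 2 ∧ ¬ 4 ∣ M := by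
  have M0 : M ≠ 0 := ne_zero_of_dvd_ne_zero (card_sub_ne F) hM
  have key : (∃ z : F, z ^ M = 1 ∧ z ^ (M / r) ≠ 1 ∧ z ^ N = 1) ↔ padicValNat r M ≤ padicValNat r N := by
    constructor
    · rintro ⟨z, h1, h2, h3⟩
      rw [ne_eq, ← orderOf_dvd_iff_pow_eq_one] at *
      by_contra! H
      have : padicValNat r (orderOf z) ≤ padicValNat r N :=
        (padicValNat_dvd_iff_le hN).1 (pow_padicValNat_dvd.trans h3)
      exact h2 (dvd_div_of_val M0 h1 (by omega))
    · intro H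
      obtain ⟨z, hz⟩ := exists_root_of_order (F := F) (d := r ^ padicValNat r M) (pow_padicValNat_dvd.trans hM)
      refine ⟨z, ?_, ?_, ?_⟩ <;> simp only [ne_eq, ← orderOf_dvd_iff_pow_eq_one, hz]
      · exact pow_padicValNat_dvd
      · rw [padicValNat_dvd_iff_le (Nat.div_pos (Nat.le_of_dvd (Nat.pos_of_ne_zero M0) h) hr.out.pos).ne']
        have := val_div h M0; omega
      · exact (padicValNat_dvd_iff_le hN).2 H
  rcases hr.out.eq_two_or_odd' with rfl | ho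
  · obtain ⟨e, rfl⟩ := h
    rw [Nat.mul_div_cancel_left _ two_pos] at *
    rcases Nat.even_or_odd e with he | he
    · rw [or_iff_left (by obtain ⟨k, rfl⟩ := he; simp; omega), ← key]
      constructor <;> rintro ⟨z, h1, h2, h3⟩ <;>
        refine ⟨-z, by rw [← h1, (even_two_mul e).neg_pow], by rwa [he.neg_pow], by
          convert h3 using 2; ring⟩
    · refine iff_of_true ⟨-1, by simp, ?_, by norm_num⟩ (.inr ⟨rfl, by obtain ⟨k, rfl⟩ := he; omega⟩)
      rw [he.neg_one_pow]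
      obtain ⟨z, hz⟩ := exists_root_of_order (F := F) (d := 2) ((dvd_mul_right _ _).trans hM)
      have h1 := pow_orderOf_eq_one z
      rw [hz, sq, mul_self_eq_one_iff] at h1
      intro e
      rw [e, or_self] at h1
      simp [h1] at hz
  · rw [or_iff_left (by rintro ⟨rfl, -⟩; exact absurd ho (by decide)), ← key, ho.add_one.neg_one_pow]
    simp only [one_mul]

/-- the `r`-th roots -/
noncomputable def rt (r : ℕ) (c : K) : Multiset K := nthRoots r c

theorem mem_rt {a c : K} : a ∈ rt r c ↔ a ^ r = c := mem_nthRoots hr.out.pos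

theorem rt_card [IsAlgClosed K] (c : K) : (rt r c).card = r := by
  rw [rt, nthRoots, IsAlgClosed.card_roots_eq_natDegree, natDegree_X_pow_sub_C]

theorem rt_nodup (h : (r : K) ≠ 0) {c : K} (hc : c ≠ 0) : (rt r c).Nodup :=
  nodup_roots (separable_X_pow_sub_C c h hc)

theorem rt_prod [IsAlgClosed K] (c : K) : (rt r c).prod = (-1) ^ (r + 1) * c := by
  have h := (IsAlgClosed.splits (X ^ r - C c : K[X])).coeff_zero_eq_prod_roots_of_monic
    (monic_X_pow_sub_C c hr.out.ne_zero)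
  rw [natDegree_X_pow_sub_C] at h
  simp only [coeff_sub, coeff_X_pow, coeff_C_zero, hr.out.ne_zero.symm, if_false, zero_sub] at h
  rw [rt, nthRoots]
  have e : ((-1 : K) ^ r) * (-1) ^ r = 1 := by rw [← mul_pow]; simp
  linear_combination (-(-1) ^ r) * h - (X ^ r - C c : K[X]).roots.prod * e

theorem rt_st [IsAlgClosed K] (h : (r : K) ≠ 0) {c : K} (hc : c ≠ 0) {φ : K → K} (hφ : Injective φ)
    (h1 : ∀ a, a ^ r = c → φ a ^ r = c) : (rt r c).map φ = rt r c := by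
  refine Multiset.eq_of_le_of_card_le ((Multiset.le_iff_subset ((rt_nodup h hc).map hφ)).2 fun a ha => ?_)
    (by simp)
  obtain ⟨b, hb, rfl⟩ := Multiset.mem_map.1 ha
  exact mem_rt.2 (h1 b (mem_rt.1 hb))

theorem orb_eq_rt [IsAlgClosed K] {c : K} {φ : K → K} (h1 : ∀ a, a ^ r = c → φ a ^ r = c) {a : K}
    (ha : a ^ r = c) (h : minimalPeriod φ a = r) : orb φ r a = rt r c := by
  refine Multiset.eq_of_le_of_card_le ((Multiset.le_iff_subset (h ▸ nodup_orb a)).2 fun b hb => ?_)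
    (by rw [rt_card, card_orb])
  obtain ⟨i, -, rfl⟩ := mem_orb.1 hb
  refine mem_rt.2 ?_
  induction i with
  | zero => exact ha
  | succ i ih => rw [iterate_succ_apply']; exact h1 _ (ih (mem_orb.2 ⟨i % r, Nat.mod_lt _ hr.out.pos, by
      conv_lhs => rw [← h]
      exact iterate_mod_minimalPeriod_eq⟩))

theorem eq_smul_rt [IsAlgClosed K] {c : K} {φ : K → K} (hφ : Injective φ) (h1 : ∀ a, a ^ r = c → φ a ^ r = c)
    (h2 : ∀ a, a ^ r = c → minimalPeriod φ a = r) {E : Multiset K} (h : E.map φ = E)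
    (h3 : ∀ a ∈ E, a ^ r = c) : ∃ N, E = N • rt r c ∧ E.card = r * N := by
  obtain ⟨t, ht, e⟩ := exists_orbs hφ E h
  have : E = t.card • rt r c := by
    rw [e, Multiset.bind_congr (g := fun _ => rt r c) fun a ha => by
      rw [h2 a (h3 a (ht a ha)), orb_eq_rt h1 (h3 a (ht a ha)) (h2 a (h3 a (ht a ha)))]]
    simp [Multiset.bind, Multiset.join]
  exact ⟨_, this, by rw [this, Multiset.card_nsmul, rt_card, mul_comm]⟩

theorem exists_prim_root [IsAlgClosed K] (h : (r : K) ≠ 0) : ∃ ζ : K, ζ ^ r = 1 ∧ ζ ≠ 1 := by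
  obtain ⟨a, ha, b, hb, e⟩ := (Finset.one_lt_card (s := ⟨rt r (1 : K), rt_nodup h one_ne_zero⟩)).1
    (by simpa [rt_card] using hr.out.one_lt)
  by_cases h1 : a = 1
  exacts [⟨b, mem_rt.1 hb, fun h => e (h1.trans h.symm)⟩, ⟨a, mem_rt.1 ha, h1⟩]

variable {E : Multiset K}

theorem pf_roots (hQ : Injective fun a : K => a ^ Q) (h : E.map (· ^ Q) = E) (h1 : ∀ a ∈ E, a ^ r = 1) :
    ∃ a N, Pf (· ^ Q) 1 (orderOf (Q : ZMod r)) E a N :=
  exists_pf hQ (one_zpow Q) h fun x hx e => per_root (h1 x hx) e Q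

/-- the standard data with a single kind of nontrivial orbit -/
def std (Q : ℤ) (c : ℕ) (ζ : K) (a N : ℕ) : Multiset K := .replicate a 1 + N • orb (· ^ Q) c ζ

theorem pf_std (hQ : Injective fun a : K => a ^ Q) {c : ℕ} (hc : c = orderOf (Q : ZMod r)) (c0 : 0 < c)
    {ζ : K} (h : ζ ^ r = 1) (h1 : ζ ≠ 1) (a N : ℕ) : Pf (· ^ Q) 1 c (std Q c ζ a N) a N := by
  simpa [std] using (pf_repl (φ := (· ^ Q)) (one_zpow Q) c a).add
    ((pf_orb hQ (one_zpow Q) h1 (hc ▸ per_root h h1 Q) c0).smul N)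

omit hr in
theorem mem_std {c a N : ℕ} {ζ x : K} (hx : x ∈ std Q c ζ a N) : x = 1 ∨ ∃ i : ℕ, x = ζ ^ Q ^ i := by
  rcases Multiset.mem_add.1 hx with h | h
  · exact .inl (Multiset.eq_of_mem_replicate h)
  · obtain ⟨i, -, e⟩ := mem_orb.1 (Multiset.mem_of_mem_nsmul h)
    exact .inr ⟨i, by rw [← e, zp_iter]⟩

omit hr in
theorem std_pow {c a N : ℕ} {ζ : K} (h : ζ ^ r = 1) : ∀ x ∈ std Q c ζ a N, x ^ r = 1 := fun x hx => by
  rcases mem_std hx with rfl | ⟨i, rfl⟩
  · simp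
  · rw [zpow_comm', h, one_zpow]

omit hr in
theorem prod_pow {n : ℕ} (h : ∀ x ∈ E, x ^ n = 1) : E.prod ^ n = 1 := by
  induction E using Multiset.induction_on with
  | empty => simp
  | cons a E ih =>
    rw [Multiset.prod_cons, mul_pow, h a (by simp), ih fun x hx => h x (by simp [hx]), one_mul]

omit hr in
theorem prod_fix (h : E.map (· ^ Q) = E) : E.prod ^ Q = E.prod := by
  conv_rhs => rw [← h]
  rw [Multiset.prod_map_zpow, Multiset.map_id']

theorem prod_eq_one (h : E.map (· ^ Q) = E) (h1 : ∀ x ∈ E, x ^ r = 1) (hQ : ¬ (r : ℤ) ∣ Q - 1) :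
    E.prod = 1 := by
  by_contra e
  have := prod_pow h1
  exact hQ ((zpow_one_iff this e _).1 ((fix_iff (ne0 this one_ne_zero)).1 (prod_fix h)))

theorem ord_one_iff : orderOf (Q : ZMod r) = 1 ↔ (r : ℤ) ∣ Q - 1 := by
  rw [← Nat.dvd_one, ← dvd_iff_ord, pow_one]

variable [Finite F] [Algebra F K] [Algebra.IsAlgebraic F K]

theorem lift_or {z : F} (hz : z ≠ 0) : (∃ w : F, w ^ r = z) ∨ (r ∣ Nat.card F - 1 ∧
    z ^ ((Nat.card F - 1) / r) ≠ 1 ∧ ∀ a : K, a ^ r = algebraMap F K z → minimalPeriod (fr F) a = r) := by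
  have := Fintype.ofFinite F
  have z1 : z ^ (Nat.card F - 1) = 1 := by
    rw [Nat.card_eq_fintype_card]; exact FiniteField.pow_card_sub_one_eq_one z hz
  by_cases h : ∃ w : F, w ^ r = z
  · exact .inl h
  have : ¬ (¬ r ∣ Nat.card F - 1 ∨ z ^ ((Nat.card F - 1) / r) = 1) := fun H =>
    let ⟨w, _, e⟩ := exists_pow_of dvd_rfl z1 H; h ⟨w, e⟩
  push Not at this
  refine .inr ⟨this.1, this.2, fun a ha => ?_⟩
  have q1 : ((Nat.card F : ℕ) : ℤ) - 1 = ((Nat.card F - 1 : ℕ) : ℤ) := by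
    have := Finite.one_lt_card (α := F); omega
  rw [fr_eq_zpow]
  refine per_nl (by rw [q1]; exact Int.natCast_dvd_natCast.2 this.1) (ne0 ha (by simpa)) ?_ fun e => ?_
  · rw [zpow_comm', ha, q1, zpow_natCast, ← map_pow, z1, map_one]
  · obtain ⟨w, rfl⟩ := exists_alg_of_fr (F := F) (a := a) (by rw [fr_eq_zpow]; exact e)
    exact h ⟨w, (algebraMap F K).injective (by rw [map_pow, ha])⟩

theorem nl_per {z : F} (hz : z ≠ 0) (h : r ∣ Nat.card F - 1) (h1 : z ^ ((Nat.card F - 1) / r) ≠ 1) :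
    ∀ a : K, a ^ r = algebraMap F K z → minimalPeriod (fr F) a = r := by
  refine ((lift_or hz).resolve_left ?_).2.2
  rintro ⟨w, rfl⟩
  have := Fintype.ofFinite F
  rw [← pow_mul, Nat.mul_div_cancel' h, Nat.card_eq_fintype_card] at h1
  exact h1 (FiniteField.pow_card_sub_one_eq_one w (ne0 rfl hz))

omit hr [Algebra.IsAlgebraic F K] in
theorem fr_root {z : F} (a : K) (h : a ^ r = algebraMap F K z) : fr F a ^ r = algebraMap F K z := by
  rw [fr, pow_right_comm, h]; exact fr_alg z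

end H25.El
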