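import Cfsg.Agent.H25.El19

/-! Elusive actions, XX: eigenvalue symmetries. -/

set_option autoImplicit false

namespace H25.El

open Module Polynomial Function H22 H27.Sp H12 H12.CForm Pointwise

universe u

theorem fix_of_repl {X : Type*} {T : X → X} (hT : Injective T) {a : ℕ} {x : X} {E : Multiset X}
    (h : (.replicate a x + E : Multiset X).map T = .replicate a x + E) (l : E.card < a) : T x = x ∧ E.map T = E := by
  classical
  have e : T x = x := by
    by_contra e
    have := Multiset.count_map_eq_count' T (.replicate a x + E) hT x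
    have := Multiset.count_le_card (T x) E
    simp only [h, Multiset.count_add, Multiset.count_replicate, if_neg (Ne.symm e), if_true] at *
    omega
  exact ⟨e, st_right h (st_repl e a)⟩

variable {F : Type u} {K : Type*} [Field F] [Field K] [Algebra F K] {V W : Type u} [AddCommGroup V] [Module F V]
  [AddCommGroup W] [Module F W] {u : End F V} {v : End F W} {E : Multiset K} {n r p : ℕ} {μ : Multiset ℕ}
  {P : End F V → Prop} {Q : ℤ} {z : F}

/-- eigenvalue symmetry -/
def Sy (F : Type*) [Field F] [Algebra F K] (r : ℕ) (Q : ℤ) (E : Multiset K) : Prop :=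
  ∃ l : F, l ^ r = 1 ∧ E.map (fun a => algebraMap F K l * a ^ Q) = E

/-- the data for the tests -/
structure Tst (K : Type*) [Field K] [Algebra F K] (r : ℕ) (Q : ℤ) (P : End F V → Prop) : Prop where
  hr : (r : F) ≠ 0
  inj : Injective fun a : K => a ^ Q
  hs : ∀ u (c : F), c ≠ 0 → P (c • u) → P u
  sy : ∀ u (E : Multiset K), EV u E → u ^ r = 1 → P u → Sy F r Q E

variable [Finite F] [FiniteDimensional F V] [FiniteDimensional F W] [Fact r.Prime]

theorem root_one (h : ¬ r ∣ Nat.card F - 1) (h1 : z ^ r = 1) : z = 1 := by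
  by_contra e
  exact h (orderOf_eq_prime h1 e ▸ orderOf_dvd_of_pow_eq_one (pow_card_sub (ne0 h1 one_ne_zero)))

theorem exists_rootF (h : r ∣ Nat.card F - 1) : ∃ z : F, z ^ r = 1 ∧ z ≠ 1 := by
  obtain ⟨z, e⟩ := exists_root_of_order h
  exact ⟨z, e ▸ pow_orderOf_eq_one z, fun h => (Fact.out : r.Prime).ne_one (by rw [← e, h, orderOf_one])⟩

variable [Algebra.IsAlgebraic F K] [IsAlgClosed K]

theorem fr_st (h : r ∣ Nat.card F - 1) (h1 : ∀ a ∈ E, a ^ r = 1) : E.map (fr F) = E := by
  refine (Multiset.map_congr rfl fun a ha => ?_).trans E.map_id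
  obtain ⟨c, e⟩ := h
  rw [fr, show Nat.card F = r * c + 1 by have := card_sub_ne F; omega, pow_succ, pow_mul, h1 a ha]; simp

theorem std_test (hr : (r : F) ≠ 0) (hs : ∀ u (c : F), c ≠ 0 → P (c • u) → P u) (H : Lhs (SLp F V) r P) {c a N : ℕ}
    (hc : c = orderOf (Nat.card F : ZMod r)) (h1 : c ≠ 1) (hn : finrank F V = a + c * N) (N0 : N ≠ 0) {ζ : K}
    (a1 : ζ ^ r = 1) (a2 : ζ ≠ 1) : ∃ u, EV u (std (Nat.card F) c ζ a N) ∧ u ^ r = 1 ∧ P u := by
  subst hc
  have f := pf_std_fr hr a1 a2 a N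
  exact H.test hs f.st (hn.trans f.card.symm) (std_pow a1) (fun c => ⟨ζ, std_ne N0 (ord_pos hr), not_alg a1 a2 h1 c⟩)
    (.inr (prod_eq_one (fr_eq_zpow (F := F) (K := K) ▸ f.st) (std_pow a1) (mt ord_one_iff.2 (by rwa [ord_cast]))))

namespace Tst

variable (t : Tst K r Q P) (H : Lhs (SLp F V) r P)
include t H

theorem big (h1 : orderOf (Nat.card F : ZMod r) ≠ 1) (h2 : orderOf (Nat.card F : ZMod r) ≤ finrank F V) :
    ∃ j : ℕ, (Nat.card F : ZMod r) ^ j = Q := by
  obtain ⟨ζ, a1, a2⟩ := exists_prim_root (castK K t.hr)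
  obtain ⟨u, a, b, c⟩ := std_test t.hr t.hs H rfl h1 (a := finrank F V - orderOf (Nat.card F : ZMod r)) (N := 1) (by omega)
    one_ne_zero a1 a2
  obtain ⟨l, d, e⟩ := t.sy u _ a b c
  obtain rfl := root_one (mt ord_one_iff'.2 h1) d
  have := Multiset.mem_map_of_mem (fun a => algebraMap F K 1 * a ^ Q) (std_ne (ζ := ζ) (Q := Nat.card F)
    (a := finrank F V - orderOf (Nat.card F : ZMod r)) one_ne_zero (ord_pos t.hr))
  rw [e, map_one, one_mul] at this
  rcases mem_std this with e | ⟨j, e⟩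
  · exact absurd (t.inj (e.trans (one_zpow Q).symm)) a2
  · exact ⟨j, by simpa using (zpow_inj' a1 a2 e).symm⟩

theorem one (h2 : r ≠ 2) (h : r ∣ Nat.card F - 1) (hQ : (Q : ZMod r) ≠ 1) (hn : finrank F V = n)
    (n3 : 3 ≤ n ∨ n = 2 ∧ (Q : ZMod r) ≠ -1) (gap : ¬ (n = 6 ∧ r = 3)) :
    (r = 3 ∨ r = 5) ∧ n = r ∧ padicValNat r (Nat.card F - 1) = 1 := by
  have hp : r.Prime := Fact.out
  obtain ⟨ζ, a1, a2⟩ := exists_prim_root (castK K t.hr)
  have key : ∀ E : Multiset K, n = E.card → (∀ a ∈ E, a ^ r = 1) → 1 ∈ E → ζ ∈ E →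
      (padicValNat r n < padicValNat r (Nat.card F - 1) ∨ E.prod = 1) → ∃ T : K → K, Injective T ∧ E.map T = E ∧
        (T 1 = 1 → T ζ ≠ ζ) ∧ (T 1 = ζ → T ζ = 1 → (Q : ZMod r) = -1) := fun E b1 b2 b3 b4 b5 => by
    obtain ⟨u, a, b, c⟩ := H.test t.hs (fr_st h b2) (hn.trans b1) b2
      (fun c => (eq_or_ne 1 (algebraMap F K c)).elim (fun e => ⟨ζ, b4, e ▸ a2⟩) fun e => ⟨1, b3, e⟩) (b1 ▸ b5)
    obtain ⟨l, d, e⟩ := t.sy u _ a b c
    refine ⟨_, (mul_right_injective₀ (by simpa using ne0 d one_ne_zero)).comp t.inj, e, fun x y => hQ ?_, fun x y => ?_⟩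
    · simp only [Function.comp, one_zpow, mul_one] at x
      simpa using zpow_inj' a1 a2 (m := Q) (m' := 1) (by simpa [x] using y)
    · simp only [Function.comp, one_zpow, mul_one] at x
      simpa using zpow_inj' a1 a2 (m := Q) (m' := -1) (by simpa [x] using eq_inv_of_mul_eq_one_right y)
  rcases lt_or_ge (padicValNat r n) (padicValNat r (Nat.card F - 1)) with l | l
  · obtain ⟨T, i, s, b, c⟩ := key (.replicate (n - 1) 1 + {ζ}) (by simp; omega)
      (by simp +contextual [or_imp, Multiset.mem_replicate, a1]) (by simp [Multiset.mem_replicate]; omega) (by simp) (.inl l)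
    rcases n3 with n3 | ⟨rfl, n3⟩
    · obtain ⟨x, y⟩ := fix_of_repl i s (by simp; omega)
      exact absurd (by simpa using y) (b x)
    · have x := Multiset.mem_map_of_mem T (show 1 ∈ Multiset.replicate (2 - 1) (1 : K) + {ζ} by simp)
      have y := Multiset.mem_map_of_mem T (show ζ ∈ Multiset.replicate (2 - 1) (1 : K) + {ζ} by simp)
      rw [s] at x y
      simp at x y
      have := fun e => a2 (i e)
      grind
  have l1 := (padicValNat_dvd_iff_le (p := r) (card_sub_ne F)).1 ((pow_one r).symm ▸ h)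
  have d : r ∣ n := dvd_of_one_le_padicValNat (l1.trans l)
  rcases le_or_gt n 6 with n6 | n6
  · have := Nat.le_of_dvd (by omega) d
    have := hp.two_le
    obtain ⟨e, rfl⟩ : (r = 3 ∨ r = 5) ∧ n = r := by
      have : r ≠ 4 := by rintro rfl; exact absurd hp (by decide)
      have : r ≠ 6 := by rintro rfl; exact absurd hp (by decide)
      obtain rfl | rfl : r = 3 ∨ r = 5 := by omega
      all_goals omega
    exact ⟨e, rfl, (l.trans (padicValNat_self (p := n)).le).antisymm l1⟩
  · obtain ⟨T, i, s, b, -⟩ := key (.replicate (n - 3) 1 + (.replicate 2 ζ + {(ζ ^ 2)⁻¹})) (by simp; omega)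
      (by simp +contextual [or_imp, Multiset.mem_replicate, a1, pow_right_comm ζ 2]) (by simp [Multiset.mem_replicate]; omega) (by simp)
      (.inr (by simp [ne0 a1 one_ne_zero, sq]))
    obtain ⟨x, y⟩ := fix_of_repl i s (by simp; omega)
    exact absurd (fix_of_repl i y (by simp)).1 (b x)

end Tst

theorem pos_35 (h : r = 3 ∨ r = 5) (hn : finrank F V = r) (hv : padicValNat r (Nat.card F - 1) = 1) (hr : (r : F) ≠ 0)
    (hs : ∀ u (c : F), c ≠ 0 → P (c • u) → P u)
    (H : ∀ u (E : Multiset K), EV u E → (∀ a ∈ E, a ^ r = 1) → E.map (·⁻¹) = E → P u) : Lhs (SLp F V) r P := by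
  have hp : r.Prime := Fact.out
  haveI : NeZero r := ⟨hp.ne_zero⟩
  refine Lhs.of_sl' (K := K) hr hn hs (fun u E a b _ d => ?_) fun u z N a b c _ e f => ?_
  · obtain ⟨ζ, e⟩ := exists_root_of_order (F := F) (dvd_of_one_le_padicValNat hv.ge)
    have z1 : IsPrimitiveRoot (algebraMap F K ζ) r := (e ▸ IsPrimitiveRoot.orderOf ζ).map_of_injective (algebraMap F K).injective
    let ψ := AddChar.zmodChar r z1.pow_eq_one
    obtain ⟨M, rfl⟩ : ∃ M : Multiset (ZMod r), E = M.map ψ := ⟨E.map (invFun ψ), by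
      rw [Multiset.map_map]
      refine E.map_id.symm.trans (Multiset.map_congr rfl fun a ha => (invFun_eq ?_).symm)
      obtain ⟨j, -, rfl⟩ := z1.eq_pow_of_pow_eq_one (b a ha)
      exact ⟨j, AddChar.zmodChar_apply' _ _⟩⟩
    have s : ∀ M : Multiset (ZMod r), (M.map ψ).prod = ψ M.sum := fun M => by
      induction M using Multiset.induction_on <;> simp [*, AddChar.map_add_eq_mul]
    obtain ⟨m, hm⟩ := sym35 h (M := M) (by simpa [hn] using a.dim.symm)
      ((AddChar.IsPrimitive.zmod_char_eq_one_iff _ (AddChar.zmodChar_primitive_of_primitive_root _ z1) _).1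
        (by rw [← s, d (by simp [hv])]))
    have t2 : (2 : ZMod r) ≠ 0 := fun e => by
      have := Nat.le_of_dvd two_pos ((ZMod.natCast_eq_zero_iff 2 r).1 e); omega
    have z0 : ζ ^ (-(m / 2)).val ≠ 0 := pow_ne_zero _ (by simpa using z1.ne_zero hp.ne_zero)
    have k : algebraMap F K (ζ ^ (-(m / 2)).val) = ψ (-(m / 2)) := by rw [map_pow]; rfl
    refine hs u _ z0 (H _ _ (a.smul z0) ?_ ?_)
    · simp only [k, Multiset.mem_map]
      rintro _ ⟨_, ⟨x, -, rfl⟩, rfl⟩
      rw [← AddChar.map_add_eq_mul, ← AddChar.map_nsmul_eq_pow]; simp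
    · conv_rhs => rw [← hm]
      simp only [k, Multiset.map_map, Function.comp, ← AddChar.map_add_eq_mul, ← AddChar.map_neg_eq_inv]
      exact Multiset.map_congr rfl fun x _ => congrArg ψ (by field_simp; ring)
  · obtain rfl : N = 1 := by nlinarith [hp.pos]
    have : Even (r + 1) := by rcases h with rfl | rfl <;> decide
    rw [this.neg_one_pow, one_mul, pow_one] at f
    simp [f] at c

end H25.El
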