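import Cfsg.Agent.H25.El20
import Cfsg.Agent.H12.EA5
import Cfsg.Agent.H22.OrthOut

/-! Elusive actions, XXI: involutions of `SL`, similarity groups of forms. -/

set_option autoImplicit false

namespace H25.El

open Module Polynomial Function H22 H27.Sp H12 H12.CForm Pointwise

universe u

theorem cancel' {R : Type*} [CommSemiring R] [IsCancelMulZero R] {r X Y A B : R} (h : r * X ∣ Y) (hA : A ≠ 0) (hX : A ∣ X)
    (hY : Y = A * B) : r ∣ B :=
  (mul_dvd_mul_iff_left hA).1 (hY ▸ (mul_comm r A ▸ mul_dvd_mul_left r hX).trans h)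

variable {F : Type u} {K : Type*} [Field F] [Field K] [Algebra F K] {V W X : Type u} [AddCommGroup V] [Module F V]
  [AddCommGroup W] [Module F W] [AddCommGroup X] [Module F X] {u : End F V} {v : End F W} {E : Multiset K} {n r p N : ℕ}
  {μ : Multiset ℕ} {P : End F V → Prop} {Q : ℤ} {z c d : F} {T : FormType F} {C : CForm T V} {C' : CForm T X} {θ : K →+* K}

/-- similarity with multiplier `c` -/
def SB (C : CForm T V) (u : End F V) (c : F) : Prop := ∀ x y, C.B (u x) (u y) = c * C.B x y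

/-- similar to a similarity -/
def SS (C : CForm T V) (v : End F W) : Prop := ∃ (u : End F V) (c : F), c ≠ 0 ∧ SB C u c ∧ Sim u v

theorem SS.of (h : C.IsIsomTo C u) (e : Sim u v) : SS C v := ⟨u, 1, one_ne_zero, fun x y => by rw [h.1, one_mul], e⟩

theorem SS.iso (h : SS C' v) (e : C'.Iso C) : SS C v := by
  obtain ⟨u, c, a, b, d⟩ := h
  obtain ⟨e, f, -⟩ := e
  exact ⟨e.conj u, c, a, fun x y => by simp [f, b _, ← f (e.symm x)], .trans ⟨e.symm, by simp⟩ d⟩

theorem SS.smul (v : End F W) (c : F) (hc : c ≠ 0) (h : SS C (c • v)) : SS C v := by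
  obtain ⟨u, d, a, b, e⟩ := h
  refine ⟨c⁻¹ • u, T.σ c⁻¹ * c⁻¹ * d, by simp [*], fun x y => by simp [b x y]; ring, ?_⟩
  simpa [smul_smul, hc] using sim_smul e c⁻¹

theorem SB.pow (h : SB C u c) (n : ℕ) : SB C (u ^ n) (c ^ n) := by
  induction n with
  | zero => simp [SB]
  | succ n ih => intro x y; simp [pow_succ, ih _, h x, mul_assoc]

theorem SB.uniq [Nontrivial V] (hC : C.Nondeg) (h : SB C u c) (h' : SB C u d) : c = d := by
  obtain ⟨x, hx⟩ := exists_ne (0 : V)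
  obtain ⟨y, hy⟩ := not_forall.1 (mt (hC x) hx)
  exact mul_right_cancel₀ hy ((h x y).symm.trans (h' x y))

theorem SB.root [Nontrivial V] (hC : C.Nondeg) (h : SB C u c) (h1 : u ^ r = algebraMap F _ z) : c ^ r = T.σ z * z :=
  (h.pow r).uniq hC fun x y => by simp [h1]; ring

theorem SB.fix [Nontrivial V] (hC : C.Nondeg) (h : SB C u c) : T.σ c = c :=
  SB.uniq hC (fun x y => by rw [C.symm, h, map_mul, C.symm y x]; ring) h

theorem SB.isom (hT : T.τ = 0 ∨ T.κ ≠ 0) (h : SB C u 1) : C.IsIsomTo C u := by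
  refine ⟨fun x y => by rw [h, one_mul], fun x => hT.elim (fun e => ?_) fun e => mul_left_cancel₀ e ?_⟩
  · obtain ⟨a, ha⟩ := C.N_mem x
    obtain ⟨b, hb⟩ := C.N_mem (u x)
    simp [← ha, ← hb, e]
  · rw [← C.B_self, ← C.B_self, h, one_mul]

theorem sim_pow (h : Sim u v) (h1 : v ^ r = algebraMap F _ z) : u ^ r = algebraMap F _ z := by
  simpa [sub_eq_zero] using h.symm.aeval_eq_zero (f := .X ^ r - .C z) (by simp [h1])

theorem SS.isom (hC : C.Nondeg) (hT : T.τ = 0 ∨ T.κ ≠ 0) (h : SS C v) (h1 : v ^ r = 1) (h2 : ∀ c : F, c ^ r = 1 → c = 1) :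
    ∃ u : End F V, C.IsIsomTo C u ∧ Sim u v := by
  obtain ⟨u, c, -, b, d⟩ := h
  refine ⟨u, SB.isom hT ?_, d⟩
  cases subsingleton_or_nontrivial V
  · intro x y; simp [Subsingleton.elim x 0]
  · exact h2 c (by simpa using b.root (z := 1) hC (sim_pow d (by simpa))) ▸ b

theorem si_ss {ι : Type} [Fintype ι] [DecidableEq ι] {C : CForm T (ι → F)} (hC : C.Nondeg) :
    SI (C.sim.comap (glHom ι F)) v ↔ SS C v := by
  refine ⟨fun ⟨g, ⟨c, a, b⟩, d⟩ => ⟨_, c, a, b, d⟩, fun ⟨u, c, a, b, d⟩ => ?_⟩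
  obtain ⟨g, rfl⟩ := exists_glE (A := u) ((LinearMap.isUnit_iff_ker_eq_bot _).2 (LinearMap.ker_eq_bot'.2 fun x hx =>
    hC x fun y => by simpa [hx, a] using b x y))
  exact ⟨g, ⟨c, a, b⟩, d⟩

variable [Finite F] [FiniteDimensional F V] [FiniteDimensional F W] [FiniteDimensional F X]

theorem form_idx {C : CForm T (Fin n → F)} (hC : C.Nondeg) {M : ℕ} (hM : ∀ d : F, T.σ d * d = 1 → d ^ M = 1) (n0 : n ≠ 0)
    (h : r ∣ (C.sim.comap (glHom _ F)).relIndex (Cfsg.Geo.specialLinear _ F)) : ∃ N, r * (Nat.card C.isom * (Nat.card F - 1)) ∣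
      M * (Nat.card F ^ N * ∏ i ∈ Finset.range n, (Nat.card F ^ (i + 1) - 1)) := by
  obtain ⟨N, e⟩ := card_gl_n (F := F) (n := n)
  haveI : NeZero n := ⟨n0⟩
  have := idx_dvd (Subgroup.comap_mono C.isom_le_sim) (fun g hg => hM _ (det_glE g ▸ hC.σ_det_mul_det hg)) h
  rw [Subgroup.comap_equiv_eq_map_symm, Subgroup.card_map_of_injective (MulEquiv.injective _)] at this
  exact ⟨N, e ▸ this⟩

theorem ev_inv [Algebra.IsAlgebraic F K] [IsAlgClosed K] (h2 : (2 : F) ≠ 0) (h : u ^ 2 = 1) :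
    EV u (.replicate (finrank F (V0 u)) (1 : K) + .replicate (finrank F (V1 u)) (-1)) := by
  obtain ⟨E, a, b, c⟩ := ev_V1 (K := K) (r := 2) (by simpa) h
  rwa [← Multiset.eq_replicate.2 ⟨a.dim.symm, fun x hx => (sq_eq_one_iff.1 (b x hx).1).resolve_left (b x hx).2⟩]

theorem dim01 (u : End F V) : finrank F (V1 u) + finrank F (V0 u) = finrank F V := LinearMap.finrank_range_add_finrank_ker _

omit [Finite F] [FiniteDimensional F V] in
theorem sq_zero (h2 : (2 : F) = 0) (h : u ^ 2 = 1) : (u - 1) ^ 2 = 0 := by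
  rw [show (u - 1) ^ 2 = u ^ 2 - 1 + (2 : F) • (1 - u) by rw [two_smul]; noncomm_ring, h, h2]; simp

theorem sim_two (h : u ^ 2 = 1) (h' : v ^ 2 = 1) (e : finrank F V = finrank F W) (e' : finrank F (V1 u) = finrank F (V1 v)) :
    Sim u v := by
  have e0 : finrank F (V0 u) = finrank F (V0 v) := by have := dim01 u; have := dim01 v; omega
  rcases eq_or_ne (2 : F) 0 with h2 | h2
  · exact sim_of_sq (sq_zero h2 h) (sq_zero h2 h') e e0
  · exact (ev_inv (K := AlgebraicClosure F) h2 h).sim (e0 ▸ e' ▸ ev_inv h2 h')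

theorem two_rank [CharP F 2] (h : u ^ 2 = 1) : 2 * finrank F (V1 u) ≤ finrank F V := by
  have : V1 u ≤ V0 u := by
    rintro _ ⟨x, rfl⟩
    exact LinearMap.congr_fun ((sq _).symm.trans (sq_zero CharTwo.two_eq_zero h)) x
  have := Submodule.finrank_mono this
  have := dim01 u
  omega

theorem lhs_char [Fact p.Prime] [CharP F p] (hs : ∀ u (c : F), c ≠ 0 → P (c • u) → P u)
    (h : ∀ u, u ^ p = 1 → u ≠ 1 → P u) : Lhs (SLp F V) p P := fun u a ⟨z, b⟩ c => by
  obtain ⟨w, rfl⟩ := surjective_frobenius F p z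
  have w0 : w ≠ 0 := ne0 rfl (scal_ne det_unit a b c)
  exact hs u _ (inv_ne_zero w0) (h _ (smul_pow_one w0 b) fun e => c w (by
    rw [Algebra.algebraMap_eq_smul_one, ← e, smul_smul, mul_inv_cancel₀ w0, one_smul]))

variable [Algebra.IsAlgebraic F K] [IsAlgClosed K]

theorem sim_nl [Fact r.Prime] (hr : (r : F) ≠ 0) (hz : z ≠ 0) (h : r ∣ Nat.card F - 1) (h1 : z ^ ((Nat.card F - 1) / r) ≠ 1)
    (hu : EV u (N • rt r (algebraMap F K z))) (hv : v ^ r = algebraMap F _ z) (e : finrank F W = finrank F V) : Sim v u := by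
  obtain ⟨E, a, b⟩ := exists_ev_pow (K := K) hr hz hv
  obtain ⟨M, rfl, -⟩ := eq_smul_rt fr_inj fr_root (nl_per hz h h1) a.st b
  obtain rfl : M = N := by simpa [a.dim, hu.dim, rt_card, (Fact.out : r.Prime).ne_zero] using e
  exact a.sim hu

variable (K) in
theorem lhs_two_odd (h2 : (2 : F) ≠ 0) (hn : finrank F V = n) (hs : ∀ u (c : F), c ≠ 0 → P (c • u) → P u)
    (h1 : ∀ u, u ^ 2 = 1 → (∀ c, u ≠ algebraMap F _ c) →
      (padicValNat 2 (Nat.card F - 1) ≤ padicValNat 2 n → Even (finrank F (V1 u))) → P u)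
    (h3 : ∀ u (z : F) (N : ℕ), z ≠ 0 → z ^ ((Nat.card F - 1) / 2) ≠ 1 → EV u (N • rt 2 (algebraMap F K z)) → n = 2 * N →
      (-z) ^ N = 1 → P u) : Lhs (SLp F V) 2 P :=
  Lhs.of_sl' (K := K) (by simpa) hn hs (fun u E a b c d => by
    have e := (a.pow_one_iff two_ne_zero).2 b
    refine h1 u e c fun l => (neg_one_pow_eq_one_iff_even (R := F) fun e => h2 (by linear_combination -e)).1 ?_
    exact (inv_det h2 e).symm.trans ((algebraMap F K).injective (by rw [a.det, d l, map_one])))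
    fun u z N a _ c d e f => h3 u z N a c d e (by norm_num at f; exact f)

theorem Lhs.refl (H : Lhs (SLp F V) 2 P) (hs : ∀ u (c : F), c ≠ 0 → P (c • u) → P u) (hn : finrank F V = n) (n2 : 2 ≤ n)
    (h : padicValNat 2 n < padicValNat 2 (Nat.card F - 1)) : ∃ u, u ^ 2 = 1 ∧ finrank F (V1 u) = 1 ∧ P u := by
  have d : 2 ∣ Nat.card F - 1 := dvd_of_one_le_padicValNat (by omega)
  obtain ⟨z, a, b⟩ := exists_rootF d
  obtain rfl := (sq_eq_one_iff.1 a).resolve_left b
  have b' : (-1 : AlgebraicClosure F) ≠ 1 := fun e => b ((algebraMap F (AlgebraicClosure F)).injective (by simpa))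
  have k : ∀ a ∈ Multiset.replicate (n - 1) (1 : AlgebraicClosure F) + {-1}, a ^ 2 = 1 := by
    simp +contextual [or_imp, Multiset.mem_replicate]
  obtain ⟨u, c, e, f⟩ := H.test hs (fr_st d k) (by simp; omega) k (fun c => (eq_or_ne 1 (algebraMap F _ c)).elim
    (fun e => ⟨-1, by simp, e ▸ b'⟩) fun e => ⟨1, by simp [Multiset.mem_replicate]; omega, e⟩)
    (.inl (by simpa [Nat.sub_add_cancel (one_le_two.trans n2)]))
  refine ⟨u, e, ?_, f⟩
  have := c.cnt
  have := dim01 u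
  simp [b'.symm] at *
  omega

theorem SS.tst (t : TG T θ) (hC : C.Nondeg) (hQ : du θ = (· ^ Q)) [Fact r.Prime] (hr : (r : F) ≠ 0) :
    Tst K r Q (SS C : End F W → Prop) := by
  refine ⟨hr, hQ ▸ du_inj, SS.smul, fun v E a b ⟨u, c, c0, d, e⟩ => ?_⟩
  cases subsingleton_or_nontrivial V
  · exact ⟨1, by simp, by rw [Multiset.card_eq_zero.1 ((a.of_sim e.symm).dim.symm.trans finrank_zero_of_subsingleton)]; rfl⟩
  have f := (ev_dual t (toSQ hC) (a := c⁻¹ • u) (fun x y => by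
    change C.B (c⁻¹ • u x) _ = C.B x y; simp [d x y, d.fix hC, c0]) (a.of_sim e.symm)
    (a.ne_zero (unit_of_pow b))).unique ((a.of_sim e.symm).smul (inv_ne_zero c0))
  refine ⟨c, by simpa using d.root (z := 1) hC (sim_pow e (by simpa)), ?_⟩
  simpa [hQ, Multiset.map_map, c0] using congrArg (Multiset.map (algebraMap F K c * ·)) f

theorem Tst.odd [Fact r.Prime] (t : Tst K r (-1) P) (H : Lhs (SLp F V) r P) (h2 : r ≠ 2) (hn : finrank F V = n) (n3 : 3 ≤ n)
    (gap : ¬ (n = 6 ∧ r = 3)) {i : ℕ} (h : (Nat.card F : ZMod r) ^ i = 1) (hi : Odd i) (l : i ≤ n) :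
    (r = 3 ∨ r = 5) ∧ n = r ∧ padicValNat r (Nat.card F - 1) = 1 := by
  haveI : Fact (2 < r) := ⟨(Fact.out : r.Prime).two_le.lt_of_ne' h2⟩
  by_cases e : orderOf (Nat.card F : ZMod r) = 1
  · exact t.one H h2 (ord_one_iff'.1 e) (by simpa using ZMod.neg_one_ne_one) hn (.inl n3) gap
  · obtain ⟨j, e⟩ := t.big H e (hn ▸ (orderOf_le_of_pow_eq_one hi.pos h).trans l)
    have := congrArg (· ^ i) e
    simp only [pow_right_comm _ j, h, Int.cast_neg, Int.cast_one, hi.neg_one_pow, one_pow] at this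
    exact absurd this.symm ZMod.neg_one_ne_one

end H25.El
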