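import Cfsg.Agent.H25.El21

/-! Elusive actions, XXII: the classical subgroups of `SL`. -/

set_option autoImplicit false

namespace H25.El

open Module Polynomial Function H22 H27.Sp H11 H12 H12.CForm Pointwise

universe u

variable {F : Type u} [Field F] {V : Type u} [AddCommGroup V] [Module F V] {u : End F V} {n r p m N : ℕ}
  {P : End F V → Prop} {z : F} {T : FormType F} [Finite F] [FiniteDimensional F V]

local notation "𝕂" => AlgebraicClosure F

theorem lhs_cj {ι : Type} [Fintype ι] [DecidableEq ι] {H : Subgroup (GL ι F)} [Fact r.Prime] [Fact p.Prime] [CharP F p]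
    {R : Prop} (h : Lhs (SLp F (ι → F)) r (SI H) ↔ R) (h' : R → r = 2 ∨ r ≠ p) : Lhs (SLp F _) r (CJ H) ↔ R :=
  ⟨fun H => h.1 fun u a b c => (H u a b c).si, fun H => (lhs_si (h' H)).2 (h.2 H)⟩

theorem si_ss' {ι : Type} [Fintype ι] [DecidableEq ι] {C : CForm T (ι → F)} (hC : C.Nondeg) :
    (SI (C.sim.comap (glHom ι F)) : End F V → Prop) = SS C := funext fun _ => propext (si_ss hC)

theorem val_zero [Fact p.Prime] [CharP F p] : padicValNat p (Nat.card F - 1) = 0 :=
  padicValNat.eq_zero_of_not_dvd fun h => let ⟨z, a, b⟩ := exists_rootF h; b (hn_p z a)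

theorem ss_inv {C : CForm T V} {κ : Cls T} (h2 : (2 : F) ≠ 0) (hC : C.Nondeg) (h : u ^ 2 = 1) {γ : ℤˣ}
    (h1 : κ.Ex (finrank F (V1 u)) γ) (h3 : κ.Ex (finrank F V - finrank F (V1 u)) (γ * κ.cl C)) : SS C u := by
  obtain ⟨A, -, a, b, -⟩ := (Cls.exists_nd_iff hC (Cls.nd_top hC)).2 ⟨Submodule.finrank_le _, h1, h3⟩
  obtain ⟨v, c, d, rfl⟩ := exists_inv' h2 hC a
  exact .of c (sim_two d h rfl b)

theorem un_test [Fact p.Prime] [CharP F p] {C : CForm T V} (hC : C.Nondeg) (hT : T.τ = 0 ∨ T.κ ≠ 0)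
    (H : Lhs (SLp F V) p (SS C)) {k : ℕ} (h1 : 1 < k) (h2 : k ≤ p) (h3 : k ≤ finrank F V) :
    ∃ (v : End F V) (μ : Multiset ℕ), C.IsIsomTo C v ∧ JD v (UN 𝕂 μ) ∧ μ.count k = 1 := by
  have e : ∀ j ∈ k ::ₘ .replicate (finrank F V - k) 1, 0 < j ∧ j ≤ p := by
    simp +contextual [or_imp, Multiset.mem_replicate]; omega
  obtain ⟨u, a⟩ := exists_un (F := F) (K := 𝕂) (V := V) (fun j h => (e j h).1) (by simp [h3])
  obtain ⟨v, b, c⟩ := (H.un a (un_det a) (fun j h => (e j h).2) ⟨k, by simp, h1.ne'⟩).isom hC hT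
    (by simpa using un_char (j := 1) a (by simpa using fun j h => (e j h).2)) hn_p
  exact ⟨v, _, b, a.of_sim c.symm, by simp [Multiset.count_replicate, h1.ne]⟩

theorem odd_of_dvd [Fact r.Prime] (hr : (r : F) ≠ 0) (h : r ∣ Nat.card F ^ N * ∏ i ∈ Finset.range m, (Nat.card F ^ (2 * i + 1) - 1)) :
    ∃ i, (Nat.card F : ZMod r) ^ i = 1 ∧ Odd i ∧ i < 2 * m :=
  let ⟨i, a, b⟩ := dvd_prod_of hr h
  ⟨_, cast_pow_sub Nat.card_pos b, odd_two_mul_add_one i, by omega⟩

theorem prod_ne (f : ℕ → ℕ) (hf : ∀ i, f i ≠ 0) : ∏ i ∈ Finset.range m, (Nat.card F ^ f i - 1) ≠ 0 :=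
  (EA.prod_pos' Finite.one_lt_card m f hf).ne'

section Alt

theorem alt_two [Fact p.Prime] [CharP F p] {C : CForm (altType F) V} (hC : C.Nondeg) (hn : finrank F V = n) (n4 : 4 ≤ n) :
    Lhs (SLp F V) 2 (SS C) ↔ padicValNat 2 (Nat.card F - 1) ≤ padicValNat 2 n := by
  obtain ⟨m, hm⟩ := alt_even hC
  rcases eq_or_ne p 2 with rfl | e
  · refine iff_of_true (lhs_char SS.smul fun u a b => ?_) (by simp [val_zero])
    obtain ⟨k, hk⟩ := Nat.exists_eq_add_one.2 (Nat.pos_of_ne_zero fun e => b (sub_eq_zero.1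
      (LinearMap.range_eq_bot.1 (Submodule.finrank_eq_zero.1 e))))
    obtain ⟨t, c, d, -⟩ := exists_nonalt_alt hC (k := k) (by have := two_rank a; have : finrank F (V1 u) = _ := hk; omega)
    exact .of t.2 (sim_two (isom_sq.1 c) a rfl (d.trans hk.symm))
  have h2 : (2 : F) ≠ 0 := by simpa using cast_ne (F := F) (r := 2) e.symm
  refine ⟨fun H => not_lt.1 fun l => ?_, fun l => lhs_two_odd 𝕂 h2 hn SS.smul (fun u a _ b => ?_) fun u z N a b c d _ => ?_⟩
  · obtain ⟨u, a, b, v, c, -, d, e⟩ := H.refl SS.smul hn (by omega) l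
    haveI := nontrivial_of_finrank_pos (R := F) (M := V) (by omega)
    have f := sim_pow (z := 1) e (by simpa)
    rcases sq_eq_one_iff.1 (show c ^ 2 = 1 by simpa using d.root hC f) with rfl | rfl
    · obtain ⟨k, hk⟩ := alt_even (C.restrict_nondeg_iff.2 (nd_V1 (r := 2) (by simpa) hC (d.isom (.inl rfl)) (by simpa using f)))
      have := rank_sim e
      omega
    · have : V0 v ≤ C.perp (V0 v) := fun x hx => C.mem_perp.2 fun y hy => by
        have := d y x
        rw [mem_V0.1 hx, mem_V0.1 hy] at this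
        exact (mul_eq_zero.1 (show (2 : F) * _ = 0 by linear_combination this)).resolve_left h2
      have := hC.two_mul_finrank_le this
      have := rank_sim e
      have := dim01 v
      omega
  · exact ss_inv (κ := altCls F) (γ := 1) h2 hC a (alt_ex.2 ⟨b l, rfl⟩)
      (alt_ex.2 ⟨(Nat.even_sub (Submodule.finrank_le _)).2 (by simp [b l, hm]), rfl⟩)
  · let v : End F (Fin m ⊕ Fin m → F) := ⟨⟨fun x => Sum.elim (z • x ∘ .inr) (x ∘ .inl),
      fun x y => by ext (i | i) <;> simp [mul_add]⟩, fun c x => by ext (i | i) <;> simp [mul_left_comm]⟩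
    refine SS.iso ⟨v, -z, by simpa, fun x y => ?_, sim_nl (by simpa) a (by have := card_odd h2; omega) b c ?_
      (by simp [hm, two_mul])⟩ (alt_iso_spForm hC hm).symm
    · simp [spForm_B, J_form_apply, v, Finset.mul_sum, mul_sub, mul_comm, mul_left_comm]; ring
    · ext x (i | i) <;> simp [v, sq]

theorem alt_odd [Fact p.Prime] [CharP F p] [Fact r.Prime] {C : CForm (altType F) (Fin n → F)} (hC : C.Nondeg) (n4 : 4 ≤ n)
    (h2 : r ≠ 2) (gap : ¬ (n = 6 ∧ r = 3)) (h : r ∣ (C.sim.comap (glHom _ F)).relIndex (Cfsg.Geo.specialLinear _ F)) :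
    ¬ Lhs (SLp F (Fin n → F)) r (SS C) := fun H => by
  have hp : r.Prime := Fact.out
  obtain ⟨m, hm⟩ := alt_even hC
  rcases eq_or_ne r p with rfl | e
  · obtain ⟨v, μ, a, b, c⟩ := un_test hC (.inl rfl) H (k := 3) (by simp) (hp.two_le.lt_of_ne' h2) (by simp; omega)
    simpa [c] using un_alt_even hC a b 3 (by decide)
  haveI := Fintype.ofFinite F
  obtain ⟨N, h⟩ := form_idx hC (M := 2) (fun d h => (sq d).trans h) (by omega) h
  rw [card_isom_alt m hC hm, ← Nat.card_eq_fintype_card] at h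
  obtain rfl : n = 2 * m := by simpa using hm
  obtain ⟨i, a, b, c⟩ := odd_of_dvd (N := N) (cast_ne e) (((Nat.coprime_primes hp Nat.prime_two).2 h2).dvd_of_dvd_mul_left
    (cancel' h (prod_ne (fun i => 2 * (i + 1)) (by simp)) (.mul_right (Dvd.intro_left _ rfl) _) (by rw [prod_split]; ring_nf)))
  have := (SS.tst (K := 𝕂) tg_alt hC du_id (cast_ne e)).odd H h2 (by simp) (by omega) gap a b c.le
  omega

end Alt

section Quad

variable (h2 : (2 : F) ≠ 0)
include h2

theorem quad_two {C : CForm (quadType F) V} (hC : C.Nondeg) : Lhs (SLp F V) 2 (SS C) := by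
  refine lhs_two_odd 𝕂 h2 rfl SS.smul (fun u a b _ => ?_) fun u z N a b c d _ => ?_
  · have := (V1 u).finrank_le
    rcases eq_or_ne (finrank F (V1 u)) (finrank F V) with e | e
    · exact ss_inv (κ := quadCls F) h2 hC a (e ▸ Cls.ex_of hC) (by simp [e, Cls.ex_zero, uu])
    exact ss_inv (κ := quadCls F) (γ := 1) h2 hC a (quad_ex.2 (by simp [h2])) (quad_ex.2 ⟨by simp [h2], by omega⟩)
  have k : ∀ {ι : Type} [Fintype ι] [DecidableEq ι] [Nonempty ι] {Q : QuadraticForm F (ι → F)} (hQ : QNondeg Q),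
      C.Iso (ofQuad Q) → (∃ t : GSim (ofQuad Q), mult hQ t = .mk0 z a ∧ t * t = scS _ (.mk0 z a)) → SS C u :=
    fun hQ e ⟨t, f, g⟩ => SS.iso ⟨glE t.1, z, a, fun x y => by simpa [f, glE_apply] using (isSS_inl.1 (isSS_mult hQ t)).1 x y,
      sim_nl (by simpa) a (by have := card_odd h2; omega) b c (by
        rw [sq, ← map_mul]; exact toLin'_eq_smul.1 (gsim_sq g)) e.finrank_eq.symm⟩ e.symm
  rcases N with - | N
  · exact .of isom_one (c.sim (by simpa [d] using ev_one (F := F) (V := V) (K := 𝕂))).symm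
  by_cases e : C.HasTS (N + 1)
  · exact k _ (quad_iso_qPlus hC d e) (plus_exists_t _)
  · obtain ⟨a, b, h⟩ := H22.exists_aniso F
    exact k _ (quad_iso_qMinus hC d e h) (minus_exists_t h _)

theorem quad_pos [Fact p.Prime] [CharP F p] [Fact r.Prime] {C : CForm (quadType F) V} (hC : C.Nondeg) (h : r ≠ 2)
    (hn : Odd (finrank F V)) {E : Multiset 𝕂} (a : EV u E) (b : ∀ a ∈ E, a ^ r = 1) (c : E.map (·⁻¹) = E) : SS C u := by
  haveI : Fact (2 < r) := ⟨(Fact.out : r.Prime).two_le.lt_of_ne' h⟩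
  have i : Injective fun a : 𝕂 => a ^ (-1 : ℤ) := by simpa using inv_injective
  obtain ⟨k, N, f⟩ := pf_roots i (by simpa) b
  obtain ⟨E', rfl, g, g'⟩ := f.core i (by simp)
  have o : orderOf ((-1 : ℤ) : ZMod r) = 2 := orderOf_eq_prime (by simp) (by simpa using ZMod.neg_one_ne_one)
  have k0 : k ≠ 0 := by rintro rfl; rw [a.dim, f.card, o] at hn; simp [Nat.odd_iff] at hn
  have b' : ∀ a ∈ E', a ^ r = 1 := fun a h => b a (by simp [h])
  obtain ⟨δ, d⟩ := (quadCls F).rc_rl (tg_quad.rl E' (st_right a.st (st_repl fr_one _)) (by rw [du_id]; exact g.st)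
    (fun a h => ne0 (b' a h) one_ne_zero) (.inr fun a h e => g' a h (hn_id ‹_› a (sq a ▸ e) (b' a h))))
  obtain ⟨v, x, y⟩ := ((rc_un_quad h2 p (μ := .replicate k 1) (δ := (quadCls F).cl C * δ) (by simp [Multiset.mem_replicate])
    (fun a h => by rw [Multiset.count_replicate, if_neg (by rintro rfl; simp at h)]; simp)
    (.inl ⟨1, by simpa [Multiset.mem_replicate], by simp⟩)).add d).out hC (by simp [a.dim, UN, dimD]) (by rw [mul_assoc, uu, mul_one])
  exact .of x (JD.sim y (by simpa [EV, UN] using a))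

theorem quad_idx [Fact r.Prime] {C : CForm (quadType F) (Fin n → F)} (hC : C.Nondeg) (n0 : n ≠ 0) (hr : (r : F) ≠ 0) (h2' : r ≠ 2)
    (h : r ∣ (C.sim.comap (glHom _ F)).relIndex (Cfsg.Geo.specialLinear _ F)) :
    (∃ i, (Nat.card F : ZMod r) ^ i = 1 ∧ Odd i ∧ i ≤ n) ∨ ∃ m, n = 2 * m ∧ (Nat.card F : ZMod r) ^ m = ((-sg (C.HasTS m) : ℤˣ) : ℤ) := by
  classical
  have hp : r.Prime := Fact.out
  haveI := Fintype.ofFinite F
  obtain ⟨N, h⟩ := form_idx hC (M := 2) (fun d h => (sq d).trans h) n0 h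
  obtain ⟨m, rfl | rfl⟩ := n.even_or_odd'
  · obtain ⟨m, rfl⟩ := Nat.exists_eq_add_one.2 (show 0 < m by omega)
    have e := EA.card_orth hC (m := m) (by simp)
    rw [← cast_prod_pow_sub_one, ← Nat.card_eq_fintype_card] at e
    have q1 : (1 : ℤ) < Nat.card F ^ (m + 1) := one_lt_pow₀ (by exact_mod_cast Finite.one_lt_card) (by simp)
    have := cancel' (r := (r : ℤ)) ((Nat.cast_mul _ _).symm.dvd.trans (Int.natCast_dvd_natCast.2 h))
      (A := 2 * (Nat.card F ^ (m + 1) - if C.HasTS (m + 1) then 1 else -1 : ℤ) *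
        (∏ i ∈ Finset.range m, (Nat.card F ^ (2 * (i + 1)) - 1) : ℕ))
      (B := (Nat.card F ^ (m + 1) + if C.HasTS (m + 1) then 1 else -1 : ℤ) *
        (Nat.card F ^ N * ∏ i ∈ Finset.range (m + 1), (Nat.card F ^ (2 * i + 1) - 1) : ℕ))
      (mul_ne_zero (by split_ifs <;> omega) (Nat.cast_ne_zero.2 (prod_ne (fun i => 2 * (i + 1)) (by simp))))
      (by rw [Nat.cast_mul, e]; exact .mul_right (Dvd.intro_left ((Nat.card F : ℤ) ^ ((m + 1) * m)) (by ring)) _) (by
        rw [prod_split, Finset.prod_range_succ _ m]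
        push_cast [Nat.cast_sub (Nat.one_le_pow _ _ (Nat.card_pos (α := F))), mul_add]
        split_ifs <;> ring)
    rcases (Int.Prime.dvd_mul' hp this) with h | h
    · refine .inr ⟨_, rfl, ?_⟩
      have := (ZMod.intCast_zmod_eq_zero_iff_dvd _ _).2 h
      simp only [sg]
      split_ifs at this ⊢ <;> simpa [eq_neg_iff_add_eq_zero, ← sub_eq_add_neg, sub_eq_zero] using this
    · obtain ⟨i, a, b, c⟩ := odd_of_dvd hr (Int.natCast_dvd_natCast.1 h)
      exact .inl ⟨i, a, b, c.le⟩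
  · obtain ⟨c, c0, e, -, e'⟩ := quad_iso_qOdd h2 hC (m := m) (by simp)
    have f := card_isom_quad_odd m hC (by simp) ((Nat.card_congr (e.toEquiv.subtypeEquiv fun x => by
      simp [← e' x, c0, coe_qOdd])).trans (card_quadFormOdd_zero m))
    rw [← cast_prod_pow_sub_one, ← Nat.card_eq_fintype_card] at f
    obtain ⟨i, a, b, c⟩ := odd_of_dvd (N := N) (m := m + 1) hr (cancel' h (A := 2 * ∏ i ∈ Finset.range m,
      (Nat.card F ^ (2 * (i + 1)) - 1)) (mul_ne_zero two_ne_zero (prod_ne (fun i => 2 * (i + 1)) (by simp)))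
      (.mul_right (Int.natCast_dvd_natCast.1 (f ▸ Dvd.intro_left (Nat.card F ^ m ^ 2) (by push_cast; ring))) _)
      (by rw [Finset.prod_range_succ, prod_split, Finset.prod_range_succ]; ring_nf))
    exact .inl ⟨i, a, b, by rw [Nat.odd_iff] at b; omega⟩

theorem quad_main [Fact p.Prime] [CharP F p] [Fact r.Prime] {C : CForm (quadType F) (Fin n → F)} (hC : C.Nondeg) (n3 : 3 ≤ n)
    (gap : ¬ (n = 6 ∧ r = 3)) (h : r ∣ (C.sim.comap (glHom _ F)).relIndex (Cfsg.Geo.specialLinear _ F)) :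
    Lhs (SLp F (Fin n → F)) r (SS C) ↔ r = 2 ∨ (r = 3 ∨ r = 5) ∧ n = r ∧ padicValNat r (Nat.card F - 1) = 1 := by
  have hp : r.Prime := Fact.out
  rcases eq_or_ne r 2 with rfl | r2
  · simp [quad_two h2 hC]
  rcases eq_or_ne r p with rfl | e
  · refine iff_of_false (fun H => ?_) (by simp [r2, val_zero])
    obtain ⟨v, μ, a, b, c⟩ := un_test hC (.inr h2) H (k := 2) (by simp) hp.two_le (by simp; omega)
    simpa [c] using un_quad_even h2 hC a b 2 (by decide)
  have hr := cast_ne (F := F) e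
  refine ⟨fun H => .inr ?_, fun H => ?_⟩
  · have t := fun i => (SS.tst (K := 𝕂) tg_quad hC du_id hr).odd H r2 (by simp) n3 gap (i := i)
    rcases quad_idx h2 hC (by omega) hr r2 h with ⟨i, a, b, c⟩ | ⟨m, rfl, a⟩
    · exact t i a b c
    have o : (Nat.card F : ZMod r) ^ (2 * m) = 1 := by
      rw [pow_mul', a, ← Int.cast_pow, ← Units.val_pow_eq_pow_val, sq, uu]; simp
    obtain ⟨N, hN⟩ := orderOf_dvd_of_pow_eq_one o
    rcases (orderOf (Nat.card F : ZMod r)).even_or_odd with i | i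
    swap; · exact t _ (pow_orderOf_eq_one _) i (orderOf_le_of_pow_eq_one (by omega) o)
    exfalso
    have B := blk_quad (K := 𝕂) hr r2 rfl (if_pos i).symm
    obtain ⟨E, d⟩ := B.exists_rts N
    have i1 : orderOf (Nat.card F : ZMod r) ≠ 1 := fun e => by simp [e] at i
    obtain ⟨x, hx⟩ := Multiset.card_pos_iff_exists_mem.1 (show 0 < E.card by rw [d.card]; omega)
    obtain ⟨u, b, c, f⟩ := H.test SS.smul ((B.st E fun a h => (d.rt a h).1).1 d.st).1 (by simp [d.card, hN])
      (fun a h => (d.rt a h).1) (fun c => ⟨x, hx, not_alg (d.rt x hx).1 (d.rt x hx).2 i1 c⟩)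
      (.inr (prod_eq_one d.st (fun a h => (d.rt a h).1) (mt ord_one_iff.2 (B.ord ▸ i1))))
    obtain ⟨v, g, g'⟩ := f.isom hC (.inr h2) c fun c => root_one (mt ord_one_iff'.2 i1)
    obtain ⟨j, hj⟩ := i.two_dvd
    have k := B.reg' hC g (b.of_sim g'.symm) d
    have η := (eta_eq (s := qsign (-1 : F)) (O := Odd (2 * j)) (V := C.HasTS m) (l := 0) (a := j) (N := N) (d := m)
      (by nlinarith)).1 (by rw [← cl_even hC (by simp), k, hj, Nat.mul_div_cancel_left _ two_pos, uu, pow_zero])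
    have j1 : (Nat.card F : ZMod r) ^ j = -1 := (sq_eq_one_iff.1 (by rw [← pow_mul', ← hj, pow_orderOf_eq_one])).resolve_left
      fun e => by have := orderOf_le_of_pow_eq_one (by have := ord_pos hr; omega) e; have := ord_pos hr; omega
    haveI : Fact (2 < r) := ⟨hp.two_le.lt_of_ne' r2⟩
    rw [show (Nat.card F : ZMod r) ^ m = (-1) ^ N by rw [show m = j * N by nlinarith, pow_mul, j1]] at a
    by_cases w : C.HasTS m
    · exact ZMod.neg_one_ne_one (n := r) (by simpa [sg_pos w, (show Even N by simpa [w, Nat.odd_iff] using η).neg_one_pow] using a.symm)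
    · exact ZMod.neg_one_ne_one (n := r) (by simpa [sg_neg w, (show Odd N by simpa [w] using η).neg_one_pow] using a)
  · obtain ⟨a, rfl, c⟩ := H.resolve_left r2
    exact pos_35 (K := 𝕂) a (by simp) c hr SS.smul fun u E => quad_pos (p := p) h2 hC r2 (by simpa using hp.odd_of_ne_two r2)

end Quad

theorem val_mul [Fact r.Prime] {a b : ℕ} (ha : a ≠ 0) (hb : ¬ r ∣ b) : padicValNat r (a * b) = padicValNat r a := by
  rw [padicValNat.mul ha (by rintro rfl; simp at hb), padicValNat.eq_zero_of_not_dvd hb, add_zero]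

theorem prod_herm (q n : ℕ) : ∏ i ∈ Finset.range n, ((q ^ 2) ^ (i + 1) - 1) =
    (∏ i ∈ Finset.range n, if Even i then q ^ (i + 1) + 1 else q ^ (i + 1) - 1) *
      ∏ i ∈ Finset.range n, if Even i then q ^ (i + 1) - 1 else q ^ (i + 1) + 1 := by
  rw [← Finset.prod_mul_distrib]
  refine Finset.prod_congr rfl fun i _ => ?_
  rw [pow_right_comm, show _ - 1 = _ - 1 ^ 2 from rfl, Nat.sq_sub_sq]
  split_ifs <;> ring

omit [Finite F] in
theorem herm_main [Fintype F] [Fact p.Prime] [CharP F p] [Fact r.Prime] {q : ℕ} (hF : Fintype.card F = q ^ 2)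
    {C : CForm (hermT hF) (Fin n → F)} (hC : C.Nondeg) (n3 : 3 ≤ n) (hr : r = 2 ∨ r ≠ p) (gap : ¬ (n = 6 ∧ r = 3))
    (h : r ∣ (C.sim.comap (glHom _ F)).relIndex (Cfsg.Geo.specialLinear _ F)) :
    Lhs (SLp F (Fin n → F)) r (SS C) ↔ r = 2 ∧ (p = 2 ∨ padicValNat 2 n ≤ padicValNat 2 (Nat.card F - 1)) ∨
      (r = 3 ∨ r = 5) ∧ n = r ∧ padicValNat r (q - 1) = 1 := by
  have hp : r.Prime := Fact.out
  have hq : Nat.card F = q ^ 2 := Nat.card_eq_fintype_card.trans hF
  have q2 := two_le_of_card_sq hF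
  have e1 : Nat.card F - 1 = (q - 1) * (q + 1) := by rw [hq, mul_comm, ← Nat.sq_sub_sq, one_pow]
  have key : ∀ (u : End F (Fin n → F)) (D : Multiset (𝕂 × ℕ)), JD u D → D.map (pm (· ^ (-q : ℤ))) = D → (∀ x ∈ D, x.1 ≠ 0) →
      SS C u := fun u D a b c => by
    obtain ⟨g, hg⟩ := exists_gu_jd hF b c a.pos (n := n) (by simpa using a.dim.symm)
    exact SS.iso (.of ((guRep hF _).isom g) (hg.sim a)) (hermT_iso_hermC hF hC (by simp)).symm
  rcases eq_or_ne r p with rfl | e
  · obtain rfl := hr.resolve_right (by simp)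
    refine iff_of_true (lhs_char SS.smul fun u a _ => ?_) (by simp)
    obtain ⟨μ, b, -⟩ := exists_un_of_pow (K := 𝕂) a
    exact key u _ b (UN_st (by simp)) fun x hx => by simp [(mem_UN.1 hx).1]
  have r0 := cast_ne (F := F) e
  rcases eq_or_ne r 2 with rfl | r2
  · have h2 : (2 : F) ≠ 0 := by simpa using r0
    have o := card_odd h2
    have d : 2 ∣ Nat.card F - 1 := by omega
    have o' : q % 2 = 1 := by rw [← Nat.odd_iff, hq, Nat.odd_pow_iff two_ne_zero, Nat.odd_iff] at o; exact o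
    have nl : ∀ (u : End F (Fin n → F)) (z : F) (N : ℕ), z ≠ 0 → z ^ ((Nat.card F - 1) / 2) ≠ 1 →
        EV u (N • rt 2 (algebraMap F 𝕂 z)) → ¬ SS C u := fun u z N a b c ⟨v, μ, μ0, d, f⟩ => b <| by
      haveI := nontrivial_of_finrank_pos (R := F) (M := Fin n → F) (by simp; omega)
      have g : μ ^ 2 = z ^ (q + 1) := (d.root hC (sim_pow f ((c.pow_iff two_ne_zero z).2 fun _ => mem_srt))).trans
        (pow_succ _ _).symm
      have g' : μ ^ (q - 1) = 1 := mul_right_cancel₀ μ0 (by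
        rw [← pow_succ, Nat.sub_add_cancel (by omega), one_mul]; exact d.fix hC)
      obtain ⟨k, hk⟩ : 2 ∣ q - 1 := by omega
      rw [e1, hk, mul_assoc, Nat.mul_div_cancel_left _ two_pos, pow_mul', ← g, ← pow_mul, ← hk, g']
    have := nlc_iff' (F := F) (n := n) d (by omega)
    rw [and_iff_left fun _ _ => by rw [hq, Nat.pow_mod]; obtain h | h : q % 4 = 1 ∨ q % 4 = 3 := by omega
                                   all_goals simp [h]] at this
    simp only [true_and, e.symm, false_or, this, show ¬ (2 = 3 ∨ 2 = 5) by simp, false_and, or_false]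
    refine ⟨fun H l => ?_, fun l => lhs_two_odd 𝕂 h2 rfl SS.smul (fun u a _ _ => ?_) fun u z N a b c f g => ?_⟩
    · obtain ⟨u, z, N, a, b, -, c, f⟩ := H.nl (K := 𝕂) r0 d (by simpa using l) (by simp; omega)
      exact nl u z N a b c f
    · exact ss_inv (κ := hermCls hF) (γ := 1) h2 hC a ((herm_ex hF).2 rfl) ((herm_ex hF).2 rfl)
    · exact absurd (nlc_of dvd_rfl d (by omega) (by simpa using f) (pow_card_sub a) b (by norm_num; exact g)) l
  haveI : Fact (2 < r) := ⟨hp.two_le.lt_of_ne' r2⟩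
  have ne := ZMod.neg_one_ne_one (n := r)
  have nd : ((-q : ℤ) : ZMod r) ≠ 1 → ¬ r ∣ q + 1 := fun a b => a (by
    simpa [neg_eq_iff_add_eq_zero] using (ZMod.natCast_eq_zero_iff _ _).2 b)
  simp only [r2, false_and, false_or]
  refine ⟨fun H => ?_, fun ⟨a, b, c⟩ => ?_⟩
  · obtain ⟨θ, hθ⟩ := exists_frq (K := 𝕂) hF
    have t := SS.tst (W := Fin n → F) (tg_herm hF hθ) hC (du_eq hθ) r0
    obtain ⟨N, h⟩ := form_idx hC (M := q + 1) (fun d h => (pow_succ d q).trans h) (by omega) h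
    rw [card_isom_herm n hC (by simp), e1] at h
    obtain ⟨i, a, b⟩ := dvd_prod_of (N := N) (f := fun i => if Even i then q ^ (i + 1) - 1 else q ^ (i + 1) + 1) r0
      (cancel' h (A := (q + 1) * ∏ i ∈ Finset.range n,
      if Even i then q ^ (i + 1) + 1 else q ^ (i + 1) - 1) (mul_ne_zero (by simp) (Finset.prod_ne_zero_iff.2 fun i _ => by
        have := Nat.one_lt_pow i.add_one_ne_zero (show 1 < q by omega)
        split_ifs <;> omega)) ⟨q ^ (n * (n - 1) / 2) * (q - 1), by ring⟩ (by rw [hq, prod_herm]; ring))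
    have c : ((-q : ℤ) : ZMod r) ^ (i + 1) = -1 := by
      split_ifs at b with f
      · simp [f.add_one.neg_pow, cast_pow_sub (by omega) b]
      · simpa [(Nat.not_even_iff_odd.1 f).add_one.neg_pow, eq_neg_iff_add_eq_zero] using (ZMod.natCast_eq_zero_iff _ _).2 b
    have e2 : (Nat.card F : ZMod r) = ((-q : ℤ) : ZMod r) ^ 2 := by rw [hq]; simp
    by_cases o : orderOf (Nat.card F : ZMod r) = 1
    · have d : ((-q : ℤ) : ZMod r) ≠ 1 := fun d => ne (by rw [← c, d, one_pow])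
      have := t.one H r2 (ord_one_iff'.1 o) d (by simp) (.inl n3) gap
      rwa [e1, val_mul (by omega) (nd d)] at this
    · obtain ⟨j, f⟩ := t.big H o ((orderOf_le_of_pow_eq_one i.succ_pos (by
        rw [e2, pow_right_comm, c, neg_one_sq])).trans (by simpa using a))
      exact absurd (by rw [← c, ← f, pow_right_comm, e2, pow_right_comm _ 2, c, neg_one_sq, one_pow]) ne
  · have q1 : (q : ZMod r) = 1 := by
      exact (pow_one _).symm.trans (cast_pow_sub (i := 1) (by omega) ((pow_one q).symm ▸ dvd_of_one_le_padicValNat c.ge))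
    refine pos_35 (K := 𝕂) a (by simpa) (by rwa [e1, val_mul (by omega) (nd (by simpa [q1]))]) r0 SS.smul
      fun u E a b c => key u _ a (ss_st.2 ((Multiset.map_congr rfl fun x hx => ?_).trans c))
        (by simpa using fun x hx => ne0 (b x hx) one_ne_zero)
    simpa using zpow_congr (b x hx) (m := -q) (m' := -1) (by simp [q1])

end H25.El
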