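import Cfsg.Agent.H25.El22

/-! Elusive actions, XXIII: subfield subgroups of `SL`. -/

set_option autoImplicit false

namespace H25.El

open Module Polynomial Function H22 H27.Sp H12 Pointwise

universe u

variable {F₀ F : Type u} {K : Type*} [Field F₀] [Field F] [Field K] [Algebra F₀ F] [Algebra F K] {V : Type u} [AddCommGroup V]
  [Module F V] {u : End F V} {n r p k N : ℕ} {z : F} {ι : Type} [Fintype ι] [DecidableEq ι] {v : End F₀ (ι → F₀)}
  {E : Multiset K} {μ : Multiset ℕ} [Finite F₀] [Finite F]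

variable (F) in
/-- base change -/
noncomputable def bc : End F₀ (ι → F₀) →+* End F (ι → F) :=
  Matrix.toLinAlgEquiv'.toRingEquiv.toRingHom.comp
    ((algebraMap F₀ F).mapMatrix.comp LinearMap.toMatrixAlgEquiv'.toRingEquiv.toRingHom)

theorem bc_eq (v : End F₀ (ι → F₀)) : bc F v = Matrix.toLin' ((LinearMap.toMatrix' v).map (algebraMap F₀ F)) := rfl

theorem bc_alg (c : F₀) : bc F (algebraMap F₀ (End F₀ (ι → F₀)) c) = algebraMap F _ (algebraMap F₀ F c) := by
  rw [bc_eq, ← toLin'_eq_smul]; ext i j; by_cases h : i = j <;> simp [Algebra.algebraMap_eq_smul_one, h]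

theorem bc_scalar [Nonempty ι] (h : bc F v = algebraMap F _ z) : ∃ c, algebraMap F₀ F c = z ∧ v = algebraMap F₀ _ c := by
  have := congrFun₂ (toLin'_eq_smul.2 h)
  obtain ⟨i⟩ := ‹Nonempty ι›
  refine ⟨_, by simpa using this i i, LinearMap.toMatrix'.injective (Matrix.map_injective (algebraMap F₀ F).injective
    (Matrix.toLin'.injective ?_))⟩
  rw [← bc_eq, ← bc_eq, bc_alg, h, show algebraMap F₀ F _ = z by simpa using this i i]

theorem bc_det (v : End F₀ (ι → F₀)) : LinearMap.det (bc F v) = algebraMap F₀ F (LinearMap.det v) := by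
  rw [bc_eq, LinearMap.det_toLin', ← LinearMap.det_toMatrix', RingHom.map_det]; rfl

theorem bc_charpoly (v : End F₀ (ι → F₀)) : (bc F v).charpoly = v.charpoly.map (algebraMap F₀ F) := by
  rw [bc_eq, Matrix.charpoly_toLin', Matrix.charpoly_map, ← Matrix.charpoly_toLin', Matrix.toLin'_toMatrix']

theorem rank_map (M : Matrix ι ι F₀) : (M.map (algebraMap F₀ F)).rank = M.rank := by
  obtain ⟨L, L', D, rfl⟩ := Matrix.Pivot.exists_list_transvec_mul_diagonal_mul_list_transvec M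
  have := fun L : List (Matrix.TransvectionStruct ι F₀) => (algebraMap F₀ F).map_det (L.map Matrix.TransvectionStruct.toMatrix).prod
  simp only [Matrix.TransvectionStruct.det_toMatrix_prod, map_one, RingHom.mapMatrix_apply] at this
  rw [Matrix.map_mul, Matrix.map_mul, Matrix.rank_mul_eq_left_of_isUnit_det _ _ (by simp [← this]),
    Matrix.rank_mul_eq_right_of_isUnit_det _ _ (by simp [← this]), Matrix.rank_mul_eq_left_of_isUnit_det _ _ (by simp),
    Matrix.rank_mul_eq_right_of_isUnit_det _ _ (by simp), Matrix.diagonal_map (by simp)]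
  classical
  simp [Matrix.rank_diagonal]

theorem bc_ker (v : End F₀ (ι → F₀)) : finrank F (LinearMap.ker (bc F v)) = finrank F₀ (LinearMap.ker v) := by
  have a := (bc F v).finrank_range_add_finrank_ker
  have b := v.finrank_range_add_finrank_ker
  have c : finrank F (LinearMap.range (bc F v)) = finrank F₀ (LinearMap.range (Matrix.toLin' (LinearMap.toMatrix' v))) :=
    rank_map (F := F) (LinearMap.toMatrix' v)
  rw [Matrix.toLin'_toMatrix'] at c
  rw [c, finrank_fintype_fun_eq_card] at a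
  exact Nat.add_left_cancel (a.trans (b.trans (finrank_fintype_fun_eq_card _)).symm)

variable (F₀ ι) in
/-- similar to a multiple of a rational matrix -/
def RT (u : End F V) : Prop := ∃ (v : End F₀ (ι → F₀)) (c : F), c ≠ 0 ∧ IsUnit v ∧ Sim (c • bc F v) u

variable (F₀ ι F) in
/-- the subfield subgroup -/
abbrev SF : Subgroup (GL ι F) := (Matrix.GeneralLinearGroup.map (algebraMap F₀ F)).range ⊔ Cfsg.Geo.scalars ι F

theorem bc_glE (g : GL ι F₀) : bc F (glE g) = glE (Matrix.GeneralLinearGroup.map (algebraMap F₀ F) g) := by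
  simp [bc_eq, glE_eq]

theorem mem_SF {g : GL ι F} : g ∈ SF F₀ F ι ↔ ∃ (v : End F₀ (ι → F₀)) (c : F), c ≠ 0 ∧ IsUnit v ∧ c • bc F v = glE g := by
  rw [Subgroup.mem_sup_of_normal_right]
  refine ⟨?_, fun ⟨v, c, a, b, d⟩ => ?_⟩
  · rintro ⟨_, ⟨h, rfl⟩, s, a, rfl⟩
    obtain ⟨c, a⟩ := (Cfsg.Geo.mem_scalars_iff s).1 a
    exact ⟨glE h, c, c.ne_zero, (Group.isUnit h).map glE, by simp [bc_glE, glE_eq s, a, ← Module.End.one_eq_id]⟩
  · obtain ⟨h, rfl⟩ := exists_glE b
    refine ⟨_, ⟨h, rfl⟩, _, ⟨.mk0 c a, rfl⟩, glE_injective ?_⟩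
    rw [← d, map_mul, bc_glE, glE_eq (Units.map _ _)]
    simp [← Matrix.smul_one_eq_diagonal, ← Module.End.one_eq_id]

theorem si_rt : (SI (SF F₀ F ι) : End F V → Prop) = RT F₀ ι := funext fun u => propext
  ⟨fun ⟨_, a, b⟩ => let ⟨v, c, d, e, f⟩ := mem_SF.1 a; ⟨v, c, d, e, f ▸ b⟩, fun ⟨v, c, a, b, d⟩ =>
    let ⟨g, e⟩ := exists_glE ((b.map (bc F)).smul (Units.mk0 c a)); ⟨g, mem_SF.2 ⟨v, c, a, b, e.symm⟩, e ▸ d⟩⟩

theorem sf_eq (F₀ : Subfield F) : Cfsg.Geo.subfieldSubgroup F₀ 1 = SF F₀ F ι := by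
  simp only [Cfsg.Geo.subfieldSubgroup, map_one]; exact Subgroup.map_id _

theorem RT.smul (u : End F V) (c : F) (hc : c ≠ 0) (h : RT F₀ ι (c • u)) : RT F₀ ι u := by
  obtain ⟨v, d, a, b, e⟩ := h
  exact ⟨v, c⁻¹ * d, by simp [*], b, by simpa [smul_smul, hc] using sim_smul e c⁻¹⟩

theorem RT.pow [Nonempty ι] {c : F} (hc : c ≠ 0) (e : Sim (c • bc F v) u) (h : u ^ r = algebraMap F _ z) :
    ∃ d, z = c ^ r * algebraMap F₀ F d ∧ v ^ r = algebraMap F₀ _ d := by
  obtain ⟨d, a, b⟩ := bc_scalar (v := v ^ r) (z := (c ^ r)⁻¹ * z) (by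
    rw [map_mul, ← sim_pow e h, _root_.smul_pow, ← Algebra.smul_def, smul_smul, inv_mul_cancel₀ (pow_ne_zero _ hc), one_smul, map_pow])
  exact ⟨d, by simp [a, hc], b⟩

variable [FiniteDimensional F V]

theorem alg_pow (c : F₀) : algebraMap F₀ F c ^ Nat.card F₀ = algebraMap F₀ F c := fr_alg c

theorem cast_ne0 (hr : (r : F) ≠ 0) : (r : F₀) ≠ 0 := fun e => hr (by simpa using congrArg (algebraMap F₀ F) e)

theorem geom_eq {q : ℕ} (h : 0 < q) (k : ℕ) : q ^ k - 1 = (∑ j ∈ Finset.range k, q ^ j) * (q - 1) := by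
  have := geom_sum_mul_add (q - 1) k
  rw [Nat.sub_add_cancel (m := 1) h] at this
  omega

theorem sub_idx [Fact r.Prime] (hq : Nat.card F = Nat.card F₀ ^ k) (hk : k.Prime) (hr : (r : F) ≠ 0) (e : r ≠ k) (n0 : n ≠ 0)
    (h : r ∣ (SF F₀ F (Fin n)).relIndex (Cfsg.Geo.specialLinear _ F)) :
    ∃ i, 2 ≤ i ∧ i ≤ n ∧ (Nat.card F₀ : ZMod r) ^ i ≠ 1 ∧ (Nat.card F : ZMod r) ^ i = 1 := by
  obtain ⟨m, rfl⟩ := Nat.exists_eq_add_one.2 (Nat.pos_of_ne_zero n0)
  have := idx_dvd (M := Nat.card F₀ - 1) (I := (Matrix.GeneralLinearGroup.map (algebraMap F₀ F)).range) le_sup_left (fun _ ⟨g, e⟩ => by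
    rw [← e, ← det_glE, ← bc_glE, bc_det, ← map_pow, det_glE, pow_card_sub g.det_ne_zero, map_one]) h
  obtain ⟨N, a⟩ := card_gl_n (F := F) (n := m + 1)
  obtain ⟨N₀, b⟩ := card_gl_n (F := F₀) (n := m + 1)
  have g : ∀ i, Nat.card F ^ i - 1 = (∑ j ∈ Finset.range k, (Nat.card F₀ ^ i) ^ j) * (Nat.card F₀ ^ i - 1) := fun i => by
    rw [hq, pow_right_comm, geom_eq (pow_pos Nat.card_pos _)]
  rw [← Nat.card_congr (MonoidHom.ofInjective (fun x y h => Units.ext (Matrix.map_injective (algebraMap F₀ F).injective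
    (congrArg Units.val h)))).toEquiv, a, b] at this
  obtain ⟨i, c, d⟩ := dvd_prod_of (N := N) (n := m) (f := fun i => ∑ j ∈ Finset.range k, (Nat.card F₀ ^ (i + 1 + 1)) ^ j) hr
    (cancel' this (mul_ne_zero (prod_ne (· + 1) (by simp)) (card_sub_ne F)) ⟨Nat.card F₀ ^ N₀, by ring⟩ (by
      simp only [g, Finset.prod_mul_distrib, Finset.prod_range_succ' fun i => ∑ j ∈ _, _]
      rw [← pow_one (Nat.card F), g]; ring_nf))
  refine ⟨i + 2, by simp, by omega, fun h => e ((Nat.prime_dvd_prime_iff_eq Fact.out hk).1 ?_),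
    cast_pow_sub Nat.card_pos (g _ ▸ d.mul_right _)⟩
  simpa [h, ZMod.natCast_eq_zero_iff] using (ZMod.natCast_eq_zero_iff _ _).2 d

variable [Algebra F₀ K] [IsScalarTower F₀ F K] [Algebra.IsAlgebraic F₀ K] [Algebra.IsAlgebraic F K] [IsAlgClosed K]

theorem EV.bc (h : EV v E) : EV (bc F v) E := by
  obtain ⟨f, a, b⟩ := h.exists_sep
  obtain ⟨E', c⟩ := exists_ev (K := K) (u := El.bc F v) (a.map (f := algebraMap F₀ F)) (by
    rw [← map_aeval_eq_aeval_map (RingHom.ext fun c => (bc_alg c).symm), b, map_zero])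
  have := JD.charpoly c
  rw [bc_charpoly, Polynomial.map_map, ← IsScalarTower.algebraMap_eq, JD.charpoly h] at this
  have := congrArg roots this
  simp only [Multiset.map_map, Function.comp, pow_one, roots_multiset_prod_X_sub_C] at this
  exact this ▸ c

theorem un_bc (h : JD v (UN K μ)) : JD (bc F v) (UN K μ) := by
  obtain ⟨D, a⟩ := exists_jd (K := K) (bc F v)
  have e : ∀ j, (bc F v - 1) ^ j = bc F ((v - 1) ^ j) := by simp
  obtain ⟨ν, rfl⟩ := exists_UN fun x hx => ((a.sub_pow 1 μ.sum).1 (by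
    rw [map_one, e, (un_pow h _).2 fun k => Multiset.single_le_sum (by simp) k, map_zero]) x hx).1.trans (map_one _)
  rwa [nType_unique (un_pos h) (un_pos a) fun j => by rw [← un_ker h, ← un_ker a, e, bc_ker]]

theorem RT.of_ev (hn : finrank F V = Fintype.card ι) (h : EV u E) (h0 : ∀ a ∈ E, a ≠ 0) (s : E.map (fr F₀) = E) : RT F₀ ι u := by
  obtain ⟨v, a⟩ := exists_of_ev (V := ι → F₀) s (by simp [← h.dim, hn])
  exact ⟨v, 1, one_ne_zero, a.isUnit h0, (one_smul F (El.bc F v)).symm ▸ a.bc.sim h⟩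

theorem RT.of_pow [Fact r.Prime] (hn : finrank F V = Fintype.card ι) (h : EV u E) (h1 : ∀ a ∈ E, a ^ r = 1) {Q : ℤ}
    (s : E.map (· ^ Q) = E) (e : (Nat.card F₀ : ZMod r) = Q) : RT F₀ ι u :=
  .of_ev hn h (fun a h => ne0 (h1 a h) one_ne_zero) ((Multiset.map_congr rfl fun a h => by
    rw [fr_eq_zpow]; exact zpow_congr (h1 a h) (by simpa)).trans s)

theorem RT.tst [Fact r.Prime] (hr : (r : F) ≠ 0) : Tst K r (Nat.card F₀) (RT F₀ ι : End F V → Prop) := by
  refine ⟨hr, fr_eq_zpow (F := F₀) (K := K) ▸ fr_inj, RT.smul, fun u E a b ⟨v, c, c0, _, e⟩ => ?_⟩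
  cases isEmpty_or_nonempty ι
  · exact ⟨1, by simp, by rw [Multiset.card_eq_zero.1 ((a.of_sim e.symm).dim.symm.trans finrank_zero_of_subsingleton)]; rfl⟩
  obtain ⟨d, f, g⟩ := RT.pow (r := r) (z := 1) c0 e (by simpa)
  obtain ⟨E, h, -⟩ := exists_ev_pow (K := K) (cast_ne0 hr) (by rintro rfl; simp at f) g
  obtain rfl := ((h.bc.smul c0).of_sim e).unique a
  refine ⟨c / c ^ Nat.card F₀, ?_, ?_⟩
  · rw [div_pow, pow_right_comm, eq_inv_of_mul_eq_one_left f.symm, inv_pow, alg_pow, div_self (by simpa using right_ne_zero_of_mul_eq_one f.symm)]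
  · conv_rhs => rw [← h.st]
    simp only [Multiset.map_map]
    exact Multiset.map_congr rfl fun x _ => by simp [fr, mul_pow, c0, ← mul_assoc]

local notation "𝕂" => AlgebraicClosure F

omit [FiniteDimensional F V] in
theorem alg_closure (F₀ F : Type u) [Field F₀] [Field F] [Algebra F₀ F] [Finite F] : Algebra.IsAlgebraic F₀ (AlgebraicClosure F) :=
  haveI : Module.Finite F₀ F := .of_finite
  .trans F₀ F _

theorem RT.of_un [Fact p.Prime] [CharP F p] (hn : finrank F V = Fintype.card ι) (h : u ^ p = 1) :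
    ∃ (v : End F₀ (ι → F₀)) (μ : Multiset ℕ), JD v (UN 𝕂 μ) ∧ JD u (UN 𝕂 μ) ∧ (∀ k ∈ μ, 0 < k ∧ k ≤ p) ∧ IsUnit v ∧
      Sim (El.bc F v) u := by
  haveI := alg_closure F₀ F
  obtain ⟨μ, a, b⟩ := exists_un_of_pow (K := 𝕂) h
  obtain ⟨v, c⟩ := exists_un (F := F₀) (K := 𝕂) (V := ι → F₀) (un_pos a) (by simpa [UN, dimD, hn] using a.dim)
  exact ⟨v, μ, c, a, b, un_unit c, (un_bc c).sim a⟩

theorem sq_two (hq : Nat.card F = Nat.card F₀ ^ 2) (h2 : (2 : F) ≠ 0) {c : F₀} (hc : c ≠ 0) :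
    algebraMap F₀ F c ^ ((Nat.card F - 1) / 2) = 1 := by
  obtain ⟨m, hm⟩ : 2 ∣ Nat.card F₀ + 1 := by have := card_odd (cast_ne0 (F₀ := F₀) (r := 2) h2); omega
  rw [hq, show _ - 1 = _ - 1 ^ 2 from rfl, Nat.sq_sub_sq, hm, mul_assoc, Nat.mul_div_cancel_left _ two_pos, pow_mul', ← map_pow,
    pow_card_sub hc, map_one, one_pow]

variable (hq : Nat.card F = Nat.card F₀ ^ k) (hk : k.Prime) (n2 : 2 ≤ n)
include hq hk n2

theorem sub_two [Fact p.Prime] [CharP F p] (h : 2 ∣ (SF F₀ F (Fin n)).relIndex (Cfsg.Geo.specialLinear _ F)) :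
    Lhs (SLp F (Fin n → F)) 2 (RT F₀ (Fin n)) ↔
      (Odd (Nat.card F) → k = 2 ∧ padicValNat 2 n ≤ padicValNat 2 (Nat.card F - 1)) := by
  haveI := alg_closure F₀ F
  rcases eq_or_ne p 2 with rfl | e
  · refine iff_of_true (lhs_char RT.smul fun u a _ => ?_) fun o => ?_
    · obtain ⟨v, -, -, -, -, b, c⟩ := RT.of_un (F₀ := F₀) (ι := Fin n) (by simp) a
      exact ⟨v, 1, one_ne_zero, b, by simpa⟩
    · haveI := Fintype.ofFinite F
      exact absurd CharTwo.two_eq_zero (odd_card_iff.1 (Nat.card_eq_fintype_card (α := F) ▸ o))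
  have h2 : (2 : F) ≠ 0 := by simpa using cast_ne (F := F) (r := 2) e.symm
  have o := card_odd h2
  have o' := card_odd (cast_ne0 (F₀ := F₀) (r := 2) h2)
  have d : 2 ∣ Nat.card F - 1 := by omega
  obtain rfl : 2 = k := by
    by_contra e
    obtain ⟨i, -, -, a, -⟩ := sub_idx hq hk h2 e (by omega) h
    exact a (by rw [← ZMod.natCast_mod, o']; simp)
  have := nlc_iff' (F := F) (n := n) d (by omega)
  rw [and_iff_left fun _ _ => by rw [hq, Nat.pow_mod]; obtain h | h : Nat.card F₀ % 4 = 1 ∨ Nat.card F₀ % 4 = 3 := by omega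
                                 all_goals simp [h]] at this
  simp only [Nat.odd_iff, o, true_and, this, forall_const]
  refine ⟨fun H l => ?_, fun l => Lhs.of_sl (𝕂) h2 RT.smul (fun u E a b => ?_) fun u z N a _ b c f g => ?_⟩
  · obtain ⟨u, z, N, a, b, -, c, v, w, w0, -, f⟩ := H.nl (K := 𝕂) h2 d (by simpa using l) (by simp; omega)
    haveI : NeZero n := ⟨by omega⟩
    obtain ⟨x, rfl, -⟩ := RT.pow w0 f ((c.pow_iff two_ne_zero z).2 fun _ => mem_srt)
    exact b (by rw [mul_pow, sq_two hq h2 (by rintro rfl; simp at a), ← pow_mul, Nat.mul_div_cancel' d, pow_card_sub w0, mul_one])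
  · exact .of_pow (by simp) a b (Q := 1) (by simp) (by rw [← ZMod.natCast_mod, o']; simp)
  · exact absurd (nlc_of dvd_rfl d (by omega) (by simpa using f) (pow_card_sub a) b g) l

theorem sub_odd [Fact r.Prime] (hr : (r : F) ≠ 0) (r2 : r ≠ 2) (gap : ¬ (n = 6 ∧ r = 3))
    (gap' : r = k → r ∣ Nat.card F₀ - 1 → padicValNat r n ≤ padicValNat r (Nat.card F - 1))
    (h : r ∣ (SF F₀ F (Fin n)).relIndex (Cfsg.Geo.specialLinear _ F)) : Lhs (SLp F (Fin n → F)) r (RT F₀ (Fin n)) ↔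
      r = k ∨ k = 2 ∧ r = n ∧ (n = 3 ∨ n = 5) ∧ padicValNat r (Nat.card F₀ + 1) = 1 := by
  haveI := alg_closure F₀ F
  have hp : r.Prime := Fact.out
  have e2 : (Nat.card F : ZMod r) = (Nat.card F₀ : ZMod r) ^ k := by rw [hq]; simp
  rcases eq_or_ne r k with rfl | e
  · rw [ZMod.pow_card] at e2
    refine iff_of_true (Lhs.of_sl (𝕂) hr RT.smul (fun u E a b => ?_) fun u z N a d b c f g => ?_) (.inl rfl)
    · exact .of_pow (by simp) a b (fr_eq_zpow (F := F) (K := 𝕂) ▸ a.st) (by simpa using e2.symm)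
    · exact absurd (nlc_of dvd_rfl d (by omega) (by simpa using f) (pow_card_sub a) b g) ((nlc_iff' d (by omega)).1
        ⟨gap' rfl (ord_one_iff'.1 (e2 ▸ ord_one_iff'.2 d)), fun h => absurd h r2⟩)
  have e1 : k = 2 → ¬ r ∣ Nat.card F₀ - 1 → padicValNat r (Nat.card F - 1) = padicValNat r (Nat.card F₀ + 1) := by
    rintro rfl h
    rw [hq, show _ - 1 = _ - 1 ^ 2 from rfl, Nat.sq_sub_sq, val_mul (by simp) h]
  simp only [e, false_or]
  refine ⟨fun H => ?_, fun ⟨a, b, c, d⟩ => ?_⟩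
  · obtain ⟨i, a, b, c, d⟩ := sub_idx hq hk hr e (by omega) h
    have t := RT.tst (K := 𝕂) (V := Fin n → F) (F₀ := F₀) (ι := Fin n) hr
    by_cases o : orderOf (Nat.card F : ZMod r) = 1
    · have x : (Nat.card F₀ : ZMod r) ≠ 1 := fun x => c (by rw [x, one_pow])
      obtain ⟨y, rfl, w⟩ := t.one H r2 (ord_one_iff'.1 o) (by simpa using x) (by simp) (n2.eq_or_lt.symm.imp id fun y =>
        ⟨y.symm, fun x => c (by rw [show i = 2 by omega, show (Nat.card F₀ : ZMod r) = -1 by simpa using x]; simp)⟩) gap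
      have o := e2.symm.trans (orderOf_eq_one_iff.1 o)
      have k2 : k ∣ 2 ^ 2 := (orderOf_eq_prime (hp := ⟨hk⟩) o x ▸
        ZMod.orderOf_dvd_card_sub_one (fun e => by simp [e, hk.ne_zero] at o) : k ∣ n - 1).trans
        (by rcases y with rfl | rfl <;> decide)
      have k2 := (Nat.prime_dvd_prime_iff_eq hk Nat.prime_two).1 (hk.dvd_of_dvd_pow k2)
      exact ⟨k2, rfl, y, e1 k2 (fun h => x (orderOf_eq_one_iff.1 (ord_one_iff'.2 h))) ▸ w⟩
    · obtain ⟨j, f⟩ := t.big H o ((orderOf_le_of_pow_eq_one (by omega) d).trans (by simpa using b))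
      exact absurd (by rw [show (Nat.card F₀ : ZMod r) = _ by simpa using f.symm, pow_right_comm, d, one_pow]) c
  · subst a b
    haveI : Fact (2 < r) := ⟨hp.two_le.lt_of_ne' r2⟩
    have q1 : (Nat.card F₀ : ZMod r) = -1 := by
      simpa [eq_neg_iff_add_eq_zero] using (ZMod.natCast_eq_zero_iff _ _).2 (dvd_of_one_le_padicValNat d.ge)
    exact pos_35 (K := 𝕂) c (by simp) (by rwa [e1 rfl fun h => ZMod.neg_one_ne_one
      (q1 ▸ orderOf_eq_one_iff.1 (ord_one_iff'.2 h))]) hr RT.smul fun u E a b c =>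
        .of_pow (by simp) a b (Q := -1) (by simpa) (by simpa)

omit hq hk n2 [Finite F] in
theorem comm_sq {N y : End F V} (h : LinearMap.ker N = LinearMap.range N) (c : y * N = N * y) : IsSquare (LinearMap.det y) := by
  have i : LinearMap.ker N ≤ (LinearMap.ker N).comap y := fun x hx => by
    simpa [LinearMap.mem_ker.1 hx] using (LinearMap.congr_fun c x).symm
  refine ⟨_, (y.det_eq_det_mul_det _ i).trans (congrArg _ ?_)⟩
  rw [← LinearMap.det_conj _ (N.quotKerEquivRange.trans (.ofEq _ _ h.symm))]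
  refine congrArg _ (LinearMap.ext fun x => ?_)
  obtain ⟨x, rfl⟩ := (N.quotKerEquivRange.trans (.ofEq _ _ h.symm)).surjective x
  obtain ⟨x, rfl⟩ := Submodule.Quotient.mk_surjective _ x
  simp only [LinearMap.comp_apply, LinearEquiv.coe_coe, LinearEquiv.symm_apply_apply]
  exact Subtype.ext (LinearMap.congr_fun c x).symm

omit hq hk n2 in
theorem CJ.smul {H : Subgroup (GL ι F)} (hH : Cfsg.Geo.scalars ι F ≤ H) (u : End F (ι → F)) (c : F) (hc : c ≠ 0)
    (h : CJ H (c • u)) : CJ H u := by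
  obtain ⟨g, a, h, b, e⟩ := h
  refine ⟨g, a, _, H.mul_mem (hH ⟨(Units.mk0 c hc)⁻¹, rfl⟩) b, ?_⟩
  rw [map_mul, glE_eq (Units.map _ _)]
  simp [← Matrix.smul_one_eq_diagonal, ← Module.End.one_eq_id, ← e, smul_smul, hc]

theorem sub_three [CharP F 3] : Lhs (SLp F (Fin n → F)) 3 (CJ (SF F₀ F (Fin n))) ↔ Odd n ∨ Even n ∧ 2 < k := by
  haveI := alg_closure F₀ F
  haveI := Fact.mk Nat.prime_three
  haveI : NeZero n := ⟨by omega⟩
  have h2 : (2 : F) ≠ 0 := by simpa using cast_ne (F := F) (r := 2) (p := 3) (by simp)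
  refine ⟨fun H => n.even_or_odd.symm.imp_right fun e => ⟨e, hk.two_le.lt_of_ne fun e' => ?_⟩, fun H =>
    lhs_char (CJ.smul le_sup_right) fun u a _ => ?_⟩
  · subst e'
    haveI := (algebraMap F₀ F).charP (algebraMap F₀ F).injective 3
    obtain ⟨m, rfl⟩ := e.two_dvd
    obtain ⟨v, a⟩ := exists_un (F := F₀) (K := 𝕂) (V := Fin (2 * m) → F₀) (μ := .replicate m 2)
      (by simp [Multiset.mem_replicate]) (by simp [mul_comm])
    obtain ⟨x, rfl⟩ := exists_glE (un_unit a)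
    haveI := Fintype.ofFinite F
    obtain ⟨d, hd⟩ := FiniteField.exists_nonsquare (F := F) (by rw [ringChar.eq F 3]; simp)
    obtain ⟨g, hg⟩ := Matrix.GeneralLinearGroup.det_surjective (n := Fin (2 * m)) (Units.mk0 d (by rintro rfl; simp at hd))
    have b := un_bc (F := F) a
    rw [bc_glE] at b
    have c := b.of_sim (sim_of_mul (u := glE (g * .map (algebraMap F₀ F) x * g⁻¹)) g (by simp [← map_mul]))
    obtain ⟨g', f, h, i, j⟩ := H.un c (un_det c) (by simp +contextual [Multiset.mem_replicate]) ⟨2, by rw [Multiset.mem_replicate]; omega, by simp⟩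
    obtain ⟨v, w, w0, -, l⟩ := mem_SF.1 i
    have s := l ▸ sim_of_mul g' j
    obtain ⟨e, o, t⟩ := RT.pow (r := 3) (z := 1) w0 s (by
      simpa using un_char (p := 3) (j := 1) c (by simp +contextual [Multiset.mem_replicate]))
    obtain ⟨e, rfl⟩ := surjective_frobenius F₀ 3 e
    have e0 : e ≠ 0 := by rintro rfl; simp at o
    obtain ⟨ν, t', -⟩ := exists_un_of_pow (K := 𝕂) (smul_pow_one e0 t)
    have l' : bc F (e⁻¹ • v) = w • bc F v := by
      rw [eq_inv_of_mul_eq_one_left (hn_p (p := 3) (w * algebraMap F₀ F e) (by simpa [mul_pow, frobenius_def] using o.symm)),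
        Algebra.smul_def, map_mul, bc_alg, Algebra.smul_def, map_inv₀]
    obtain rfl := UN_inj (((un_bc t').of_sim (l' ▸ s)).unique c)
    obtain ⟨y, hy⟩ := sim_mul (t'.sim a)
    have hy := congrArg (bc F) hy
    simp only [map_mul, l', l, bc_glE] at hy j
    simp only [← map_mul, glE_injective.eq_iff] at hy j
    have := comm_sq (N := glE _ - 1) (y := glE (g⁻¹ * g' * (Matrix.GeneralLinearGroup.map (algebraMap F₀ F) y)⁻¹))
      (Submodule.eq_of_le_of_finrank_eq (by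
        rintro _ ⟨x, rfl⟩
        exact LinearMap.congr_fun ((sq _).symm.trans ((un_pow b 2).2 (by simp +contextual [Multiset.mem_replicate]))) x) (by
        have x1 := un_ker b 1
        have x2 := dim01 (glE (Matrix.GeneralLinearGroup.map (algebraMap F₀ F) x))
        rw [pow_one] at x1
        simp [x1, V0, V1] at x2 ⊢
        omega)).symm (comm_sub_one.2 (by
          have := eq_mul_inv_of_mul_eq ((map_mul _ x y).symm.trans hy)
          rw [this] at j ⊢
          simpa [mul_assoc, ← map_mul] using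
            congrArg (fun a => glE (g⁻¹ * a * (Matrix.GeneralLinearGroup.map (algebraMap F₀ F) y)⁻¹)) j.symm))
    obtain ⟨z, -, hz⟩ := exists_pow_of (r := 2) dvd_rfl (pow_card_sub ((_root_.map_ne_zero _).2 y.det_ne_zero))
      (.inr (sq_two hq h2 y.det_ne_zero))
    refine hd ?_
    have := (this.mul ⟨z, hz.symm.trans (sq z)⟩).inv
    simpa [← show g.1.det = d from congrArg Units.val hg, y.det_ne_zero, det_glE, f, g.det_ne_zero,
      show (y.1.map (algebraMap F₀ F)).det = algebraMap F₀ F y.1.det from (RingHom.map_det _ _).symm] using this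
  obtain ⟨v, μ, -, b, c, d, e⟩ := RT.of_un (F₀ := F₀) (ι := Fin n) (by simp) a
  by_cases f : 1 ∈ μ ∨ 3 ∈ μ
  · exact SI.cj (by rw [si_rt]; exact ⟨v, 1, one_ne_zero, d, by simpa⟩) (cd_un b f)
  have f : μ = .replicate μ.card 2 := Multiset.eq_replicate_card.2 fun j hj => by
    have := c j hj
    obtain rfl | rfl | rfl : j = 1 ∨ j = 2 ∨ j = 3 := by omega
    all_goals simp_all
  have n1 : n = 2 * μ.card := by have := b.dim; rw [f] at this; simpa [UN, dimD, mul_comm] using this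
  obtain ⟨t, ht⟩ : Odd (∑ j ∈ Finset.range k, Nat.card F₀ ^ j) := by
    rw [← ZMod.natCast_eq_one_iff_odd, Nat.cast_sum]
    simpa [ZMod.natCast_eq_one_iff_odd.2 (Nat.odd_iff.2 (card_odd (cast_ne0 (F₀ := F₀) (r := 2) h2))),
      ZMod.natCast_eq_one_iff_odd] using hk.odd_of_ne_two (H.resolve_left (by simp [n1])).2.ne'
  obtain ⟨x, rfl⟩ := exists_glE d
  rw [bc_glE] at e
  obtain ⟨g, hg⟩ := sim_mul e
  obtain ⟨δ, hδ⟩ := exists_alg_of_fr (F := F₀) (a := g.1.det ^ (2 * t + 1)) (by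
    rw [fr, ← Nat.sub_add_cancel (Nat.card_pos (α := F₀)), pow_succ, ← pow_mul, ← ht, ← geom_eq Nat.card_pos, ← hq,
      pow_card_sub g.det_ne_zero, one_mul])
  obtain ⟨y, a, b⟩ := un_comm b (k := 2) (by rw [f, Multiset.mem_replicate]; omega) (g.1.det ^ t)
  obtain ⟨w, hw⟩ := Matrix.GeneralLinearGroup.det_surjective (n := Fin n) (Units.mk0 δ (by
    rintro rfl; exact pow_ne_zero _ g.det_ne_zero (hδ.symm.trans (map_zero _))))⁻¹
  refine cj_of (Subgroup.mem_sup_left ⟨x, rfl⟩) hg a (Subgroup.mem_sup_left ⟨w, rfl⟩) ?_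
  rw [b, ← det_glE (Matrix.GeneralLinearGroup.map _ w), ← bc_glE, bc_det, det_glE, show w.1.det = δ⁻¹ by simpa using congrArg Units.val hw,
    map_inv₀, hδ, ← pow_mul', ← pow_succ, mul_inv_cancel₀ (pow_ne_zero _ g.det_ne_zero)]

end H25.El
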