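import Cfsg.Agent.H25.El24

/-! Elusive actions, XXV: direct sum decompositions for `SL`. -/

set_option autoImplicit false

namespace H25.El

open Module Polynomial Function H22 H27.Sp H12 Pointwise

universe u

variable {F : Type u} {K : Type*} [Field F] [Field K] [Algebra F K] {V W X : Type u} [AddCommGroup V] [Module F V]
  [AddCommGroup W] [Module F W] [AddCommGroup X] [Module F X] {u : End F V} {v : End F W} {w : End F X}
  {n r p a b s t c k m N : ℕ} {z : F} {E E' : Multiset K}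

/-- `u` permutes `t` spanning subspaces of dimension at most `a` -/
def DC (a t : ℕ) (u : End F V) : Prop := ∃ (D : Fin t → Submodule F V) (σ : Equiv.Perm (Fin t)),
  (∀ j, finrank F (D j) ≤ a ∧ (D j).map u ≤ D (σ j)) ∧ iSup D = ⊤

theorem DC.of {κ : Type} [Fintype κ] (D : κ → Submodule F V) (σ : Equiv.Perm κ)
    (h : ∀ j, finrank F (D j) ≤ a ∧ (D j).map u ≤ D (σ j)) (h' : iSup D = ⊤) (ht : Fintype.card κ = t) : DC a t u :=
  let e := Fintype.equivFinOfCardEq ht
  ⟨D ∘ e.symm, e.permCongr σ, fun j => by simpa using h _, e.symm.iSup_comp.trans h'⟩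

theorem DC.one (h : finrank F V ≤ a) : DC a 1 u := ⟨fun _ => ⊤, 1, fun _ => ⟨by simpa, le_top⟩, iSup_const⟩

theorem DC.smul (u : End F V) (c : F) (hc : c ≠ 0) (h : DC a t (c • u)) : DC a t u := by
  simpa only [DC, Submodule.map_smul _ _ _ hc] using h

variable (W) in
/-- twisted cyclic shift -/
def sh (d : ZMod r → F) : End F (ZMod r → W) := .pi fun i => d i • .proj (i - 1)

theorem sh_pow' (d : ZMod r → F) (k : ℕ) (x : ZMod r → W) (i : ZMod r) :
    (sh W d ^ k) x i = (∏ j ∈ Finset.range k, d (i - j)) • x (i - k) := by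
  induction k generalizing x with
  | zero => simp
  | succ k ih => rw [pow_succ, End.mul_apply, ih]; simp [sh, Finset.prod_range_succ, smul_smul, sub_sub]

theorem sh_pow [NeZero r] (d : ZMod r → F) : sh W d ^ r = algebraMap F _ (∏ i, d i) := by
  refine LinearMap.ext fun x => funext fun i => ?_
  obtain ⟨r, rfl⟩ := Nat.exists_eq_add_one_of_ne_zero (NeZero.ne r)
  rw [sh_pow', ZMod.natCast_self, sub_zero, ← Fin.prod_univ_eq_prod_range fun j => d (i - j), ← (Equiv.subLeft i).prod_comp]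
  exact congrArg (· • x i) (Finset.prod_congr rfl fun j _ => congrArg (d <| i - ·) (ZMod.natCast_zmod_val (n := r + 1) j))

theorem sh_V0 [NeZero r] : finrank F (V0 (sh W (1 : ZMod r → F))) = finrank F W := by
  have : V0 (sh W (1 : ZMod r → F)) = LinearMap.range (LinearMap.pi fun _ => .id) := by
    refine le_antisymm (fun x h => ⟨x 0, funext fun i => ?_⟩) (by rintro _ ⟨x, rfl⟩; exact mem_V0.2 (by ext; simp [sh]))
    obtain ⟨n, rfl⟩ := ZMod.natCast_zmod_surjective i
    induction n with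
    | zero => simp
    | succ n ih => simpa [sh, ← ih] using congrFun (mem_V0.1 h) (n + 1)
  rw [this, LinearMap.finrank_range_of_inj fun x y h => congrFun h 0]

variable [FiniteDimensional F V] [FiniteDimensional F W] [FiniteDimensional F X]

theorem DC.zero (h : finrank F V = 0) : DC a 0 u :=
  haveI := finrank_zero_iff.1 h
  ⟨Fin.elim0, 1, fun j => j.elim0, Subsingleton.elim _ _⟩

theorem dc_map (f : W →ₗ[F] V) (hf : ∀ x, f (v x) = u (f x)) {A B : Submodule F W} (h : finrank F A ≤ a ∧ A.map v ≤ B) :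
    finrank F (A.map f) ≤ a ∧ (A.map f).map u ≤ B.map f :=
  ⟨(A.finrank_map_le f).trans h.1, by rintro _ ⟨_, ⟨x, hx, rfl⟩, rfl⟩; exact ⟨_, h.2 ⟨x, hx, rfl⟩, hf x⟩⟩

theorem DC.glue (h : DC a s v) (h' : DC a t w) (f : W →ₗ[F] V) (g : X →ₗ[F] V) (hf : ∀ x, f (v x) = u (f x))
    (hg : ∀ x, g (w x) = u (g x)) (e : LinearMap.range f ⊔ LinearMap.range g = ⊤) : DC a (s + t) u := by
  obtain ⟨D, σ, a1, a2⟩ := h
  obtain ⟨E, τ, b1, b2⟩ := h'
  exact .of (Sum.elim (fun j => (D j).map f) fun j => (E j).map g) (σ.sumCongr τ)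
    (Sum.rec (fun j => dc_map f hf (a1 j)) fun j => dc_map g hg (b1 j))
    (by simpa [iSup_sum, ← Submodule.map_iSup, a2, b2] using e) (by simp)

theorem DC.sim (h : DC a t v) (e : Sim v u) : DC a t u :=
  let ⟨D, σ, a1, a2⟩ := h
  let ⟨e, he⟩ := e
  ⟨fun j => (D j).map e.toLinearMap, σ, fun j => dc_map _ he (a1 j), by simp [← Submodule.map_iSup, a2]⟩

theorem DC.prod (h : DC a s v) (h' : DC a t w) : DC a (s + t) (v.prodMap w : End F (W × X)) :=
  h.glue h' (.inl F _ _) (.inr F _ _) (by simp) (by simp) LinearMap.sup_range_inl_inr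

theorem dc_sh [NeZero r] (d : ZMod r → F) (h : finrank F W ≤ a) : DC a r (sh W d) :=
  .of (fun i => LinearMap.range (.single F _ i)) (.addRight 1) (fun i => ⟨(LinearMap.finrank_range_le _).trans h, by
    rintro _ ⟨_, ⟨x, rfl⟩, rfl⟩
    exact ⟨d (i + 1) • x, funext fun j => by
      rcases eq_or_ne j (i + 1) with rfl | e
      · simp [sh]
      · simp [sh, e, sub_eq_iff_eq_add]⟩⟩) (LinearMap.iSup_range_single _ _) (ZMod.card r)

theorem fr_sup {κ : Type} (S : Finset κ) {D : κ → Submodule F V} (h : ∀ j ∈ S, finrank F (D j) ≤ b) :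
    finrank F ↥(⨆ j ∈ S, D j) ≤ b * S.card := by
  classical
  induction S using Finset.induction with
  | empty => simp
  | insert j S e ih =>
    have := Submodule.finrank_add_le_finrank_add_finrank (D j) (⨆ j ∈ S, D j)
    have := h j (by simp)
    have := ih fun j e => h j (by simp [e])
    rw [Finset.iSup_insert, Finset.card_insert_of_notMem e, mul_add]
    omega

/-- decompositions -/
def ID (a : ℕ) (D : Fin t → Submodule F V) : Prop := (∀ j, finrank F (D j) = a) ∧ iSupIndep D ∧ iSup D = ⊤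

theorem ID.compl {D : Fin t → Submodule F V} (h : ID a D) (j : Fin t) : IsCompl (D j) (⨆ k ≠ j, D k) :=
  ⟨h.2.1 j, codisjoint_iff.2 ((iSup_split_single D j).symm.trans h.2.2)⟩

theorem dc_iff (hn : finrank F V = a * t) (hu : IsUnit u) :
    DC a t u ↔ ∃ D : Fin t → Submodule F V, ID a D ∧ ∃ σ : Equiv.Perm (Fin t), ∀ j, (D j).map u = D (σ j) := by
  refine ⟨fun ⟨D, σ, a1, a2⟩ => ?_, fun ⟨D, a1, σ, a2⟩ => ⟨D, σ, fun j => ⟨(a1.1 j).le, (a2 j).le⟩, a1.2.2⟩⟩
  have k : ∀ j, finrank F (D j) = a ∧ Disjoint (D j) (⨆ k ≠ j, D k) := fun j => by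
    have := fr_sup (.erase .univ j) fun k _ => (a1 k).1
    rw [show (⨆ k ∈ Finset.univ.erase j, D k) = ⨆ k ≠ j, D k by simp, Finset.card_erase_of_mem (by simp), Finset.card_fin] at this
    have := Submodule.finrank_sup_add_finrank_inf_eq (D j) (⨆ k ≠ j, D k)
    rw [← iSup_split_single, a2, finrank_top] at this
    have := (a1 j).1
    have := Nat.mul_sub_one a t
    have := Nat.le_mul_of_pos_right a j.pos
    rw [disjoint_iff, ← Submodule.finrank_eq_zero]
    omega
  exact ⟨D, ⟨fun j => (k j).1, fun j => (k j).2, a2⟩, σ, fun j => Submodule.eq_of_le_of_finrank_eq (a1 j).2 (by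
    rw [← (Submodule.equivMapOfInjective u ((End.isUnit_iff u).1 hu).1 _).finrank_eq, (k _).1, (k _).1])⟩

theorem ID.inj {D : Fin t → Submodule F V} (h : ID a D) (ha : 0 < a) : Injective D :=
  h.2.1.injective fun j e => by have := h.1 j; rw [e, finrank_bot] at this; omega

theorem ID.equiv {D : Fin t → Submodule F V} (h : ID a D) (hn : finrank F V = a * t) :
    ∃ φ : (Fin t → Fin a → F) ≃ₗ[F] V, ∀ j, (LinearMap.range (.single F _ j)).map φ.toLinearMap = D j := by
  let e := fun j => LinearEquiv.ofFinrankEq (R := F) (Fin a → F) (D j) (by simp [h.1])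
  let f := LinearMap.lsum F _ F fun j => (D j).subtype ∘ₗ (e j).toLinearMap
  have k : ∀ j, (LinearMap.range (.single F _ j)).map f = D j := fun j => by
    rw [← LinearMap.range_comp, show f ∘ₗ _ = (D j).subtype ∘ₗ (e j).toLinearMap from
      LinearMap.ext fun x => LinearMap.lsum_piSingle _ _ _ _ _ _, LinearMap.range_comp]
    simp
  have : Surjective f := LinearMap.range_eq_top.1 (by
    rw [← Submodule.map_top, ← LinearMap.iSup_range_single, Submodule.map_iSup, ← h.2.2, funext k])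
  exact ⟨.ofBijective f ⟨(LinearMap.injective_iff_surjective_of_finrank_eq_finrank (by
    simp [finrank_pi_fintype, hn, mul_comm])).2 this, this⟩, k⟩

theorem ID.dvd {D : Fin t → Submodule F V} (h : ID a D) (hn : finrank F V = a * t) :
    Nat.card {D : Fin t → Submodule F V // ID a D} ∣ Nat.card (V ≃ₗ[F] V) :=
  card_dvd_trans _ D fun E => ⟨fun h' => by
    obtain ⟨φ, a⟩ := h.equiv hn
    obtain ⟨ψ, b⟩ := h'.equiv hn
    exact ⟨φ.symm ≪≫ₗ ψ, funext fun j => by rw [Pi.smul_apply, sm_eq, ← a, ← b, ← Submodule.map_comp]; congr; ext; simp⟩, by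
    rintro ⟨g, rfl⟩
    exact ⟨fun j => (finrank_sm g _).trans (h.1 j), h.2.1.map_orderIso (Submodule.orderIsoMapComap g),
      (Submodule.map_iSup (g : V →ₗ[F] V) D).symm.trans (by simp [h.2.2])⟩⟩

theorem inj_le {f : W →ₗ[F] V} (hf : Injective f) (h : ∀ x, f (v x) = u (f x)) (j : ℕ) :
    finrank F (LinearMap.ker ((v - 1) ^ j)) ≤ finrank F (LinearMap.ker ((u - 1) ^ j)) ∧
      finrank F (LinearMap.range ((v - 1) ^ j)) ≤ finrank F (LinearMap.range ((u - 1) ^ j)) := by
  have k := LinearMap.congr_fun (End.commute_pow_left_of_commute (g := v - 1) (f := f) (g₂ := u - 1) (by ext; simp [h]) j)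
  simp only [(Submodule.equivMapOfInjective f hf _).finrank_eq]
  exact ⟨Submodule.finrank_mono (by rintro _ ⟨x, e, rfl⟩; exact (k x).trans ((congrArg f e).trans f.map_zero)),
    Submodule.finrank_mono (by rintro _ ⟨_, ⟨x, rfl⟩, rfl⟩; exact ⟨_, k x⟩)⟩

variable [Fact r.Prime]

theorem ID.struct {D : Fin t → Submodule F V} (h : ID a D) {σ : Equiv.Perm (Fin t)} (hσ : ∀ j, (D j).map u = D (σ j))
    (hn : finrank F V = a * t) (ha : 0 < a) (hu : u ^ r = 1) : ∃ (m : ℕ) (A : Submodule F V) (f : (ZMod r → A) →ₗ[F] V),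
      Injective f ∧ (∀ x, f (sh A (1 : ZMod r → F) x) = u (f x)) ∧ finrank F A = a * m ∧ (Finset.univ.filter fun j => σ j = j).card + r * m = t ∧
        (⨆ j ∈ Finset.univ.filter fun j => σ j = j, D j) ⊔ LinearMap.range f = ⊤ := by
  have k : ∀ n j, (D j).map (u ^ n) = D (σ^[n] j) := fun n j => by
    induction n with
    | zero => exact Submodule.map_id _
    | succ n ih => rw [pow_succ', iterate_succ_apply', ← hσ, ← ih, ← Submodule.map_comp]; rfl
  obtain ⟨T, a1, a2⟩ := exists_orbs σ.injective (Finset.univ.val.filter fun j => ¬ σ j = j)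
    (st_filter (Multiset.map_univ_val_equiv σ) _ (by simp))
  have a3 : ∀ j ∈ T, minimalPeriod σ j = r := fun j e => minimalPeriod_eq_prime
    (h.inj ha (by rw [← k, hu]; exact Submodule.map_id _)) (by simpa [IsFixedPt] using a1 j e)
  rw [Multiset.bind_congr fun j e => by rw [a3 j e]] at a2
  have a4 := Finset.card_filter_add_card_filter_not (s := .univ) fun j => σ j = j
  rw [Finset.card_def (.filter (fun j => ¬ σ j = j) _), Finset.filter_val, a2] at a4
  obtain ⟨A, hA⟩ : ∃ A, A = ⨆ j ∈ T.toFinset, D j := ⟨_, rfl⟩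
  let f : (ZMod r → A) →ₗ[F] V := LinearMap.lsum F _ F fun i => (u ^ i.val) ∘ₗ A.subtype
  have a5 : (⨆ j ∈ Finset.univ.filter fun j => σ j = j, D j) ⊔ LinearMap.range f = ⊤ := by
    refine eq_top_iff.2 (h.2.2 ▸ iSup_le fun j => ?_)
    by_cases e : σ j = j
    · exact le_sup_of_le_left (le_iSup₂_of_le j (by simpa) le_rfl)
    obtain ⟨l, b, c⟩ := Multiset.mem_bind.1 (show j ∈ T.bind (orb σ r) by rw [← a2]; simpa)
    obtain ⟨i, c', rfl⟩ := mem_orb.1 c
    rw [← k]
    rintro _ ⟨y, d, rfl⟩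
    exact Submodule.mem_sup_right ⟨Pi.single i ⟨y, hA ▸ Submodule.mem_iSup_of_mem l (Submodule.mem_iSup_of_mem (by simpa) d)⟩,
      (LinearMap.lsum_piSingle ..).trans (by simp [ZMod.val_cast_of_lt c'])⟩
  have b1 := fr_sup (.filter (fun j => σ j = j) .univ) fun j _ => (h.1 j).le
  have b2 := (fr_sup T.toFinset fun j _ => (h.1 j).le).trans (Nat.mul_le_mul_left a T.toFinset_card_le)
  have b3 := Submodule.finrank_add_le_finrank_add_finrank (⨆ j ∈ Finset.univ.filter fun j => σ j = j, D j) (LinearMap.range f)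
  have b4 := f.finrank_range_add_finrank_ker
  have b5 := hA ▸ Nat.mul_le_mul_left r b2
  rw [a5, finrank_top, hn] at b3
  simp [finrank_pi_fintype] at a4 b4
  have b6 : a * t = a * (Finset.univ.filter fun j => σ j = j).card + r * (a * T.card) := (congrArg _ a4.symm).trans (by ring)
  refine ⟨T.card, A, f, LinearMap.ker_eq_bot.1 (Submodule.finrank_eq_zero.1 (by omega)), fun x => ?_,
    Nat.eq_of_mul_eq_mul_left (Fact.out : r.Prime).pos (by omega), by rwa [mul_comm], a5⟩
  simp only [f, LinearMap.lsum_apply, LinearMap.sum_apply, map_sum]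
  rw [← Equiv.sum_comp (.addRight 1)]
  simp [sh, ZMod.val_add, ZMod.val_one, ← pow_eq_pow_mod _ hu, pow_succ']

theorem sh_one : sh W (1 : ZMod r → F) ^ r = 1 := by simp [sh_pow]

variable [Finite F]

theorem sh_V1 : finrank F (V1 (sh W (1 : ZMod r → F))) = (r - 1) * finrank F W := by
  have := dim01 (sh W (1 : ZMod r → F))
  simp [sh_V0, finrank_pi_fintype] at this
  rw [Nat.sub_one_mul, ← this, Nat.add_sub_cancel]

theorem DC.num (h : DC a t u) (hn : finrank F V = a * t) (ha : 0 < a) (hr : (r : F) ≠ 0) (hu : u ^ r = 1)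
    (hc : c = orderOf (Nat.card F : ZMod r)) : ∃ s m, s + r * m = t ∧ a * m ≤ finrank F (V0 u) ∧
      (r - 1) * (a * m) ≤ finrank F (V1 u) ∧ finrank F (V1 u) ≤ c * (a / c) * s + (r - 1) * (a * m) := by
  obtain ⟨D, h, σ, hσ⟩ := (dc_iff hn (unit_of_pow hu)).1 h
  obtain ⟨m, A, f, a1, a2, a3, a4, a5⟩ := h.struct hσ hn ha hu
  have := inj_le a1 a2 1
  rw [pow_one, pow_one, sh_V0, sh_V1, a3] at this
  refine ⟨_, m, a4, this.1, this.2, ?_⟩
  rw [V1, LinearMap.range_eq_map, ← a5, Submodule.map_sup]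
  refine (Submodule.finrank_add_le_finrank_add_finrank _ _).trans (add_le_add ?_ ?_)
  · rw [Submodule.map_iSup, funext fun j => Submodule.map_iSup ..]
    refine fr_sup _ fun j e => ?_
    have i : ∀ x ∈ D j, u x ∈ D j := map_le_iff.1 (by simp_all)
    obtain ⟨k, e⟩ := hc ▸ dvd_dim1 hr hu i
    have := Submodule.finrank_mono (inf_le_left : D j ⊓ V1 u ≤ _)
    refine (Submodule.finrank_mono (t := D j ⊓ V1 u) ?_).trans (e ▸ Nat.mul_le_mul_left _ ((Nat.le_div_iff_mul_le
      (hc ▸ ord_pos hr)).2 (by rwa [e, h.1, mul_comm] at this)))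
    rintro _ ⟨x, hx, rfl⟩
    exact ⟨sub_mem (i x hx) hx, x, rfl⟩
  · rw [← a3, ← sh_V1]
    refine (Submodule.finrank_mono ?_).trans (Submodule.finrank_map_le f _)
    rintro _ ⟨_, ⟨x, rfl⟩, rfl⟩
    exact ⟨_, ⟨x, rfl⟩, by simp [a2]⟩

variable (F) in
/-- all semisimple maps of type `E` permute a decomposition -/
def DM (a t : ℕ) (E : Multiset K) : Prop := E.map (fr F) = E ∧
  ∀ (V : Type u) [AddCommGroup V] [Module F V] [FiniteDimensional F V] (u : End F V), EV u E → DC a t u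

omit [Fact r.Prime] in
theorem DM.one (h : E.map (fr F) = E) (h' : E.card ≤ a) : DM F a 1 E := ⟨h, fun _ _ _ _ _ e => .one (e.dim ▸ h')⟩

variable [Algebra.IsAlgebraic F K]

section
omit [Fact r.Prime]

theorem DM.add (h : DM F a s E) (h' : DM F a t E') : DM F a (s + t) (E + E') := ⟨st_add h.1 h'.1, fun _ _ _ _ u e => by
  obtain ⟨U, U', i, i', c, b, b'⟩ := e.split h.1
  exact (h.2 _ _ b).glue (h'.2 _ _ b') U.subtype U'.subtype (fun _ => rfl) (fun _ => rfl) (by simpa using c.sup_eq_top)⟩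

theorem DM.smul (h : DM F a s E) (k : ℕ) : DM F a (k * s) (k • E) := by
  induction k with
  | zero => exact ⟨by simp, fun _ _ _ _ _ h => by simpa using DC.zero (by simpa using h.dim)⟩
  | succ k ih => rw [Nat.succ_mul, succ_nsmul]; exact ih.add h

theorem dm_pf (c0 : 0 < c) (t : ℕ) : ∀ {E : Multiset K} {k N}, Pf (fr F) 1 c E k N → E.card = a * t → N ≤ a / c * t →
    DM F a t E := by
  induction t with
  | zero => exact fun h e _ => ⟨h.st, fun _ _ _ _ _ h => .zero (h.dim.trans e)⟩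
  | succ t ih =>
    intro E k N h e l
    have := h.card
    have b := Nat.mul_div_le a c
    have := Nat.mul_le_mul_right t b
    have := Nat.mul_le_mul_left c l
    have d := (Nat.mul_le_mul_left c (min_le_right N (a / c))).trans b
    rw [mul_add_one] at e l
    obtain ⟨A, B, rfl, f, g⟩ := h.sub fr_inj fr_one (a₁ := a - c * min N (a / c)) (N₁ := min N (a / c)) (by
      rw [← mul_assoc, mul_add_one] at *
      rcases min_cases N (a / c) with ⟨e, -⟩ | ⟨e, -⟩ <;> rw [e] <;> omega) (min_le_left _ _)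
    have := f.card
    rw [Multiset.card_add] at e
    exact add_comm t 1 ▸ (DM.one f.st (by omega)).add (ih g (by omega) (by omega))

end

variable [IsAlgClosed K]

theorem dm_nl (hr : (r : F) ≠ 0) (hz : z ≠ 0) (h : r ∣ Nat.card F - 1) (h1 : z ^ ((Nat.card F - 1) / r) ≠ 1)
    (e : a * t = r * N) : DM F a t (N • rt r (algebraMap F K z)) := by
  have hp : r.Prime := Fact.out
  rcases hp.dvd_mul.1 ⟨_, e⟩ with ⟨b, rfl⟩ | ⟨s, rfl⟩
  · obtain rfl : b * t = N := Nat.eq_of_mul_eq_mul_left hp.pos (by rw [← e, mul_assoc])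
    simpa [mul_nsmul] using (DM.one (a := r * b) (rt_fr hr hz b) (by simp [rt_card, mul_comm])).smul t
  · obtain rfl : a * s = N := Nat.eq_of_mul_eq_mul_left hp.pos (by rw [← e]; ring)
    rw [mul_nsmul, mul_comm]
    exact DM.smul ⟨rt_fr hr hz a, fun _ _ _ _ u e => (dc_sh (W := Fin a → F) (Pi.mulSingle 0 z) (by simp)).sim
      (sim_nl hr hz h h1 e (by simp [sh_pow]) (by simp [e.dim, rt_card, finrank_pi_fintype, mul_comm]))⟩ s

theorem dm_full (hr : (r : F) ≠ 0) (r2 : r ≠ 2) (hc : orderOf (Nat.card F : ZMod r) + 1 = r) : DM F 1 r (rt r (1 : K)) := by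
  obtain ⟨E, a, b⟩ := exists_ev_pow (K := K) hr one_ne_zero ((sh_one (W := F)).trans (map_one _).symm)
  obtain rfl := ev_full hr r2 (by simp) hc a (by simpa using b) fun c e => by
    simpa [sh] using congrFun (LinearMap.congr_fun e (Pi.single 0 1)) 1
  exact ⟨a.st, fun _ _ _ _ _ e => (dc_sh 1 (by simp)).sim (a.sim e)⟩

local notation "𝕂" => AlgebraicClosure F

theorem dc_one (hr : (r : F) ≠ 0) (h : r ∣ Nat.card F - 1) (hn : finrank F V = a * t) : Lhs (SLp F V) r (DC a t) :=
  Lhs.of_sl 𝕂 hr DC.smul (fun u E b c => by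
    obtain ⟨k, N, d⟩ := pf_fr b.st c
    rw [ord_one_iff'.2 h] at d
    have := d.card
    have := b.dim
    exact (dm_pf one_pos t d (by omega) (by rw [Nat.div_one]; omega)).2 _ u b)
    fun u z N b _ c d e _ => (dm_nl hr b h c (hn ▸ e)).2 _ u d

theorem dc_main (hr : (r : F) ≠ 0) (r2 : r ≠ 2) (hn : n = a * t) (ha : 0 < a) (hc : c = orderOf (Nat.card F : ZMod r))
    (h : r ∣ Nat.card {D : Fin t → Submodule F (Fin n → F) // ID a D} / t.factorial) : Lhs (SLp F (Fin n → F)) r (DC a t) ↔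
      (a = 1 ∧ 1 < c ∧ c = r - 1 ∧ n ≤ n % c * r) ∨ (c ≤ a ∧ n % c = t * (a % c)) := by
  have hp : r.Prime := Fact.out
  have hn' : finrank F (Fin n → F) = a * t := by simpa
  have c0 : 0 < c := hc ▸ ord_pos hr
  rcases eq_or_ne c 1 with rfl | c1
  · exact iff_of_true (dc_one hr (ord_one_iff'.1 hc.symm) hn') (.inr ⟨ha, by simp [Nat.mod_one]⟩)
  have e1 := Nat.mod_add_div n c
  have e2 := congrArg (t * ·) (Nat.mod_add_div a c)
  have e3 := Nat.mod_lt n c0
  have e4 := hp.two_le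
  refine ⟨fun H => ?_, fun H => Lhs.of_sl 𝕂 hr DC.smul (fun u E b d => ?_) fun u z N _ e => absurd (hc ▸ ord_one_iff'.2 e) c1⟩
  · obtain ⟨ζ, a1, a2⟩ := exists_prim_root (castK 𝕂 hr)
    have k : ∀ k N, N ≠ 0 → n = k + c * N → ∃ s m, s + r * m = t ∧ a * m ≤ k ∧ (r - 1) * (a * m) ≤ c * N ∧
        c * N ≤ c * (a / c) * s + (r - 1) * (a * m) := fun k N N0 e => by
      obtain ⟨u, b1, b2, b3⟩ := std_test hr DC.smul H hc c1 (by simpa using e) N0 a1 a2
      have f := hc ▸ pf_std_fr hr a1 a2 k N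
      exact f.dim0 b1 ▸ f.dim1 b1 ▸ b3.num hn' ha hr b2 hc
    have l : c ≤ n := by
      obtain ⟨D, d, -⟩ := (dc_iff hn' isUnit_one).1
        ((dm_pf one_pos t (pf_repl fr_one 1 _) (by simp [hn]) (by simp)).2 _ 1 (ev_one (K := 𝕂)))
      have := EA.fact_dvd (P := ID (F := F) (V := Fin n → F) (t := t) a)
        (fun _ σ h => ⟨fun _ => h.1 _, h.2.1.comp σ.injective, σ.iSup_comp.trans h.2.2⟩) fun _ h => h.inj ha
      exact hc ▸ ord_le hr (Nat.card_congr (glEquiv (Fin n) F).toEquiv ▸ (h.trans (Nat.div_dvd_of_dvd (by simpa))).trans (d.dvd hn'))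
    have c2 : c ≤ r - 1 := Nat.le_of_dvd (by omega) (hc ▸ ZMod.orderOf_dvd_card_sub_one fun e => by simp [hc, e] at c0)
    obtain ⟨s, m, b1, b2, b3, b4⟩ := k (n - c) 1 one_ne_zero (by omega)
    obtain ⟨s', m', d1, d2, d3, d4⟩ := k _ _ (Nat.div_pos l c0).ne' e1.symm
    rcases le_or_gt c a with l | l
    · obtain rfl : m' = 0 := by_contra fun e => by have := Nat.le_mul_of_pos_right a (Nat.pos_of_ne_zero e); omega
      obtain rfl : s' = t := by simpa using d1
      refine .inr ⟨l, (Nat.mod_eq_of_modEq ?_ (by nlinarith))⟩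
      rw [hn, mul_comm]; exact (Nat.mod_modEq a c).symm.mul_left _
    simp [Nat.div_eq_of_lt l] at b4 d4
    have := Nat.le_mul_of_pos_right (r - 1) (Nat.pos_of_mul_pos_left (c0.trans_le b4))
    obtain ⟨rfl, -⟩ := mul_eq_one.1 (Nat.eq_of_mul_eq_mul_left (by omega) (show (r - 1) * (a * m) = (r - 1) * 1 by omega))
    have := Nat.mul_le_mul_left (r - 1) d2
    exact .inl ⟨rfl, l, by omega, by rw [show r = r - 1 + 1 by omega, mul_add_one, mul_comm]; omega⟩
  · obtain ⟨k, N, f⟩ := pf_fr b.st d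
    rw [← hc] at f
    have g := f.card
    have g' : E.card = a * t := b.dim.symm.trans hn'
    have l : N ≤ n / c := (Nat.le_div_iff_mul_le c0).2 (by rw [mul_comm]; omega)
    have := Nat.mul_le_mul_left c l
    rcases H with ⟨rfl, -, e, i⟩ | ⟨-, e⟩
    · have e' : c + 1 = r := by omega
      have : n / c ≤ n % c := Nat.le_of_mul_le_mul_left (by rw [← e', mul_add_one, mul_comm _ c] at i; omega) c0
      obtain ⟨j, rfl⟩ := Nat.exists_eq_add_of_le (show N ≤ k by omega)
      have := pf_full e' f d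
      rw [Multiset.replicate_add, add_comm E, add_assoc, add_right_inj, ← Multiset.nsmul_singleton] at this
      have k := ((DM.one (F := F) (E := {(1 : 𝕂)}) (by simp [fr_one]) le_rfl).smul j).add ((dm_full hr r2 (hc ▸ e')).smul N)
      exact (show t = j * 1 + N * r by rw [← e', mul_add_one N, mul_comm N]; omega) ▸ k.2 _ u (this ▸ b)
    · exact (dm_pf c0 t f g' (l.trans_eq (Nat.eq_of_mul_eq_mul_left c0 (by linarith)))).2 _ u b

variable (F) in
/-- an involution of given rank permuting a decomposition -/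
def I2 (a t n m : ℕ) : Prop := ∃ (V : Type u) (_ : AddCommGroup V) (_ : Module F V) (_ : FiniteDimensional F V) (v : End F V),
  finrank F V = n ∧ v ^ 2 = 1 ∧ finrank F (V1 v) = m ∧ DC a t v

omit [Fact r.Prime]

theorem I2.add (h : I2 F a s n m) (h' : I2 F a t N k) : I2 F a (s + t) (n + N) (m + k) := by
  obtain ⟨V, _, _, _, v, rfl, b, rfl, c⟩ := h
  obtain ⟨W, _, _, _, w, rfl, b', rfl, c'⟩ := h'
  exact ⟨V × W, _, _, inferInstance, _, finrank_prod, by
    simp only [sq, End.mul_eq_comp, LinearMap.prodMap_comp] at *; simp [b, b'], rank_prod v w, c.prod c'⟩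

theorem I2.one (h : I2 F b t n m) (l : n ≤ a) : I2 F a 1 n m :=
  let ⟨V, _, _, _, v, e, b, c, _⟩ := h; ⟨V, _, _, inferInstance, v, e, b, c, .one (e ▸ l)⟩

theorem i2_sh : I2 F a 2 (2 * a) a :=
  ⟨_, _, _, inferInstance, sh (Fin a → F) (1 : ZMod 2 → F), by simp [finrank_pi_fintype], sh_one, by simp [sh_V1], dc_sh _ (by simp)⟩

theorem i2_one (h : 2 * m ≤ a) : I2 F a 1 a m := by
  have : I2 F a 1 (a - 2 * m) 0 := ⟨Fin (a - 2 * m) → F, _, _, inferInstance, 1, by simp, by simp, by simp [V1], .one (by simp)⟩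
  simpa [h] using ((i2_sh.one h).add this).one (a := a) (by omega)

theorem i2_all (t : ℕ) : ∀ m, 2 * m ≤ a * t → I2 F a t (a * t) m := by
  induction t using Nat.twoStepInduction with
  | zero => exact fun m h => ⟨Fin 0 → F, _, _, inferInstance, 1, by simp, by simp, by simp [V1, show m = 0 by omega], .zero (by simp)⟩
  | one => simpa using fun m => i2_one
  | more t ih ih' =>
    intro m h
    rcases le_or_gt a m with l | l
    · simpa [l, mul_add, mul_comm] using (ih (m - a) (by rw [mul_add] at h; omega)).add i2_sh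
    · simpa [mul_add, mul_two, add_assoc, Nat.div_le_self] using
        (ih' (m - m / 2) (by rw [mul_add]; omega)).add (i2_one (m := m / 2) (by omega))

theorem dc_two [Fact p.Prime] [CharP F p] (hn : finrank F V = a * t) : Lhs (SLp F V) 2 (DC a t) := by
  rcases eq_or_ne 2 p with rfl | e
  · refine lhs_char DC.smul fun u b _ => ?_
    obtain ⟨W, _, _, _, v, c, d, e, f⟩ := i2_all (F := F) t _ (hn ▸ two_rank b)
    exact f.sim (sim_two d b (c.trans hn.symm) e)
  · have := card_odd (F := F) (by simpa using cast_ne (F := F) e)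
    exact dc_one (cast_ne e) (by omega) hn

theorem sum_min {μ : Multiset ℕ} (h : ∀ k ∈ μ, k ≤ p + 1) : (μ.map (min p)).sum + μ.count (p + 1) = μ.sum := by
  induction μ using Multiset.induction with
  | empty => simp
  | cons k μ ih =>
    have := ih fun j e => h j (by simp [e])
    have := h k (by simp)
    simp [Multiset.count_cons]
    split_ifs <;> omega

theorem dc_un [Fact p.Prime] [CharP F p] (hn : finrank F V = a * t) (ha : 0 < a) (ht : 0 < t) (H : Lhs (SLp F V) p (DC a t))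
    (μ : Multiset ℕ) (h1 : ∀ b ∈ μ, 0 < b ∧ b ≤ p) (h2 : μ.sum = finrank F V) (h3 : μ.count p < a) : ∃ ν, ν ≤ μ ∧ ν.sum = a := by
  by_cases e : ∀ k ∈ μ, k = 1
  · exact sub_ones (hn ▸ Nat.le_mul_of_pos_right a ht) e h2
  obtain ⟨u, b⟩ := exists_un (K := 𝕂) (fun k e => (h1 k e).1) h2.symm
  obtain ⟨D, d, σ, hσ⟩ := (dc_iff hn (un_unit b)).1 (H.un b (un_det b) (fun k e => (h1 k e).2) (by simpa using e))
  by_cases e : σ ⟨0, ht⟩ = ⟨0, ht⟩
  · refine (un_split_iff b a).1 ⟨_, _, d.compl ⟨0, ht⟩, d.1 _, map_le_iff.1 (by rw [hσ, e]), map_le_iff.1 ?_⟩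
    simp only [Submodule.map_iSup, hσ]
    exact iSup₂_le fun j i => le_iSup₂_of_le _ (fun f => i (σ.injective (f.trans e.symm))) le_rfl
  obtain ⟨m, A, f, a1, a2, a3, a4, -⟩ := d.struct hσ hn ha (by simpa using un_char (j := 1) b (by simpa using fun k e => (h1 k e).2))
  have := Finset.card_lt_card (Finset.filter_ssubset.2 ⟨_, Finset.mem_univ _, e⟩ : Finset.univ.filter (fun j => σ j = j) ⊂ _)
  have := Nat.le_mul_of_pos_right a (Nat.pos_of_ne_zero (by rintro rfl; simp_all) : 0 < m)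
  obtain ⟨ν, c, c'⟩ := exists_un_of_pow (K := 𝕂) (sh_one (W := A) (F := F) (r := p))
  obtain ⟨p, rfl⟩ := Nat.exists_eq_add_one_of_ne_zero (Fact.out : p.Prime).ne_zero
  have := (inj_le a1 a2 p).2
  have := finrank_ker_pow_le ((un_pow c _).2 fun k e => (c' k e).2) p
  have := sum_min fun k e => (h1 k e).2
  have := un_ker b p
  have := ((u - 1) ^ p).finrank_range_add_finrank_ker
  have := ((sh A (1 : ZMod (p + 1) → F) - 1) ^ p).finrank_range_add_finrank_ker
  simp [sh_V0, finrank_pi_fintype, add_mul] at *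
  omega

omit [Finite F] in
theorem id_iff (ha : 0 < a) (ht : 2 ≤ t) {D : Fin t → Submodule F (Fin n → F)} : Cfsg.Geo.IsMDecomposition a D ↔ ID a D :=
  ⟨fun h => ⟨h.3, h.4, h.5⟩, fun h => ⟨ht, ha, h.1, h.2.1, h.2.2⟩⟩

theorem sl_dc (hn : n = a * t) : (∀ x : Matrix.SpecialLinearGroup (Fin n) F,
    (∃ c : F, ((x ^ r : Matrix.SpecialLinearGroup (Fin n) F) : Matrix (Fin n) (Fin n) F) = c • (1 : Matrix (Fin n) (Fin n) F)) →
    (∀ c : F, (x : Matrix (Fin n) (Fin n) F) ≠ c • (1 : Matrix (Fin n) (Fin n) F)) → ∃ D : Fin t → Submodule F (Fin n → F), ID a D ∧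
      ∃ σ : Equiv.Perm (Fin t), ∀ j, (D j).map (Matrix.toLin' (x : Matrix (Fin n) (Fin n) F)) = D (σ j)) ↔
        Lhs (SLp F (Fin n → F)) r (DC a t) :=
  (sl_lhs fun u => ∃ D : Fin t → Submodule F (Fin n → F), ID a D ∧ ∃ σ : Equiv.Perm (Fin t), ∀ j, (D j).map u = D (σ j)).trans
    (forall₂_congr fun u h => imp_congr_right fun _ => imp_congr_right fun _ => (dc_iff (by simpa) (det_unit u h)).symm)

end H25.El
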