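import Cfsg.Agent.H25.El2

/-! Elusive actions, III: fixed and moved part, the degenerate case, reduction to endomorphisms. -/

set_option autoImplicit false

namespace H25.El

open Module Polynomial Function H22 H27.Sp H12 Pointwise

variable {F K : Type*} [Field F] [Field K] [Algebra F K] {V W : Type*} [AddCommGroup V] [Module F V]
  [AddCommGroup W] [Module F W] {u : End F V} {E : Multiset K} {r : ℕ}

/-- fixed space -/
abbrev V0 (u : End F V) : Submodule F V := LinearMap.ker (u - 1)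
/-- moved space -/
abbrev V1 (u : End F V) : Submodule F V := LinearMap.range (u - 1)

theorem mem_V0 {x : V} : x ∈ V0 u ↔ u x = x := by simp [V0, sub_eq_zero]

theorem V0_inv (u : End F V) : ∀ x ∈ V0 u, u x ∈ V0 u := fun x hx => by rwa [mem_V0.1 hx]

theorem V1_inv (u : End F V) : ∀ x ∈ V1 u, u x ∈ V1 u := by
  rintro _ ⟨x, rfl⟩; exact ⟨u x, by simp⟩

theorem inf_inv {A B : Submodule F V} (h : ∀ x ∈ A, u x ∈ A) (h' : ∀ x ∈ B, u x ∈ B) :
    ∀ x ∈ A ⊓ B, u x ∈ A ⊓ B := fun x hx => ⟨h x hx.1, h' x hx.2⟩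

theorem sup_inv {A B : Submodule F V} (h : ∀ x ∈ A, u x ∈ A) (h' : ∀ x ∈ B, u x ∈ B) :
    ∀ x ∈ A ⊔ B, u x ∈ A ⊔ B := fun x hx => by
  obtain ⟨a, ha, b, hb, rfl⟩ := Submodule.mem_sup.1 hx
  rw [map_add]; exact Submodule.add_mem_sup (h a ha) (h' b hb)

theorem le_V0_inv {A : Submodule F V} (h : A ≤ V0 u) : ∀ x ∈ A, u x ∈ A := fun x hx => by
  rwa [mem_V0.1 (h hx)]

theorem inv_smul {A : Submodule F V} {c : F} (hc : c ≠ 0) (h : ∀ x ∈ A, (c • u) x ∈ A) : ∀ x ∈ A, u x ∈ A :=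
  fun x hx => (A.smul_mem_iff hc).1 (h x hx)

theorem sm_eq (g : V ≃ₗ[F] V) (A : Submodule F V) : g • A = A.map (g : V →ₗ[F] V) := rfl

theorem map_le_iff {A : Submodule F V} : A.map u ≤ A ↔ ∀ x ∈ A, u x ∈ A := Submodule.map_le_iff_le_comap

theorem finrank_sm (g : V ≃ₗ[F] V) (A : Submodule F V) : finrank F ↥(g • A) = finrank F A :=
  LinearEquiv.finrank_map_eq g A

theorem restrict_pow {A : Submodule F V} (i : ∀ x ∈ A, u x ∈ A) {c : F} (h : u ^ r = algebraMap F _ c) :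
    (u.restrict i : End F A) ^ r = algebraMap F _ c := by
  ext x; rw [Module.End.pow_restrict, LinearMap.restrict_apply]; simp [h]

theorem exists_glue2 {A B : Submodule F V} {A' B' : Submodule F W} (c : IsCompl A B) (c' : IsCompl A' B')
    (e : A ≃ₗ[F] A') (e' : B ≃ₗ[F] B') : ∃ g : V ≃ₗ[F] W, (∀ x : A, g x = e x) ∧ ∀ y : B, g y = e' y :=
  ⟨(A.prodEquivOfIsCompl B c).symm ≪≫ₗ e.prodCongr e' ≪≫ₗ A'.prodEquivOfIsCompl B' c',
    fun x => by simp, fun y => by simp⟩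

theorem map_eq_of_res {A : Submodule F V} {A' : Submodule F W} {g : V →ₗ[F] W} {e : A ≃ₗ[F] A'}
    (h : ∀ x : A, g x = e x) : A.map g = A' := by
  ext y; constructor
  · rintro ⟨x, hx, rfl⟩; rw [h ⟨x, hx⟩]; exact (e _).2
  · intro hy; exact ⟨_, (e.symm ⟨y, hy⟩).2, by rw [h]; simp⟩

variable [FiniteDimensional F V] [FiniteDimensional F W]

theorem sm_fix {g : V ≃ₗ[F] V} {A : Submodule F V} : g • A = A ↔ ∀ x ∈ A, g x ∈ A :=
  ⟨fun h x hx => h ▸ Submodule.mem_map_of_mem hx, fun h => mem_glStab_iff_map.1 (mem_glStab_of_mapsTo h)⟩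

theorem exists_pair {A B : Submodule F V} {A' B' : Submodule F W} (c : IsCompl A B) (c' : IsCompl A' B')
    (h : finrank F A = finrank F A') (h' : finrank F V = finrank F W) :
    ∃ g : V ≃ₗ[F] W, A.map (g : V →ₗ[F] W) = A' ∧ B.map (g : V →ₗ[F] W) = B' := by
  have := Submodule.finrank_add_eq_of_isCompl c
  have := Submodule.finrank_add_eq_of_isCompl c'
  obtain ⟨g, h1, h2⟩ := exists_glue2 c c' (.ofFinrankEq _ _ h) (.ofFinrankEq _ _ (by omega))
  exact ⟨g, map_eq_of_res h1, map_eq_of_res h2⟩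

theorem map_of_res {B A : Submodule F V} {B' A' : Submodule F W} {g : V →ₗ[F] W} {e : B ≃ₗ[F] B'}
    (h : ∀ x : B, g x = e x) (h1 : A ≤ B) (h2 : A' ≤ B')
    (h3 : (A.comap B.subtype).map (e : B →ₗ[F] B') = A'.comap B'.subtype) : A.map g = A' := by
  rw [← Submodule.map_comap_eq_self (f := B.subtype) (q := A) (by simpa),
    ← Submodule.map_comap_eq_self (f := B'.subtype) (q := A') (by simpa), ← h3, ← Submodule.map_comp,
    ← Submodule.map_comp]
  congr 1; ext x; exact h x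

theorem finrank_comap {A B : Submodule F V} (h : A ≤ B) : finrank F (A.comap B.subtype) = finrank F A :=
  (Submodule.comapSubtypeEquivOfLe h).finrank_eq

theorem exists_flag {A B A' B' : Submodule F V} (h1 : A ≤ B) (h2 : A' ≤ B') (h : finrank F A = finrank F A')
    (h' : finrank F B = finrank F B') :
    ∃ g : V ≃ₗ[F] V, A.map (g : V →ₗ[F] V) = A' ∧ B.map (g : V →ₗ[F] V) = B' := by
  obtain ⟨C, c⟩ := B.exists_isCompl
  obtain ⟨C', c'⟩ := B'.exists_isCompl
  obtain ⟨D, d⟩ := (A.comap B.subtype).exists_isCompl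
  obtain ⟨D', d'⟩ := (A'.comap B'.subtype).exists_isCompl
  obtain ⟨e, he, -⟩ := exists_pair d d' (by rw [finrank_comap h1, finrank_comap h2, h]) h'
  have := Submodule.finrank_add_eq_of_isCompl c
  have := Submodule.finrank_add_eq_of_isCompl c'
  obtain ⟨g, h3, -⟩ := exists_glue2 c c' e (.ofFinrankEq _ _ (by omega))
  exact ⟨g, map_of_res h3 h1 h2 he, map_eq_of_res h3⟩

theorem compl_of_disj (h : Disjoint (V1 u) (V0 u)) : IsCompl (V0 u) (V1 u) :=
  ⟨h.symm, codisjoint_iff.2 (Submodule.eq_top_of_disjoint _ _ (by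
    rw [add_comm]; exact (u - 1).finrank_range_add_finrank_ker.ge) h.symm)⟩

variable [Finite F]

theorem compl01 (hr : (r : F) ≠ 0) (h : u ^ r = 1) : IsCompl (V0 u) (V1 u) :=
  compl_of_disj (by simpa using disjoint_of_sqfree (sep_pow hr one_ne_zero).squarefree (u := u) (by simp [h]) 1)

theorem inv_decomp (hr : (r : F) ≠ 0) (h : u ^ r = 1) {A : Submodule F V} (i : ∀ x ∈ A, u x ∈ A) :
    A ⊓ V0 u ⊔ A ⊓ V1 u = A := by
  refine le_antisymm (sup_le inf_le_left inf_le_left) fun x hx => ?_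
  have c := compl01 hr (u := u.restrict i) (by simpa using restrict_pow i (c := 1) (by simpa))
  obtain ⟨a, ha, _, ⟨b, rfl⟩, e⟩ := Submodule.mem_sup.1 (c.sup_eq_top.ge (Submodule.mem_top (x := ⟨x, hx⟩)))
  refine Submodule.mem_sup.2 ⟨a, ⟨a.2, mem_V0.2 (congrArg Subtype.val (mem_V0.1 ha))⟩, _,
    ⟨((u.restrict i - 1 : End F A) b).2, b, rfl⟩, congrArg Subtype.val e⟩

theorem inv_dim (hr : (r : F) ≠ 0) (h : u ^ r = 1) {A : Submodule F V} (i : ∀ x ∈ A, u x ∈ A) :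
    finrank F ↥(A ⊓ V0 u) + finrank F ↥(A ⊓ V1 u) = finrank F A := by
  have := Submodule.finrank_sup_add_finrank_inf_eq (A ⊓ V0 u) (A ⊓ V1 u)
  rw [inv_decomp hr h i, (((compl01 hr h).disjoint.mono inf_le_right inf_le_right)).eq_bot] at this
  simpa using this.symm

open Classical in
theorem EV.cnt (h : EV u E) : E.count 1 = finrank F (V0 u) := by
  have := h.kd_eq (f := X - 1) (by simpa using X_sub_C_ne_zero (1 : F))
  rw [kd, show aeval u (X - 1 : F[X]) = u - 1 by simp] at this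
  rw [this, Multiset.count_eq_card_filter_eq]
  congr 1
  exact Multiset.filter_congr fun x _ => by rw [map_sub, aeval_X, map_one, sub_eq_zero, eq_comm]

theorem Pf.dim0 {φ : K → K} {i a N : ℕ} (h : Pf φ 1 i E a N) (h' : EV u E) : finrank F (V0 u) = a :=
  h'.cnt.symm.trans (by convert h.cnt)

theorem Pf.dim1 {φ : K → K} {i a N : ℕ} (h : Pf φ 1 i E a N) (h' : EV u E) : finrank F (V1 u) = i * N := by
  have := (u - 1).finrank_range_add_finrank_ker
  have h1 := h.dim0 h'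
  have := h'.dim
  have := h.card
  change finrank F (LinearMap.ker (u - 1)) = a at h1
  change finrank F (LinearMap.range (u - 1)) = _
  omega

theorem V0_res_eq {A : Submodule F V} (i : ∀ x ∈ A, u x ∈ A) :
    finrank F (V0 (u.restrict i : End F A)) = finrank F ↥(A ⊓ V0 u) := by
  rw [← finrank_comap (inf_le_left : A ⊓ V0 u ≤ A), show V0 (u.restrict i : End F A) =
    (A ⊓ V0 u).comap A.subtype from Submodule.ext fun x => by simp [Subtype.ext_iff, sub_eq_zero]]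

/-- extension by the identity on the moved part -/
theorem exists_ext (c : IsCompl (V0 u) (V1 u)) (e : V0 u ≃ₗ[F] V0 u) :
    ∃ g : V ≃ₗ[F] V, (∀ x : V0 u, g x = e x) ∧ (∀ y ∈ V1 u, g y = y) ∧ ∀ A A' : Submodule F V,
      A ⊓ V0 u ⊔ A ⊓ V1 u = A → A' ⊓ V0 u ⊔ A' ⊓ V1 u = A' → A ⊓ V1 u = A' ⊓ V1 u →
      (A.comap (V0 u).subtype).map (e : V0 u →ₗ[F] V0 u) = A'.comap (V0 u).subtype → g • A = A' := by
  obtain ⟨g, h1, h2⟩ := exists_glue2 c c e (.refl F _)
  refine ⟨g, h1, fun y hy => h2 ⟨y, hy⟩, fun A A' a a' b d => ?_⟩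
  rw [← a, ← a', sm_eq, Submodule.map_sup, map_of_res (A' := A' ⊓ V0 u) h1 inf_le_right inf_le_right (by simpa),
    map_of_res (A' := A' ⊓ V1 u) h2 inf_le_right inf_le_right (by simp [b])]

theorem deg [Finite V] {S : Type*} [MulAction (V ≃ₗ[F] V) S] (P : S → Prop) [Finite {s // P s}] [Fact r.Prime]
    (hr : (r : F) ≠ 0) (x : V ≃ₗ[F] V) (hx : (x : End F V) ^ r = 1) (G : Subgroup (V ≃ₗ[F] V)) (xG : x ∈ G)
    (hP : ∀ g ∈ G, ∀ s, P s → P (g • s))
    (h1 : ∀ h ∈ G, (h : End F V) ^ r = 1 → V1 (x : End F V) ≤ V0 (h : End F V) → (h : End F V) = 1)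
    (h4 : ∀ s s', P s → P s' → x • s = s → x • s' = s' → ∃ h ∈ G, (∀ v ∈ V1 (x : End F V), h v = v) ∧
      (∀ v ∈ V0 (x : End F V), h v ∈ V0 (x : End F V)) ∧ h • s = s')
    (hd : r ∣ Nat.card {s // P s}) (s : S) (hs : P s) : x • s ≠ s := by
  haveI : Finite (V ≃ₗ[F] V) := Finite.of_injective (fun g : V ≃ₗ[F] V => (g : V → V)) DFunLike.coe_injective
  let H : Subgroup (V ≃ₗ[F] V) :=
    { carrier := {h | ∀ v ∈ V1 (x : End F V), h v = v}
      mul_mem' := fun {a b} ha hb v hv => by rw [LinearEquiv.mul_apply, hb v hv, ha v hv]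
      one_mem' := fun _ _ => rfl
      inv_mem' := fun {a} ha v hv => a.injective (by rw [apply_inv_apply, ha v hv]) }
  have x1 : x ^ r = 1 := LinearEquiv.toLinearMap_injective ((coe_pow' x r).trans hx)
  refine no_fix P x (hP x xG) (r := r) (k := 1) (fun s _ => by rw [pow_one, x1, one_smul])
    (G ⊓ H ⊓ Subgroup.centralizer {x}) (fun h hh e => LinearEquiv.toLinearMap_injective (h1 h hh.1.1 ?_ ?_))
    (fun h hh => hP h hh.1.1) (fun h hh => (hh.2 x rfl).symm) (fun s s' a b c d => ?_) hd s hs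
  · rw [← coe_pow', e]; rfl
  · exact fun v hv => mem_V0.2 (hh.1.2 v hv)
  obtain ⟨h, a, b, c, d⟩ := h4 s s' a b c d
  refine ⟨h, ⟨⟨a, b⟩, ?_⟩, d⟩
  rintro y hy
  obtain rfl : x = y := Eq.symm hy
  ext v
  obtain ⟨v0, h0, v1, h1, rfl⟩ := Submodule.mem_sup.1 ((compl01 hr hx).sup_eq_top.ge (Submodule.mem_top (x := v)))
  have e1 : x v0 = v0 := mem_V0.1 h0
  have e2 : x (h v0) = h v0 := mem_V0.1 (c _ h0)
  have e3 := b _ (V1_inv _ _ h1)
  simp only [LinearEquiv.mul_apply, map_add, e1, e2, b _ h1]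
  exact congrArg _ e3.symm

theorem exists_equiv (h : IsUnit u) : ∃ x : V ≃ₗ[F] V, (x : End F V) = u :=
  ⟨LinearEquiv.ofBijective u ((Module.End.isUnit_iff u).1 h), rfl⟩

omit [FiniteDimensional F V] in
theorem unit_of_pow [Fact r.Prime] (h : u ^ r = 1) : IsUnit u := IsUnit.of_pow_eq_one h (Fact.out : r.Prime).ne_zero

/-- elements of prime order `r` modulo scalars in a set of endomorphisms all satisfy `P` -/
def Lhs (G : End F V → Prop) (r : ℕ) (P : End F V → Prop) : Prop :=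
  ∀ u, G u → (∃ c, u ^ r = algebraMap F _ c) → (∀ c, u ≠ algebraMap F _ c) → P u

omit [FiniteDimensional F V] in
theorem toLin'_eq_smul {ι : Type*} [Fintype ι] [DecidableEq ι] {M : Matrix ι ι F} {c : F} :
    M = c • (1 : Matrix ι ι F) ↔ Matrix.toLin' M = algebraMap F (End F (ι → F)) c := by
  rw [toLin'_eq_alg, Matrix.scalar_apply, Matrix.smul_one_eq_diagonal]

omit [FiniteDimensional F V] in
theorem lhs_iff {ι : Type*} [Fintype ι] [DecidableEq ι] {Γ : Type*} [Monoid Γ] (ρ : Γ → Matrix ι ι F)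
    (hρ : ∀ x, ρ (x ^ r) = ρ x ^ r) (A : Γ → Prop) (G P : End F (ι → F) → Prop)
    (h : ∀ u, G u ↔ ∃ x, A x ∧ Matrix.toLin' (ρ x) = u) :
    (∀ x, A x → (∃ c : F, ρ (x ^ r) = c • (1 : Matrix ι ι F)) → (∀ c : F, ρ x ≠ c • (1 : Matrix ι ι F)) →
      P (Matrix.toLin' (ρ x))) ↔ Lhs G r P := by
  simp only [Lhs, h, ne_eq, toLin'_eq_smul, hρ, Matrix.toLin'_pow]
  exact ⟨by rintro H _ ⟨x, a, rfl⟩; exact H x a, fun H x a => H _ ⟨x, a, rfl⟩⟩

omit [FiniteDimensional F V] in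
theorem sl_lhs {ι : Type*} [Fintype ι] [DecidableEq ι] (P : End F (ι → F) → Prop) :
    (∀ x : Matrix.SpecialLinearGroup ι F, (∃ c : F, ((x ^ r : Matrix.SpecialLinearGroup ι F) : Matrix ι ι F) =
      c • (1 : Matrix ι ι F)) → (∀ c : F, (x : Matrix ι ι F) ≠ c • (1 : Matrix ι ι F)) →
      P (Matrix.toLin' (x : Matrix ι ι F))) ↔ Lhs (fun u => LinearMap.det u = 1) r P := by
  rw [← lhs_iff (fun x : Matrix.SpecialLinearGroup ι F => (x : Matrix ι ι F)) (by simp) (fun _ => True)]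
  · simp
  · refine fun u => ⟨fun h => ⟨⟨LinearMap.toMatrix' u, by simpa⟩, trivial, by simp⟩, ?_⟩
    rintro ⟨x, -, rfl⟩; simp

end H25.El
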