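import Cfsg.Agent.H25.El4

/-! Elusive actions, V: subspace actions of linear groups. -/

set_option autoImplicit false

namespace H25.El

open Module Polynomial Function H22 H27.Sp H12 Pointwise

theorem sub_exists2 {a N c n m : ℕ} (h : a + c * N = n) (hm : 2 * m ≤ n) (hk : 2 * (m % c) ≤ n % c) :
    ∃ a₁ a₃ N₁ N₃, a₁ + a₃ ≤ a ∧ N₁ + N₃ ≤ N ∧ m = a₁ + c * N₁ ∧ m = a₃ + c * N₃ := by
  have h1 : n % c ≤ a := by rw [← h, Nat.add_mul_mod_self_left]; exact Nat.mod_le _ _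
  have h3 := Nat.mod_add_div m c
  by_cases h2 : 2 * (m / c) ≤ N
  · exact ⟨m % c, m % c, _, _, by omega, by omega, h3.symm, h3.symm⟩
  · obtain ⟨k, l, rfl, hk, hl⟩ : ∃ k l, N = k + l ∧ k ≤ m / c ∧ l ≤ m / c :=
      ⟨min N (m / c), N - min N (m / c), by omega, by omega, by omega⟩
    have := Nat.mul_le_mul_left c hk
    have := Nat.mul_le_mul_left c hl
    rw [mul_add] at h
    exact ⟨m - c * k, m - c * l, k, l, by omega, le_rfl, by omega, by omega⟩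

variable {F K : Type*} [Field F] [Field K] [Algebra F K] {V W : Type*} [AddCommGroup V] [Module F V]
  [AddCommGroup W] [Module F W] {u : End F V} {E : Multiset K} {r p : ℕ} {μ ν : Multiset ℕ}

theorem comap_inv {A B : Submodule F V} (i : ∀ x ∈ B, u x ∈ B) (h : ∀ x ∈ A, u x ∈ A) :
    ∀ x ∈ A.comap B.subtype, u.restrict i x ∈ A.comap B.subtype := fun x hx => h x hx

theorem map_inv {B : Submodule F V} {A : Submodule F B} (i : ∀ x ∈ B, u x ∈ B) (h : ∀ x ∈ A, u.restrict i x ∈ A) :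
    ∀ x ∈ A.map B.subtype, u x ∈ A.map B.subtype := by
  rintro _ ⟨x, hx, rfl⟩; exact ⟨_, h x hx, rfl⟩

theorem cast_ne [Fact r.Prime] [Fact p.Prime] [CharP F p] (h : r ≠ p) : (r : F) ≠ 0 := fun e =>
  h ((Nat.prime_dvd_prime_iff_eq Fact.out Fact.out).1 ((CharP.cast_eq_zero_iff F p r).1 e)).symm

variable [FiniteDimensional F V] [FiniteDimensional F W] [Finite F]

theorem comap_compl {A B C : Submodule F V} (c : IsCompl A B) (h : A ≤ C) :
    IsCompl (A.comap C.subtype) (B.comap C.subtype) :=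
  ⟨disjoint_iff.2 (by rw [← Submodule.comap_inf, c.inf_eq_bot]; simp), codisjoint_iff.2 (top_le_iff.1 fun x _ => by
    obtain ⟨a, ha, b, hb, e⟩ := Submodule.mem_sup.1 (c.sup_eq_top.ge (Submodule.mem_top (x := x.1)))
    exact Submodule.mem_sup.2 ⟨⟨a, h ha⟩, ha, ⟨b, (C.add_mem_iff_right (h ha)).1 (e ▸ x.2)⟩, hb, Subtype.ext e⟩)⟩

theorem small_le [Fact r.Prime] (hr : (r : F) ≠ 0) (h : u ^ r = 1) {A : Submodule F V} (i : ∀ x ∈ A, u x ∈ A)
    (h1 : finrank F A < orderOf (Nat.card F : ZMod r)) : A ≤ V0 u := by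
  rw [← inv_decomp hr h i, small_inv hr h i h1, sup_bot_eq]; exact inf_le_right

theorem big_dim [Fact r.Prime] (hr : (r : F) ≠ 0) (h : u ^ r = 1) {A : Submodule F V} (i : ∀ x ∈ A, u x ∈ A)
    (h1 : finrank F V < finrank F A + orderOf (Nat.card F : ZMod r)) :
    finrank F (A.comap (V0 u).subtype) + finrank F (V1 u) = finrank F A := by
  rw [← inv_dim hr h i, big_inv hr h i h1, ← finrank_comap (inf_le_right : A ⊓ V0 u ≤ _),
    Submodule.comap_inf, Submodule.comap_subtype_self, inf_top_eq]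

/-- the degenerate case for the general linear group -/
theorem gl_deg {S : Type*} [MulAction (V ≃ₗ[F] V) S] (P : S → Prop) [Finite {s // P s}] [Fact r.Prime]
    (hr : (r : F) ≠ 0) (x : V ≃ₗ[F] V) (hx : (x : End F V) ^ r = 1)
    (h0 : finrank F (V0 (x : End F V)) < orderOf (Nat.card F : ZMod r)) (hP : ∀ g : V ≃ₗ[F] V, ∀ s, P s → P (g • s))
    (h4 : ∀ s s', P s → P s' → x • s = s → x • s' = s' → ∃ e : V0 (x : End F V) ≃ₗ[F] V0 (x : End F V),
      ∀ g : V ≃ₗ[F] V, (∀ A A' : Submodule F V, (∀ v ∈ A, x v ∈ A) → (∀ v ∈ A', x v ∈ A') →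
      A ⊓ V1 (x : End F V) = A' ⊓ V1 (x : End F V) → (A.comap (V0 (x : End F V)).subtype).map
        (e : V0 (x : End F V) →ₗ[F] V0 (x : End F V)) = A'.comap (V0 (x : End F V)).subtype → g • A = A') → g • s = s')
    (hd : r ∣ Nat.card {s // P s}) (s : S) (hs : P s) : x • s ≠ s := by
  haveI : Finite V := Module.finite_of_finite F
  refine deg P hr x hx ⊤ trivial (fun g _ => hP g) (fun h _ => gl_h1 hr hx h0) (fun s s' a b c d => ?_) hd s hs
  obtain ⟨e, he⟩ := h4 s s' a b c d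
  obtain ⟨g, h1, h2, h3⟩ := exists_ext (compl01 hr hx) e
  exact ⟨g, trivial, h2, fun v hv => (h1 ⟨v, hv⟩) ▸ (e _).2,
    he g fun A A' i i' => h3 A A' (inv_decomp hr hx i) (inv_decomp hr hx i')⟩

variable [Algebra.IsAlgebraic F K] [IsAlgClosed K]

theorem EV.flag_iff (h : EV u E) (m m' : ℕ) : (∃ U W : Submodule F V, U ≤ W ∧ finrank F U = m ∧ finrank F W = m' ∧
    (∀ x ∈ U, u x ∈ U) ∧ ∀ x ∈ W, u x ∈ W) ↔ ∃ E₁ E₂ E₃, E = E₁ + E₂ + E₃ ∧ E₁.map (fr F) = E₁ ∧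
      E₂.map (fr F) = E₂ ∧ E₁.card = m ∧ E₁.card + E₂.card = m' := by
  constructor
  · rintro ⟨U, W, l, rfl, rfl, i, i'⟩
    obtain ⟨A, E₃, rfl, h1⟩ := h.sub i'
    obtain ⟨E₁, E₂, rfl, h2, h3⟩ := (h1.inv_iff _).1 ⟨_, finrank_comap l, comap_inv i' i⟩
    exact ⟨E₁, E₂, E₃, rfl, h2, st_right h1.st h2, h3, by rw [h1.dim, Multiset.card_add]⟩
  · rintro ⟨E₁, E₂, E₃, rfl, h1, h2, rfl, rfl⟩
    obtain ⟨W, -, i, -, -, h3, -⟩ := h.split (st_add h1 h2)
    obtain ⟨U, h4, i'⟩ := (h3.inv_iff _).2 ⟨E₁, E₂, rfl, h1, rfl⟩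
    exact ⟨_, W, W.map_subtype_le U, by rw [Submodule.finrank_map_subtype_eq, h4], by rw [h3.dim, Multiset.card_add],
      map_inv i i', i⟩

theorem ord_two [Fact r.Prime] (hr : (r : F) ≠ 0) (h : orderOf (Nat.card F : ZMod r) ≠ 1) :
    2 ≤ orderOf (Nat.card F : ZMod r) := by have := ord_pos hr; omega

theorem pf_std_fr [Fact r.Prime] {ζ : K} (hr : (r : F) ≠ 0) (h : ζ ^ r = 1) (h1 : ζ ≠ 1) (a N : ℕ) :
    Pf (fr F) 1 (orderOf (Nat.card F : ZMod r)) (std (Nat.card F) (orderOf (Nat.card F : ZMod r)) ζ a N) a N := by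
  have := pf_std (fr_eq_zpow (F := F) (K := K) ▸ fr_inj) (ord_cast _).symm (ord_pos hr) h h1 a N
  rwa [← fr_eq_zpow] at this

theorem std_ne {Q : ℤ} {c a N : ℕ} {ζ : K} (hN : N ≠ 0) (hc : 0 < c) : ζ ∈ std Q c ζ a N :=
  Multiset.mem_add.2 (.inr (Multiset.mem_nsmul.2 ⟨hN, mem_orb.2 ⟨0, hc, rfl⟩⟩))

theorem not_alg [Fact r.Prime] {ζ : K} (h : ζ ^ r = 1) (h1 : ζ ≠ 1) (hi : orderOf (Nat.card F : ZMod r) ≠ 1) (c : F) :
    ζ ≠ algebraMap F K c := by
  rintro rfl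
  have := per_root h h1 (Nat.card F)
  rw [ord_cast, ← fr_eq_zpow, minimalPeriod_eq_one_iff_isFixedPt.2 (fr_alg c)] at this
  exact hi this.symm

variable (K) in
theorem Lhs.std [Fact r.Prime] (hr : (r : F) ≠ 0) {P : End F V → Prop} (h : Lhs (fun u => LinearMap.det u = 1) r P)
    (h1 : P 1) (hi : orderOf (Nat.card F : ZMod r) ≠ 1) {a N : ℕ}
    (hn : finrank F V = a + orderOf (Nat.card F : ZMod r) * N) : ∃ (x : V ≃ₗ[F] V) (E : Multiset K),
      EV (x : End F V) E ∧ (x : End F V) ^ r = 1 ∧ Pf (fr F) 1 (orderOf (Nat.card F : ZMod r)) E a N ∧ P x := by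
  obtain ⟨ζ, z1, z2⟩ := exists_prim_root (castK K hr)
  have h2 := pf_std_fr hr z1 z2 a N
  rcases eq_or_ne N 0 with rfl | hN
  · exact ⟨1, _, ev_one, one_pow _, by simpa [hn] using pf_repl fr_one _ a, h1⟩
  obtain ⟨u, h3, h4⟩ := h.ev h2.st (hn.trans h2.card.symm) (prod_eq_one (fr_eq_zpow (F := F) (K := K) ▸ h2.st)
    (std_pow z1) (by rwa [← ord_one_iff, ord_cast])) (z := 1) (by simpa using std_pow z1)
    fun c => ⟨ζ, std_ne hN (ord_pos hr), not_alg z1 z2 hi c⟩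
  have h5 := (h3.pow_one_iff (Fact.out : r.Prime).ne_zero).2 (std_pow z1)
  obtain ⟨x, rfl⟩ := exists_equiv (unit_of_pow h5)
  exact ⟨x, _, h3, h5, h2, h4⟩

omit [Algebra.IsAlgebraic F K] [IsAlgClosed K] in
theorem smul_split {X : Type*} (A : Multiset X) {k N : ℕ} (h : k ≤ N) : N • A = k • A + (N - k) • A := by
  rw [← add_nsmul, Nat.add_sub_cancel' h]

theorem nl_dvd [Fact r.Prime] {z : F} (hz : z ≠ 0) (h : r ∣ Nat.card F - 1) (h1 : z ^ ((Nat.card F - 1) / r) ≠ 1)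
    {N : ℕ} {E₁ E₂ : Multiset K} (e : N • rt r (algebraMap F K z) = E₁ + E₂) (s : E₁.map (fr F) = E₁) :
    r ∣ E₁.card := st_dvd fr_inj s fun x hx => by
  rw [nl_per hz h h1 x (mem_rt.1 (Multiset.mem_of_mem_nsmul (e ▸ Multiset.mem_add.2 (.inl hx))))]

theorem rt_fr [Fact r.Prime] (hr : (r : F) ≠ 0) {z : F} (hz : z ≠ 0) (k : ℕ) :
    (k • rt r (algebraMap F K z)).map (fr F) = k • rt r (algebraMap F K z) :=
  st_smul (rt_st (castK K hr) (by simpa) fr_inj fr_root) k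

/-- the condition for subspace actions of linear groups -/
def Cnd (r q n m k : ℕ) : Prop :=
  (orderOf (q : ZMod r) = 1 ∧ (r ∣ m ∨ (padicValNat r n ≤ padicValNat r (q - 1) ∧ (r = 2 → Even n → q % 4 = 1)))) ∨
    (2 ≤ orderOf (q : ZMod r) ∧ orderOf (q : ZMod r) ≤ m ∧ k * (m % orderOf (q : ZMod r)) ≤ n % orderOf (q : ZMod r))

omit [Algebra.IsAlgebraic F K] [IsAlgClosed K] in
theorem nlc_iff' [Fact r.Prime] {n : ℕ} (h : r ∣ Nat.card F - 1) (hn : n ≠ 0) :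
    padicValNat r n ≤ padicValNat r (Nat.card F - 1) ∧ (r = 2 → Even n → Nat.card F % 4 = 1) ↔
      ¬ NLc r (Nat.card F - 1) n := by
  rw [nlc_iff (card_sub_ne F) h hn]
  have := Finite.one_lt_card (α := F)
  exact and_congr_right' (forall₂_congr fun _ _ => by omega)

variable (K) in
/-- the common shape of the three results -/
theorem sl_main [Fact r.Prime] (hr : (r : F) ≠ 0) {P : End F V → Prop} {m k : ℕ} (hn : finrank F V ≠ 0)
    (hs : ∀ u (c : F), c ≠ 0 → P (c • u) → P u) (h1 : P 1)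
    (h2 : ∀ u (E : Multiset K) a N, EV u E → Pf (fr F) 1 (orderOf (Nat.card F : ZMod r)) E a N →
      (k * (m % orderOf (Nat.card F : ZMod r)) ≤ finrank F V % orderOf (Nat.card F : ZMod r) → P u) ∧
      (a < orderOf (Nat.card F : ZMod r) → P u → k * (m % orderOf (Nat.card F : ZMod r)) ≤ a))
    (h3 : ∀ u (z : F) (N : ℕ), z ≠ 0 → EV u (N • rt r (algebraMap F K z)) → (r ∣ m → P u) ∧
      (P u → ∃ E₁ E₂ : Multiset K, N • rt r (algebraMap F K z) = E₁ + E₂ ∧ E₁.map (fr F) = E₁ ∧ E₁.card = m))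
    (h4 : ∀ x : V ≃ₗ[F] V, (x : End F V) ^ r = 1 → finrank F (V0 (x : End F V)) < orderOf (Nat.card F : ZMod r) →
      m < orderOf (Nat.card F : ZMod r) → ¬ P x) :
    Lhs (fun u => LinearMap.det u = 1) r P ↔ Cnd r (Nat.card F) (finrank F V) m k := by
  refine ⟨fun h => ?_, fun h => Lhs.of_sl K hr hs (fun u E a b => ?_) fun u z N a b c d e f => ?_⟩
  · by_cases hi : orderOf (Nat.card F : ZMod r) = 1
    · have d := ord_one_iff'.1 hi
      refine .inl ⟨hi, or_iff_not_imp_right.2 fun H => ?_⟩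
      rw [nlc_iff' d hn, not_not] at H
      obtain ⟨u, z, N, a, b, -, c, e⟩ := h.nl (K := K) hr d H hn
      obtain ⟨E₁, E₂, e1, e2, rfl⟩ := (h3 u z N a c).2 e
      exact nl_dvd a d b e1 e2
    · obtain ⟨x, E, a, b, c, d⟩ := h.std K hr h1 hi (Nat.mod_add_div _ _).symm
      have e := Nat.mod_lt (finrank F V) (ord_pos hr)
      exact .inr ⟨ord_two hr hi, not_lt.1 fun H => h4 x b (c.dim0 a ▸ e) H d, (h2 _ _ _ _ a c).2 e d⟩
  · obtain ⟨a', N, c⟩ := pf_fr a.st b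
    refine (h2 _ _ _ _ a c).1 ?_
    rcases h with ⟨h, -⟩ | ⟨-, -, h⟩
    · simp [h, Nat.mod_one]
    · exact h
  · rcases h with ⟨-, h | h⟩ | ⟨h, -⟩
    · exact (h3 u z N a d).1 h
    · exact absurd (nlc_of dvd_rfl b hn e (pow_card_sub a) c f) ((nlc_iff' b hn).1 h)
    · rw [ord_one_iff'.2 b] at h; omega

omit [Algebra.IsAlgebraic F K] [IsAlgClosed K] in
theorem exists_dim {m : ℕ} (h : m ≤ finrank F V) : ∃ U : Submodule F V, finrank F U = m :=
  let ⟨U, _, h⟩ := exists_le_finrank_eq (⊤ : Submodule F V) (by simpa); ⟨U, h⟩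

theorem pf_sub_iff {i a N m : ℕ} (hi : 0 < i) (h : Pf (fr F) 1 i E a N) (hm : m ≤ E.card) :
    (1 * (m % i) ≤ E.card % i → ∃ E₁ E₂, E = E₁ + E₂ ∧ E₁.map (fr F) = E₁ ∧ E₁.card = m) ∧
    (a < i → (∃ E₁ E₂, E = E₁ + E₂ ∧ E₁.map (fr F) = E₁ ∧ E₁.card = m) → 1 * (m % i) ≤ a) := by
  refine ⟨fun H => ?_, ?_⟩
  · obtain ⟨a₁, h1, N₁, h2, rfl⟩ := sub_exists h.card.symm hm (by omega)
    obtain ⟨A, B, e, h3, -⟩ := h.sub fr_inj fr_one h1 h2
    exact ⟨A, B, e, h3.st, h3.card⟩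
  · rintro H ⟨A, B, rfl, h1, rfl⟩
    obtain ⟨a₁, N₁, a₂, N₂, h2, -, rfl, rfl⟩ := h.split fr_inj fr_one hi h1
    rw [(mod_of_lt h2.card (by omega)).1]; omega

theorem nl_sub [Fact r.Prime] (hr : (r : F) ≠ 0) {z : F} (hz : z ≠ 0) {N m : ℕ}
    (hm : m ≤ (N • rt r (algebraMap F K z)).card) (h : r ∣ m) :
    ∃ E₁ E₂ : Multiset K, N • rt r (algebraMap F K z) = E₁ + E₂ ∧ E₁.map (fr F) = E₁ ∧ E₁.card = m := by
  obtain ⟨k, rfl⟩ := h
  rw [Multiset.card_nsmul, rt_card, mul_comm] at hm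
  exact ⟨_, _, smul_split _ (Nat.le_of_mul_le_mul_right hm (Fact.out : r.Prime).pos), rt_fr hr hz k, by
    rw [Multiset.card_nsmul, rt_card, mul_comm]⟩

omit [Algebra.IsAlgebraic F K] [IsAlgClosed K] in
theorem sub_main [Fact r.Prime] (hr : (r : F) ≠ 0) {m : ℕ} (hm : 1 ≤ m) (hn : m ≤ finrank F V)
    (hd : r ∣ Nat.card {W : Submodule F V // finrank F W = m}) :
    Lhs (fun u : End F V => LinearMap.det u = 1) r (fun u => ∃ W : Submodule F V, finrank F W = m ∧ ∀ x ∈ W, u x ∈ W) ↔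
      Cnd r (Nat.card F) (finrank F V) m 1 := by
  haveI := finite_sub (F := F) (V := V)
  refine sl_main (AlgebraicClosure F) hr (by omega) (fun u c hc ⟨W, a, b⟩ => ⟨W, a, inv_smul hc b⟩)
    (let ⟨U, h⟩ := exists_dim hn; ⟨U, h, fun _ h => h⟩) (fun u E a N b c => ?_) (fun u z N a b => ?_) ?_
  · rw [b.inv_iff, b.dim]; exact pf_sub_iff (ord_pos hr) c (b.dim ▸ hn)
  · rw [b.inv_iff]; exact ⟨nl_sub hr a (b.dim ▸ hn), id⟩
  · rintro x a b c ⟨W, h1, h2⟩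
    refine gl_deg _ hr x a b (fun g s hs => (finrank_sm g s).trans hs) (fun s s' e e' f f' => ?_) hd W h1 (sm_fix.2 h2)
    rw [sm_fix] at f f'
    obtain ⟨g, hg⟩ := exists_equiv_map_eq (W := s.comap (V0 (x : End F V)).subtype)
      (W' := s'.comap (V0 (x : End F V)).subtype) (by
        rw [finrank_comap (small_le hr a f (e ▸ c)), finrank_comap (small_le hr a f' (e' ▸ c)), e, e'])
    exact ⟨g, fun g' H => H _ _ f f' (by rw [small_inv hr a f (e ▸ c), small_inv hr a f' (e' ▸ c)]) hg⟩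

theorem EV.pair_iff (h : EV u E) (m : ℕ) : (∃ U W : Submodule F V, IsCompl U W ∧ finrank F U = m ∧
    (∀ x ∈ U, u x ∈ U) ∧ ∀ x ∈ W, u x ∈ W) ↔ ∃ E₁ E₂, E = E₁ + E₂ ∧ E₁.map (fr F) = E₁ ∧ E₁.card = m := by
  rw [← h.inv_iff]
  exact ⟨fun ⟨U, _, _, a, b, _⟩ => ⟨U, a, b⟩, fun ⟨U, a, b⟩ => let ⟨W, c, d⟩ := h.compl b; ⟨U, W, d, a, b, c⟩⟩

omit [Algebra.IsAlgebraic F K] [IsAlgClosed K] [FiniteDimensional F V] [Finite F] in
theorem compl_sm (g : V ≃ₗ[F] V) {A B : Submodule F V} (h : IsCompl A B) : IsCompl (g • A) (g • B) :=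
  (Submodule.orderIsoMapComap g).isCompl h

omit [Algebra.IsAlgebraic F K] [IsAlgClosed K] in
theorem pair_main [Fact r.Prime] (hr : (r : F) ≠ 0) {m : ℕ} (hm : 1 ≤ m) (hn : m ≤ finrank F V)
    (hd : r ∣ Nat.card {P : Submodule F V × Submodule F V // IsCompl P.1 P.2 ∧ finrank F P.1 = m}) :
    Lhs (fun u : End F V => LinearMap.det u = 1) r (fun u => ∃ U W : Submodule F V, IsCompl U W ∧ finrank F U = m ∧
      (∀ x ∈ U, u x ∈ U) ∧ ∀ x ∈ W, u x ∈ W) ↔ Cnd r (Nat.card F) (finrank F V) m 1 := by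
  haveI := finite_sub (F := F) (V := V)
  refine sl_main (AlgebraicClosure F) hr (by omega) (fun u c hc ⟨U, W, a, b, d, e⟩ => ⟨U, W, a, b, inv_smul hc d, inv_smul hc e⟩)
    (let ⟨U, h⟩ := exists_dim hn; let ⟨W, h'⟩ := U.exists_isCompl; ⟨U, W, h', h, fun _ h => h, fun _ h => h⟩)
    (fun u E a N b c => ?_) (fun u z N a b => ?_) ?_
  · rw [b.pair_iff, b.dim]; exact pf_sub_iff (ord_pos hr) c (b.dim ▸ hn)
  · rw [b.pair_iff]; exact ⟨nl_sub hr a (b.dim ▸ hn), id⟩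
  · rintro x a b c ⟨U, W, h0, h1, h2, h3⟩
    refine gl_deg _ hr x a b (fun g s hs => ⟨compl_sm g hs.1, (finrank_sm g s.1).trans hs.2⟩)
      (fun s s' e e' f f' => ?_) hd (U, W) ⟨h0, h1⟩ (Prod.ext (sm_fix.2 h2) (sm_fix.2 h3))
    simp only [Prod.ext_iff, Prod.smul_fst, Prod.smul_snd, sm_fix] at f f'
    have l := small_le hr a f.1 (e.2 ▸ c)
    have l' := small_le hr a f'.1 (e'.2 ▸ c)
    have := Submodule.finrank_add_eq_of_isCompl e.1
    have := Submodule.finrank_add_eq_of_isCompl e'.1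
    obtain ⟨g, h4, h5⟩ := exists_pair (comap_compl e.1 l) (comap_compl e'.1 l') (by
        rw [finrank_comap l, finrank_comap l', e.2, e'.2]) rfl
    exact ⟨g, fun g' H => Prod.ext
      (H _ _ f.1 f'.1 (by rw [small_inv hr a f.1 (e.2 ▸ c), small_inv hr a f'.1 (e'.2 ▸ c)]) h4)
      (H _ _ f.2 f'.2 (by rw [big_inv hr a f.2 (by omega), big_inv hr a f'.2 (by omega)]) h5)⟩

omit [Algebra.IsAlgebraic F K] [IsAlgClosed K] in
theorem flag_main [Fact r.Prime] (hr : (r : F) ≠ 0) {m : ℕ} (hm : 1 ≤ m) (hn : 2 * m ≤ finrank F V)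
    (hd : r ∣ Nat.card {P : Submodule F V × Submodule F V //
      P.1 ≤ P.2 ∧ finrank F P.1 = m ∧ finrank F P.2 = finrank F V - m}) :
    Lhs (fun u : End F V => LinearMap.det u = 1) r (fun u => ∃ U W : Submodule F V, U ≤ W ∧ finrank F U = m ∧
      finrank F W = finrank F V - m ∧ (∀ x ∈ U, u x ∈ U) ∧ ∀ x ∈ W, u x ∈ W) ↔
      Cnd r (Nat.card F) (finrank F V) m 2 := by
  haveI := finite_sub (F := F) (V := V)
  refine sl_main (AlgebraicClosure F) hr (by omega) (fun u c hc ⟨U, W, a, b, b', d, e⟩ => ⟨U, W, a, b, b', inv_smul hc d, inv_smul hc e⟩)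
    ?_ (fun u E a N b c => ?_) (fun u z N a b => ?_) ?_
  · obtain ⟨W, h⟩ := exists_dim (F := F) (V := V) (Nat.sub_le _ m)
    obtain ⟨U, h1, h2⟩ := exists_le_finrank_eq W (l := m) (by omega)
    exact ⟨U, W, h1, h2, h, fun _ h => h, fun _ h => h⟩
  · rw [b.flag_iff]
    rw [b.dim] at *
    refine ⟨fun H => ?_, ?_⟩
    · obtain ⟨a₁, a₃, N₁, N₃, h1, h2, h3, h4⟩ := sub_exists2 c.card.symm hn H
      obtain ⟨A, B, rfl, h5, h6⟩ := c.sub fr_inj fr_one (a₁ := a₁) (N₁ := N₁) (by omega) (by omega)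
      obtain ⟨C, D, rfl, h7, h8⟩ := h6.sub fr_inj fr_one (a₁ := a₃) (N₁ := N₃) (by omega) (by omega)
      have := h5.card
      have := h7.card
      exact ⟨A, D, C, by abel, h5.st, h8.st, by omega, by simp only [Multiset.card_add]; omega⟩
    · rintro H ⟨A, B, C, rfl, h1, h2, h3, h4⟩
      obtain ⟨a₁, N₁, a₂, N₂, h5, h6, rfl, rfl⟩ := c.split fr_inj fr_one (ord_pos hr) (st_add h1 h2)
      obtain ⟨a₃, N₃, a₄, N₄, h7, -, rfl, rfl⟩ := h5.split fr_inj fr_one (ord_pos hr) h1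
      simp only [Multiset.card_add] at *
      have := (mod_of_lt (h3.symm.trans h7.card) (by omega)).1
      have := (mod_of_lt (m := m) (Eq.trans (by omega) h6.card) (by omega)).1
      omega
  · rw [b.flag_iff]
    refine ⟨?_, fun ⟨A, B, C, h1, h2, _, h3, _⟩ => ⟨A, B + C, by rw [h1, add_assoc], h2, h3⟩⟩
    rintro ⟨k, rfl⟩
    have := b.dim
    rw [Multiset.card_nsmul, rt_card, mul_comm] at this
    obtain ⟨l, rfl⟩ : ∃ l, N = k + l + k := ⟨N - 2 * k, by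
      have : 2 * k ≤ N := Nat.le_of_mul_le_mul_left (by rw [mul_left_comm]; omega) (Fact.out : r.Prime).pos
      omega⟩
    refine ⟨_, _, _, by rw [add_nsmul, add_nsmul], rt_fr hr a k, rt_fr hr a l, ?_, ?_⟩ <;>
      simp only [Multiset.card_nsmul, rt_card, this, add_mul, mul_comm r, Nat.add_sub_cancel]
  · rintro x a b c ⟨U, W, h0, h1, h1', h2, h3⟩
    refine gl_deg _ hr x a b (fun g s hs => ⟨Submodule.map_mono hs.1, (finrank_sm g s.1).trans hs.2.1,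
      (finrank_sm g s.2).trans hs.2.2⟩)
      (fun s s' e e' f f' => ?_) hd (U, W) ⟨h0, h1, h1'⟩ (Prod.ext (sm_fix.2 h2) (sm_fix.2 h3))
    simp only [Prod.ext_iff, Prod.smul_fst, Prod.smul_snd, sm_fix] at f f'
    have l := small_le hr a f.1 (e.2.1 ▸ c)
    have l' := small_le hr a f'.1 (e'.2.1 ▸ c)
    have := big_dim hr a f.2 (by omega)
    have := big_dim hr a f'.2 (by omega)
    obtain ⟨g, h4, h5⟩ := exists_flag (Submodule.comap_mono (f := (V0 (x : End F V)).subtype) e.1)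
      (Submodule.comap_mono e'.1) (by rw [finrank_comap l, finrank_comap l', e.2.1, e'.2.1]) (by omega)
    exact ⟨g, fun g' H => Prod.ext
      (H _ _ f.1 f'.1 (by rw [small_inv hr a f.1 (e.2.1 ▸ c), small_inv hr a f'.1 (e'.2.1 ▸ c)]) h4)
      (H _ _ f.2 f'.2 (by rw [big_inv hr a f.2 (by omega), big_inv hr a f'.2 (by omega)]) h5)⟩

variable (K) in
theorem exists_reg (hn : finrank F V ≠ 0) : ∃ x : V ≃ₗ[F] V, JD (x : End F V) (UN K {finrank F V}) := by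
  obtain ⟨u, h⟩ := exists_un (F := F) (K := K) (V := V) (μ := {finrank F V}) (by simpa using Nat.pos_of_ne_zero hn) (by simp)
  obtain ⟨x, rfl⟩ := exists_equiv (un_unit h)
  exact ⟨x, h⟩

omit [Algebra.IsAlgebraic F K] [IsAlgClosed K] in
theorem sub_p [Fact p.Prime] [CharP F p] {m : ℕ} (hm : 1 ≤ m) (hn : m ≤ finrank F V) :
    ¬ p ∣ Nat.card {W : Submodule F V // finrank F W = m} := by
  haveI := finite_sub (F := F) (V := V)
  obtain ⟨x, h⟩ := exists_reg (F := F) (V := V) (AlgebraicClosure F) (by omega)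
  exact reg_not_dvd _ h (fun s hs => (finrank_sm x s).trans hs) _ fun s => by rw [sm_fix]; exact reg_iff h hn

omit [Algebra.IsAlgebraic F K] [IsAlgClosed K] in
theorem flag_p [Fact p.Prime] [CharP F p] {m m' : ℕ} (hm : 1 ≤ m) (hm' : m ≤ m') (hn : m' ≤ finrank F V) :
    ¬ p ∣ Nat.card {P : Submodule F V × Submodule F V // P.1 ≤ P.2 ∧ finrank F P.1 = m ∧ finrank F P.2 = m'} := by
  haveI := finite_sub (F := F) (V := V)
  obtain ⟨x, h⟩ := exists_reg (F := F) (V := V) (AlgebraicClosure F) (by omega)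
  refine reg_not_dvd _ h (fun s hs => ⟨Submodule.map_mono hs.1, (finrank_sm x s.1).trans hs.2.1,
    (finrank_sm x s.2).trans hs.2.2⟩) (LinearMap.ker (((x : End F V) - 1) ^ m), LinearMap.ker (((x : End F V) - 1) ^ m'))
    fun s => ?_
  simp only [Prod.ext_iff, Prod.smul_fst, Prod.smul_snd, sm_fix]
  refine ⟨fun H => ⟨(reg_iff h (hm'.trans hn)).1 ⟨H.1.2.1, H.2.1⟩, (reg_iff h hn).1 ⟨H.1.2.2, H.2.2⟩⟩, fun H => ?_⟩
  have h1 := (reg_iff h (hm'.trans hn)).2 H.1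
  have h2 := (reg_iff h hn).2 H.2
  exact ⟨⟨H.1 ▸ H.2 ▸ (LinearMap.iterateKer _).monotone hm', h1.1, h2.1⟩, h1.2, h2.2⟩

omit [Algebra.IsAlgebraic F K] [IsAlgClosed K] in
theorem pair_p [Fact p.Prime] [CharP F p] {m : ℕ} (hn : m ≤ finrank F V) :
    Lhs (fun u : End F V => LinearMap.det u = 1) p (fun u => ∃ U W : Submodule F V, IsCompl U W ∧ finrank F U = m ∧
      (∀ x ∈ U, u x ∈ U) ∧ ∀ x ∈ W, u x ∈ W) ↔ ∀ μ : Multiset ℕ, (∀ a ∈ μ, 0 < a ∧ a ≤ p) → μ.sum = finrank F V →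
        ∃ ν, ν ≤ μ ∧ ν.sum = m := by
  refine ⟨fun h μ h1 h2 => ?_, fun h => Lhs.of_un (AlgebraicClosure F) det_unit fun u _ w w0 _ μ h1 h2 => ?_⟩
  · by_cases H : ∀ k ∈ μ, k = 1
    · exact sub_ones hn H h2
    obtain ⟨u, h3⟩ := exists_un (F := F) (K := AlgebraicClosure F) (V := V) (fun k hk => (h1 k hk).1) h2.symm
    exact (un_split_iff h3 m).1 (h.un h3 (un_det h3) (fun k hk => (h1 k hk).2) (by simpa using H))
  · obtain ⟨U, W, a, b, c, d⟩ := (un_split_iff h1 m).2 (h μ h2 (by simpa using h1.dim.symm))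
    exact ⟨U, W, a, b, inv_smul (inv_ne_zero w0) c, inv_smul (inv_ne_zero w0) d⟩

end H25.El
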