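import Cfsg.Agent.H25.El5
import Cfsg.Agent.H12.Parab

/-! Elusive actions, VI: classes of formed spaces and their subspaces. -/

set_option autoImplicit false

namespace H25.El

open Module Polynomial Function H22 H27.Sp H12 H12.CForm Pointwise

universe u

variable {F : Type u} [Field F] {T : FormType F}

/-- a complete isometry invariant besides the dimension -/
structure Cls (T : FormType F) where
  cl : ∀ {V : Type u} [AddCommGroup V] [Module F V] [FiniteDimensional F V], CForm T V → ℤˣ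
  iso_iff : ∀ {V W : Type u} [AddCommGroup V] [Module F V] [AddCommGroup W] [Module F W] [FiniteDimensional F V]
    [FiniteDimensional F W] {C : CForm T V} {C' : CForm T W}, C.Nondeg → C'.Nondeg → finrank F V = finrank F W →
    (C.Iso C' ↔ cl C = cl C')
  mul : ∀ {V W : Type u} [AddCommGroup V] [Module F V] [AddCommGroup W] [Module F W] [FiniteDimensional F V]
    [FiniteDimensional F W] {C : CForm T V} {C' : CForm T W}, C.Nondeg → C'.Nondeg → cl (osum C C') = cl C * cl C'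

variable {V W : Type u} [AddCommGroup V] [Module F V] [AddCommGroup W] [Module F W] {C : CForm T V} {C' : CForm T W}
  {A B U : Submodule F V} {m m' n j : ℕ} {γ γ' δ : ℤˣ} {u : End F V}

theorem uu (γ : ℤˣ) : γ * γ = 1 := Int.units_mul_self γ

theorem iso_map {f : W →ₗ[F] V} (hf : C'.IsIsomTo C f) (hi : Injective f) (A : Submodule F W) :
    (C'.restrict A).Iso (C.restrict (A.map f)) :=
  ⟨A.equivMapOfInjective f hi, fun x y => hf.1 x y, fun x => hf.2 x⟩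

theorem isom_subtype (U : Submodule F V) : (C.restrict U).IsIsomTo C U.subtype := ⟨fun _ _ => rfl, fun _ => rfl⟩

theorem isom_comp {X : Type*} [AddCommGroup X] [Module F X] {C'' : CForm T X} {f : W →ₗ[F] V} {g : X →ₗ[F] W}
    (hf : C'.IsIsomTo C f) (hg : C''.IsIsomTo C' g) : C''.IsIsomTo C (f ∘ₗ g) :=
  ⟨fun x y => (hf.1 _ _).trans (hg.1 x y), fun x => (hf.2 _).trans (hg.2 x)⟩

theorem isom_inl : C.IsIsomTo (osum C C') (LinearMap.inl F V W) :=
  ⟨fun x y => by simp [osum_B], fun x => by simp [osum, C'.N_zero]⟩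

theorem isom_inr : C'.IsIsomTo (osum C C') (LinearMap.inr F V W) :=
  ⟨fun x y => by simp [osum_B], fun x => by simp [osum, C.N_zero]⟩

theorem isom_coprod (h : B ≤ C.perp A) :
    (osum (C.restrict A) (C.restrict B)).IsIsomTo C (A.subtype.coprod B.subtype) := by
  have o : ∀ (x : A) (y : B), C.B x y = 0 := fun x y => C.mem_perp.1 (h y.2) x x.2
  refine ⟨fun x y => ?_, fun x => C.N_add_of_orth (o _ _)⟩
  simp [osum_B, o, C.B_swap_zero (o _ _)]

theorem nd_left (h : B ≤ C.perp A) (hn : C.NondegOn (A ⊔ B)) : C.NondegOn A := fun x hx H =>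
  hn x (Submodule.mem_sup_left hx) fun y hy => by
    obtain ⟨a, ha, b, hb, rfl⟩ := Submodule.mem_sup.1 hy
    rw [map_add, H a ha, C.mem_perp.1 (h hb) x hx, add_zero]

theorem nd_right (h : B ≤ C.perp A) (hn : C.NondegOn (A ⊔ B)) : C.NondegOn B :=
  nd_left (C.le_perp_comm.1 h) (sup_comm A B ▸ hn)

theorem disj_of_nd (hA : C.NondegOn A) (h : B ≤ C.perp A) : Disjoint A B := (C.nondegOn_iff.1 hA).mono_right h

theorem iso_sup (h : B ≤ C.perp A) (hd : Disjoint A B) :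
    (osum (C.restrict A) (C.restrict B)).Iso (C.restrict (A ⊔ B)) := by
  have := iso_map (isom_coprod h) (LinearMap.ker_eq_bot.1 (by
    rw [LinearMap.ker_coprod_of_disjoint_range _ _ (by simpa)]; simp)) ⊤
  rw [Submodule.map_top, LinearMap.range_coprod, Submodule.range_subtype, Submodule.range_subtype] at this
  exact iso_restrict_top.symm.trans this

theorem perp_inv [FiniteDimensional F V] (hC : C.Nondeg) (hu : C.IsIsomTo C u) (i : ∀ x ∈ A, u x ∈ A) :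
    ∀ x ∈ C.perp A, u x ∈ C.perp A := fun x hx => C.mem_perp.2 fun y hy => by
  obtain ⟨z, e⟩ := (LinearMap.injective_iff_surjective (f := u.restrict i)).1
    (fun a b h => Subtype.ext (hC.injective_of_isIsomTo hu.1 (congrArg Subtype.val h))) ⟨y, hy⟩
  rw [← show u z = y from congrArg Subtype.val e, hu.1, C.mem_perp.1 hx z z.2]

theorem isom_res (hu : C.IsIsomTo C u) (i : ∀ x ∈ U, u x ∈ U) :
    (C.restrict U).IsIsomTo (C.restrict U) (u.restrict i : End F U) := ⟨fun x y => hu.1 x y, fun x => hu.2 x⟩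

/-- Witt extension fixing a subspace pointwise -/
theorem witt_fix [FiniteDimensional F V] (hC : C.Nondeg) (hU : C.NondegOn U) (h : A ≤ C.perp U) (h' : B ≤ C.perp U)
    (e : (C.restrict A).Iso (C.restrict B)) : ∃ g ∈ C.isom, (∀ y ∈ U, g y = y) ∧ g • A = B := by
  obtain ⟨e, he⟩ := e
  have inj : ∀ {A}, A ≤ C.perp U → Injective (U.subtype.coprod A.subtype) := fun h => LinearMap.ker_eq_bot.1 (by
    rw [LinearMap.ker_coprod_of_disjoint_range _ _ (by simpa using disj_of_nd hU h)]; simp)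
  obtain ⟨l, hl⟩ := LinearMap.exists_leftInverse_of_injective _ (LinearMap.ker_eq_bot.2 (inj h))
  have hl : ∀ x, l (U.subtype.coprod A.subtype x) = x := fun x => LinearMap.congr_fun hl x
  let j := U.subtype.coprod B.subtype ∘ₗ LinearMap.prodMap (.id : U →ₗ[F] U) e.toLinearMap
  have hj : (osum (C.restrict U) (C.restrict A)).IsIsomTo C j := isom_comp (isom_coprod h')
    ⟨fun x y => congrArg _ (he.1 _ _), fun x => congrArg _ (he.2 _)⟩
  obtain ⟨g, h1, h2⟩ := hC.witt' (LinearMap.range (U.subtype.coprod A.subtype)) (j ∘ₗ l) (by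
      rintro _ ⟨x, rfl⟩ e'
      rw [LinearMap.comp_apply, hl] at e'
      rw [show x = 0 from ((inj h').comp (injective_id.prodMap e.injective)) (e'.trans (map_zero j).symm), map_zero])
    (by rintro _ ⟨x, rfl⟩ _ ⟨y, rfl⟩; simp only [LinearMap.comp_apply, hl]
        exact (hj.1 x y).trans ((isom_coprod h).1 x y).symm)
    (by rintro _ ⟨x, rfl⟩; simp only [LinearMap.comp_apply, hl]; exact (hj.2 x).trans ((isom_coprod h).2 x).symm)
  have h3 : ∀ x, g (U.subtype.coprod A.subtype x) = j x := fun x => by rw [h2 _ ⟨x, rfl⟩, LinearMap.comp_apply, hl]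
  exact ⟨g, h1, fun y hy => by simpa [j] using h3 (⟨y, hy⟩, 0),
    map_eq_of_res (e := e) fun x => by simpa [j] using h3 (0, x)⟩

theorem ts_iso [FiniteDimensional F V] (h : C.TS A) (h' : C.TS B) (e : finrank F A = finrank F B) :
    (C.restrict A).Iso (C.restrict B) :=
  ⟨.ofFinrankEq _ _ e, fun x y => (h'.2 _ (Subtype.prop _) _ (Subtype.prop _)).trans (h.2 _ x.2 _ y.2).symm,
    fun x => (h'.1 _ (Subtype.prop _)).trans (h.1 _ x.2).symm⟩

theorem ts_map_iff {f : W →ₗ[F] V} (hf : C'.IsIsomTo C f) {A : Submodule F W} : C.TS (A.map f) ↔ C'.TS A :=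
  ⟨fun h => ⟨fun x hx => (hf.2 x).symm.trans (h.1 _ ⟨x, hx, rfl⟩),
    fun x hx y hy => (hf.1 x y).symm.trans (h.2 _ ⟨x, hx, rfl⟩ _ ⟨y, hy, rfl⟩)⟩, TS.map_of hf⟩

theorem exists_model [FiniteDimensional F V] (C : CForm T V) : ∃ C₀ : CForm T (Fin (finrank F V) → F), C₀.Iso C :=
  ⟨C.comap (finBasis F V).equivFun.symm.toLinearMap, (finBasis F V).equivFun.symm, fun _ _ => rfl, fun _ => rfl⟩

namespace Cls
variable (κ : Cls T)

/-- existence of a form -/
def Ex (n : ℕ) (δ : ℤˣ) : Prop := ∃ C : CForm T (Fin n → F), C.Nondeg ∧ κ.cl C = δ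

/-- existence of totally singular subspaces -/
def HT (n : ℕ) (δ : ℤˣ) (j : ℕ) : Prop := ∃ C : CForm T (Fin n → F), C.Nondeg ∧ κ.cl C = δ ∧ C.HasTS j

/-- non-degenerate subspaces of a given class -/
def ND [FiniteDimensional F V] (C : CForm T V) (A : Submodule F V) (m : ℕ) (γ : ℤˣ) : Prop :=
  C.NondegOn A ∧ finrank F A = m ∧ κ.cl (C.restrict A) = γ

variable {κ} [FiniteDimensional F V] [FiniteDimensional F W]

theorem cl_eq (h : C.Iso C') (hC : C.Nondeg) : κ.cl C = κ.cl C' :=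
  (κ.iso_iff hC (h.nondeg hC) h.finrank_eq).1 h

theorem ex_of (hC : C.Nondeg) : κ.Ex (finrank F V) (κ.cl C) :=
  let ⟨C₀, h⟩ := exists_model C; ⟨C₀, h.symm.nondeg hC, (cl_eq h.symm hC).symm⟩

theorem ND.nd (h : κ.ND C A m γ) : (C.restrict A).Nondeg := C.restrict_nondeg_iff.2 h.1

theorem ND.ex (h : κ.ND C A m γ) : κ.Ex m γ := by obtain ⟨h1, rfl, rfl⟩ := h; exact ex_of (C.restrict_nondeg_iff.2 h1)

theorem nd_self (κ : Cls T) (h : C.NondegOn A) : κ.ND C A (finrank F A) (κ.cl (C.restrict A)) := ⟨h, rfl, rfl⟩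

theorem ND.of_iso {B : Submodule F W} (h : κ.ND C A m γ) (e : (C.restrict A).Iso (C'.restrict B)) : κ.ND C' B m γ :=
  ⟨C'.restrict_nondeg_iff.1 (e.nondeg h.nd), e.finrank_eq ▸ h.2.1, (cl_eq e h.nd).symm.trans h.2.2⟩

theorem ND.iso {B : Submodule F W} (h : κ.ND C A m γ) (h' : κ.ND C' B m γ) : (C.restrict A).Iso (C'.restrict B) :=
  (κ.iso_iff h.nd h'.nd (h.2.1.trans h'.2.1.symm)).2 (h.2.2.trans h'.2.2.symm)

theorem nd_map {f : W →ₗ[F] V} (hf : C'.IsIsomTo C f) (hi : Injective f) {A : Submodule F W} :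
    κ.ND C (A.map f) m γ ↔ κ.ND C' A m γ :=
  ⟨fun h => h.of_iso (iso_map hf hi A).symm, fun h => h.of_iso (iso_map hf hi A)⟩

theorem nd_top (hC : C.Nondeg) : κ.ND C ⊤ (finrank F V) (κ.cl C) :=
  ⟨C.nondegOn_top.2 hC, finrank_top F V, (cl_eq iso_restrict_top.symm hC).symm⟩

theorem nd_range {f : W →ₗ[F] V} (hf : C'.IsIsomTo C f) (hC : C'.Nondeg) :
    κ.ND C (LinearMap.range f) (finrank F W) (κ.cl C') :=
  Submodule.map_top f ▸ (nd_map hf (hC.injective_of_isIsomTo hf.1)).2 (nd_top hC)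

theorem ND.sm {g : V ≃ₗ[F] V} (hg : g ∈ C.isom) (h : κ.ND C A m γ) : κ.ND C (g • A) m γ :=
  (nd_map (f := (g : V →ₗ[F] V)) hg g.injective).2 h

theorem ND.uniq (h : κ.ND C A m γ) (h' : κ.ND C A m' γ') : m = m' ∧ γ = γ' :=
  ⟨h.2.1.symm.trans h'.2.1, h.2.2.symm.trans h'.2.2⟩

theorem ND.sup (h : κ.ND C A m γ) (h' : κ.ND C B m' γ') (o : B ≤ C.perp A) : κ.ND C (A ⊔ B) (m + m') (γ * γ') := by
  have e := iso_sup o (disj_of_nd h.1 o)
  have n := osum_nondeg h.nd h'.nd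
  refine ⟨C.restrict_nondeg_iff.1 (e.nondeg n), ?_, ?_⟩
  · rw [← e.finrank_eq, finrank_prod, h.2.1, h'.2.1]
  · rw [← cl_eq e n, κ.mul h.nd h'.nd, h.2.2, h'.2.2]

theorem ND.split (h : κ.ND C (A ⊔ B) m γ) (o : B ≤ C.perp A) :
    ∃ m₁ m₂ γ₁ γ₂, κ.ND C A m₁ γ₁ ∧ κ.ND C B m₂ γ₂ ∧ m = m₁ + m₂ ∧ γ = γ₁ * γ₂ :=
  have h1 := κ.nd_self (nd_left o h.1)
  have h2 := κ.nd_self (nd_right o h.1)
  ⟨_, _, _, _, h1, h2, h.uniq (h1.sup h2 o)⟩

theorem ND.rel (hC : C.Nondeg) (hU : κ.ND C U n δ) (h : κ.ND C A m γ) (l : A ≤ U) :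
    m ≤ n ∧ κ.ND C (U ⊓ C.perp A) (n - m) (γ * δ) := by
  have e : A ⊔ U ⊓ C.perp A = U := by
    rw [inf_comm, ← sup_inf_assoc_of_le _ l, (hC.isCompl_perp h.1).sup_eq_top, top_inf_eq]
  obtain ⟨m₁, m₂, γ₁, γ₂, h1, h2, rfl, rfl⟩ := (e ▸ hU).split inf_le_right
  obtain ⟨rfl, rfl⟩ := h.uniq h1
  exact ⟨Nat.le_add_right _ _, by rwa [Nat.add_sub_cancel_left, ← mul_assoc, uu, one_mul]⟩

theorem ND.perp (hC : C.Nondeg) (h : κ.ND C A m γ) : κ.ND C (C.perp A) (finrank F V - m) (γ * κ.cl C) := by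
  simpa using ((nd_top hC).rel hC h le_top).2

theorem cl_zero (hC : C.Nondeg) (h : finrank F V = 0) : κ.cl C = 1 := by
  have := cl_eq (κ := κ) (iso_of_finrank_zero (C := osum C C) (C' := C) (by simp [h]) h) (osum_nondeg hC hC)
  rw [κ.mul hC hC, uu] at this
  exact this.symm

theorem nd_bot : κ.ND C ⊥ 0 1 :=
  have : C.NondegOn ⊥ := fun x hx _ => by simpa using hx
  ⟨this, by simp, cl_zero (C.restrict_nondeg_iff.2 this) (by simp)⟩

theorem ex_zero : κ.Ex 0 δ ↔ δ = 1 :=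
  ⟨fun ⟨_, h, e⟩ => e ▸ cl_zero h (by simp), fun h => h ▸ (nd_bot (C := (⟨0, 0, by simp, by simp, by simp, by simp,
    fun _ => ⟨0, by simp⟩⟩ : CForm T (Fin 0 → F)))).ex⟩

theorem exists_nd_iff (hC : C.Nondeg) (hU : κ.ND C U n δ) :
    (∃ A ≤ U, κ.ND C A m γ) ↔ m ≤ n ∧ κ.Ex m γ ∧ κ.Ex (n - m) (γ * δ) := by
  refine ⟨fun ⟨A, l, h⟩ => ⟨(hU.rel hC h l).1, h.ex, (hU.rel hC h l).2.ex⟩, ?_⟩
  rintro ⟨l, ⟨C₁, h1, rfl⟩, C₂, h2, e⟩
  obtain ⟨g, hg⟩ := (κ.iso_iff (osum_nondeg h1 h2) hU.nd (by simp [hU.2.1, l])).2 (by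
    rw [κ.mul h1 h2, e, ← mul_assoc, uu, one_mul, hU.2.2])
  refine ⟨_, ?_, by simpa using nd_range (isom_comp (isom_subtype U) (isom_comp (f := g.toLinearMap) hg isom_inl)) h1⟩
  rintro _ ⟨x, rfl⟩; exact Subtype.prop _

theorem exists_ts_iff (hU : κ.ND C U n δ) : (∃ A ≤ U, C.TS A ∧ finrank F A = j) ↔ κ.HT n δ j := by
  have : (∃ A ≤ U, C.TS A ∧ finrank F A = j) ↔ (C.restrict U).HasTS j :=
    ⟨fun ⟨A, l, h, e⟩ => ⟨A.comap U.subtype, (ts_map_iff (isom_subtype U)).1 (by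
      rwa [Submodule.map_comap_eq_self (by simpa)]), by rw [finrank_comap l, e]⟩,
    fun ⟨A, h, e⟩ => ⟨_, U.map_subtype_le A, h.map_of (isom_subtype U), by rw [Submodule.finrank_map_subtype_eq, e]⟩⟩
  rw [this]
  obtain ⟨C₀, h0, e⟩ := hU.ex
  have i : ∀ C₁ : CForm T (Fin n → F), C₁.Nondeg → κ.cl C₁ = δ → C₁.Iso (C.restrict U) := fun C₁ a b =>
    (κ.iso_iff a hU.nd (by simp [hU.2.1])).2 (b.trans hU.2.2.symm)
  exact ⟨fun h => ⟨C₀, h0, e, (i C₀ h0 e).symm.hasTS h⟩, fun ⟨C₁, a, b, c⟩ => (i C₁ a b).hasTS c⟩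

theorem ht_iff (hC : C.Nondeg) : κ.HT (finrank F V) (κ.cl C) j ↔ C.HasTS j := by
  rw [← exists_ts_iff (nd_top hC)]; simp [HasTS]

/-- transport of isometries -/
theorem transport (hC : C.Nondeg) (hC' : C'.Nondeg) (h : finrank F W = finrank F V) (h' : κ.cl C' = κ.cl C)
    {v : End F W} (hv : C'.IsIsomTo C' v) : ∃ u : End F V, C.IsIsomTo C u ∧ FSim C' v C u := by
  obtain ⟨e, he⟩ := (κ.iso_iff hC' hC h).2 h'
  refine ⟨e.toLinearMap ∘ₗ v ∘ₗ e.symm.toLinearMap, isom_comp (f := e.toLinearMap) he (isom_comp hv he.symm), e, he, fun x => by simp⟩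

end Cls

end H25.El
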