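import Cfsg.Agent.H25.El6
import Cfsg.Agent.H22.UF3

/-! Elusive actions, VII: invariant subspaces of semisimple isometries. -/

set_option autoImplicit false

namespace H25.El

open Module Polynomial Function H22 H27.Sp H12 H12.CForm Pointwise

universe u

variable {F : Type u} {K : Type*} [Field F] [Field K] [Algebra F K] {T : FormType F} {θ : K →+* K}

/-- the duality on eigenvalues -/
def du (θ : K →+* K) (a : K) : K := (θ a)⁻¹

theorem du_inj : Injective (du θ) := inv_injective.comp θ.injective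

/-- regular eigenvalues -/
def Rg (T : FormType F) (E : Multiset K) : Prop := T.σ ≠ RingHom.id F ∧ T.κ = 1 ∨ ∀ a ∈ E, a ^ 2 ≠ 1

theorem Rg.mono {E E' : Multiset K} (h : Rg T E) (l : E' ≤ E) : Rg T E' :=
  h.imp_right fun h a ha => h a (Multiset.mem_of_le l ha)

/-- the classical types -/
structure TG (T : FormType F) (θ : K →+* K) : Prop where
  ext : ∀ c, θ (algebraMap F K c) = algebraMap F K (T.σ c)
  εε : T.ε * T.σ T.ε = 1
  τε : ∀ a, T.τ (T.ε * T.σ a) = T.τ a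
  lin : ∀ c a, T.τ (T.σ c * (c * a)) = c * T.σ c * T.τ a
  self : ∀ a, a + T.ε * T.σ a = T.κ * T.τ a
  uq : T.τ = 0 ∨ T.κ = 1 ∨ T.κ = 2
  rl : ∀ E : Multiset K, E.map (fr F) = E → E.map (du θ) = E → (∀ a ∈ E, a ≠ 0) → Rg T E → Rl T (E.map (·, 1))

/-- data of invariant totally singular subspaces -/
def TSd (φ ι : K → K) (E : Multiset K) (k : ℕ) : Prop :=
  ∃ E₁ E₂, E = E₁ + E₁.map ι + E₂ ∧ E₁.map φ = E₁ ∧ E₁.card = k

variable {V W : Type u} [AddCommGroup V] [Module F V] [AddCommGroup W] [Module F W] {C : CForm T V} {C' : CForm T W}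
  {A B U : Submodule F V} {m m' n j r : ℕ} {γ γ' δ : ℤˣ} {u : End F V} {v : End F W} {E E₁ E₂ : Multiset K}

/-- the hyperbolic space -/
noncomputable def hypC (h : TG T θ) (S : SQ T.σ W) : CForm T (W × W) where
  B := (S.β.comp (.fst F W W)).compl₂ (.snd F W W) + T.ε • cjF T.σσ ((S.β.comp (.fst F W W)).compl₂ (.snd F W W))
  N x := T.τ (S.β x.1 x.2)
  symm x y := by
    simp only [LinearMap.add_apply, LinearMap.smul_apply, cjF_apply, smul_eq_mul, map_add, map_mul, T.σσ]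
    linear_combination (-(S.β.comp (.fst F W W)).compl₂ (.snd F W W) y x) * h.εε
  N_add x y := by simp [cjF_apply, h.τε]; ring
  N_smul c x := by simp [S.smul_left, ← h.lin, mul_left_comm]
  B_self x := by simp [cjF_apply, h.self]
  N_mem x := ⟨_, rfl⟩

theorem hypC_B (h : TG T θ) (S : SQ T.σ W) (x y : W × W) :
    (hypC h S).B x y = S.β x.1 y.2 + T.ε * T.σ (S.β y.1 x.2) := by simp [hypC, cjF_apply]

variable [FiniteDimensional F V] [FiniteDimensional F W]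

theorem hypC_nd (h : TG T θ) (S : SQ T.σ W) : (hypC h S).Nondeg := fun x H =>
  Prod.ext (S.ext' fun z => by simpa [hypC_B] using H (0, z))
    (S.ext_right fun z => by simpa [hypC_B, T.ε_ne] using H (z, 0))

theorem perp_V1 (hC : C.Nondeg) (hu : C.IsIsomTo C u) : C.perp (V1 u) = V0 u := by
  simpa using perp_range hC hu (ε := 1) (by simp)

theorem perp_V0 (hC : C.Nondeg) (hu : C.IsIsomTo C u) : C.perp (V0 u) = V1 u := by
  rw [← perp_V1 hC hu, hC.perp_perp]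

theorem exists_isomE (hC : C.Nondeg) (hu : C.IsIsomTo C u) : ∃ x ∈ C.isom, (x : End F V) = u :=
  let ⟨e, h, h'⟩ := hC.exists_isom u hu; ⟨e, h, LinearMap.ext h'⟩

variable [Finite F]

theorem nd_V1 (hr : (r : F) ≠ 0) (hC : C.Nondeg) (hu : C.IsIsomTo C u) (h : u ^ r = 1) : C.NondegOn (V1 u) :=
  C.nondegOn_iff.2 (perp_V1 hC hu ▸ (compl01 hr h).disjoint.symm)

theorem fix_nd (κ : Cls T) (hr : (r : F) ≠ 0) (hC : C.Nondeg) (hu : C.IsIsomTo C u) (h : u ^ r = 1) :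
    (∃ A, κ.ND C A m γ ∧ ∀ x ∈ A, u x ∈ A) ↔ ∃ m₀ m₁ γ₀ γ₁, m = m₀ + m₁ ∧ γ = γ₀ * γ₁ ∧
      (∃ A ≤ V0 u, κ.ND C A m₀ γ₀) ∧ ∃ A ≤ V1 u, κ.ND C A m₁ γ₁ ∧ ∀ x ∈ A, u x ∈ A := by
  have o : ∀ {A B}, A ≤ V0 u → B ≤ V1 u → B ≤ C.perp A := fun h1 h2 =>
    h2.trans (perp_V0 hC hu ▸ C.perp_anti h1)
  constructor
  · rintro ⟨A, h1, i⟩
    obtain ⟨m₀, m₁, γ₀, γ₁, a, b, c, d⟩ := (inv_decomp hr h i ▸ h1).split (o inf_le_right inf_le_right)
    exact ⟨_, _, _, _, c, d, ⟨_, inf_le_right, a⟩, _, inf_le_right, b, inf_inv i (V1_inv u)⟩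
  · rintro ⟨m₀, m₁, γ₀, γ₁, rfl, rfl, ⟨A, a, b⟩, B, c, d, i⟩
    exact ⟨_, b.sup d (o a c), sup_inv (le_V0_inv a) i⟩

theorem fix_ts (hr : (r : F) ≠ 0) (hC : C.Nondeg) (hu : C.IsIsomTo C u) (h : u ^ r = 1) :
    (∃ A, (C.TS A ∧ finrank F A = m) ∧ ∀ x ∈ A, u x ∈ A) ↔ ∃ m₀ m₁, m = m₀ + m₁ ∧
      (∃ A ≤ V0 u, C.TS A ∧ finrank F A = m₀) ∧ ∃ A ≤ V1 u, (C.TS A ∧ finrank F A = m₁) ∧ ∀ x ∈ A, u x ∈ A := by
  constructor
  · rintro ⟨A, ⟨h1, rfl⟩, i⟩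
    exact ⟨_, _, (inv_dim hr h i).symm, ⟨_, inf_le_right, h1.mono inf_le_left, rfl⟩, _, inf_le_right,
      ⟨h1.mono inf_le_left, rfl⟩, inf_inv i (V1_inv u)⟩
  · rintro ⟨m₀, m₁, rfl, ⟨A, a, b, rfl⟩, B, c, ⟨d, rfl⟩, i⟩
    refine ⟨_, ⟨b.sup d (c.trans (perp_V0 hC hu ▸ C.perp_anti a)), ?_⟩, sup_inv (le_V0_inv a) i⟩
    have := Submodule.finrank_sup_add_finrank_inf_eq A B
    rwa [((compl01 hr h).disjoint.mono a c).eq_bot, finrank_bot, add_zero] at this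

omit [FiniteDimensional F V] [Finite F] in
theorem inv_res_iff (i : ∀ x ∈ U, u x ∈ U) (P : Submodule F V → Prop) :
    (∃ A ≤ U, P A ∧ ∀ x ∈ A, u x ∈ A) ↔ ∃ A : Submodule F U, P (A.map U.subtype) ∧ ∀ x ∈ A, u.restrict i x ∈ A :=
  ⟨fun ⟨A, l, h, j⟩ => ⟨A.comap U.subtype, by rwa [Submodule.map_comap_eq_self (by simpa)], comap_inv i j⟩,
    fun ⟨A, h, j⟩ => ⟨_, U.map_subtype_le A, h, map_inv i j⟩⟩

/-- the degenerate case for isometry groups acting on subspaces -/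
theorem form_deg (P : Submodule F V → Prop) [Fact r.Prime] (hr : (r : F) ≠ 0) (hC : C.Nondeg) {x : V ≃ₗ[F] V}
    (hx : x ∈ C.isom) (h : (x : End F V) ^ r = 1) (hP : ∀ g ∈ C.isom, ∀ s, P s → P (g • s))
    (h1 : ∀ g ∈ C.isom, (g : End F V) ^ r = 1 → V1 (g : End F V) ≤ V0 (x : End F V) → V1 (g : End F V) = ⊥)
    (h4 : ∀ s s', P s → P s' → (∀ v ∈ s, x v ∈ s) → (∀ v ∈ s', x v ∈ s') → s ⊓ V1 (x : End F V) = s' ⊓ V1 (x : End F V) ∧
      (C.restrict (s ⊓ V0 (x : End F V))).Iso (C.restrict (s' ⊓ V0 (x : End F V))))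
    (hd : r ∣ Nat.card {s // P s}) (s : Submodule F V) (hs : P s) : ¬ ∀ v ∈ s, x v ∈ s := by
  haveI : Finite V := Module.finite_of_finite F
  haveI := finite_sub (F := F) (V := V)
  rw [← sm_fix]
  refine deg P hr x h C.isom hx hP (fun g a b c => ?_) (fun s s' a b c d => ?_) hd s hs
  · have := h1 g a b (by rw [← perp_V0 hC a, ← perp_V1 hC hx]; exact C.perp_anti c)
    rwa [LinearMap.range_eq_bot, sub_eq_zero] at this
  rw [sm_fix] at c d
  obtain ⟨e1, e2⟩ := h4 s s' a b c d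
  obtain ⟨g, g1, g2, g3⟩ := witt_fix hC (nd_V1 hr hC hx h) (perp_V1 hC hx ▸ inf_le_right) (perp_V1 hC hx ▸ inf_le_right) e2
  have g4 : ∀ A ≤ V1 (x : End F V), g • A = A := fun A l => sm_fix.2 fun v hv => by rwa [g2 v (l hv)]
  refine ⟨g, g1, g2, fun v hv => ?_, ?_⟩
  · rw [← perp_V1 hC hx] at hv ⊢
    exact perp_inv hC (u := (g : End F V)) g1 (sm_fix.1 (g4 _ le_rfl)) v hv
  · rw [← inv_decomp hr h c, ← inv_decomp hr h d, sm_eq, Submodule.map_sup, ← sm_eq, ← sm_eq, g3, g4 _ inf_le_right, e1]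

variable [Algebra.IsAlgebraic F K]

theorem ev_dual (h : TG T θ) (S : SQ T.σ W) {a b : End F W} (H : ∀ x y, S.β (a x) (b y) = S.β x y) (hb : EV b E)
    (h0 : ∀ a ∈ E, a ≠ 0) : EV a (E.map (du θ)) := by
  obtain ⟨w, hw⟩ := (hb.isUnit h0).exists_right_inv
  have := (JD.inverse hb (by simpa) hw).adj S θ h.ext
  rw [S.adj_eq (ψ := a) fun x y => by rw [← H x, ← Module.End.mul_apply, hw]; rfl, ss_pm, ss_pm, Multiset.map_map] at this
  simpa [EV, du, Function.comp_def] using this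

theorem ev_ne (hC : C.Nondeg) (hu : C.IsIsomTo C u) (h : EV u E) : ∀ a ∈ E, a ≠ 0 := h.ne_zero (isUnit_of_isom hC hu)

theorem ev_sym (h : TG T θ) (hC : C.Nondeg) (hu : C.IsIsomTo C u) (h1 : EV u E) : E.map (du θ) = E :=
  (ev_dual h (toSQ hC) hu.1 h1 (ev_ne hC hu h1)).unique h1

theorem exists_hyp (h : TG T θ) (h1 : E.map (fr F) = E) (h0 : ∀ a ∈ E, a ≠ 0) :
    ∃ (C : CForm T ((Fin E.card → F) × (Fin E.card → F))) (a b : End F (Fin E.card → F)), C.Nondeg ∧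
      C.IsIsomTo C (a.prodMap b) ∧ EV a (E.map (du θ)) ∧ EV b E ∧ C.TS (LinearMap.range (.inr F _ _)) ∧
      C.TS (LinearMap.range (.inl F _ _)) := by
  obtain ⟨b, hb⟩ := exists_of_ev (F := F) (V := Fin E.card → F) h1 (by simp)
  obtain ⟨S⟩ := exists_SQ T.σσ (Fin E.card → F)
  obtain ⟨w, hw⟩ := (hb.isUnit h0).exists_right_inv
  have H : ∀ x y, S.β (S.adj w x) (b y) = S.β x y := fun x y => by
    rw [S.adj_spec, ← Module.End.mul_apply, mul_eq_one_comm.1 hw]; rfl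
  refine ⟨hypC h S, S.adj w, b, hypC_nd h S, ⟨fun x y => by simp [hypC_B, H], fun x => by simp [hypC, H]⟩,
    ev_dual h S H hb h0, hb, ⟨?_, ?_⟩, ?_, ?_⟩
  · rintro _ ⟨x, rfl⟩; simp [hypC]
  · rintro _ ⟨x, rfl⟩ _ ⟨y, rfl⟩; simp [hypC_B]
  · rintro _ ⟨x, rfl⟩; simp [hypC]
  · rintro _ ⟨x, rfl⟩ _ ⟨y, rfl⟩; simp [hypC_B]

theorem EV.inj_sq (h : EV u E) (h1 : ∀ a ∈ E, a ^ 2 ≠ 1) : Injective (u * u - 1 : End F V) := by
  have := JD.inj h (f := X ^ 2 - C 1) (X_pow_sub_C_ne_zero two_pos 1) (by simpa [sub_eq_zero] using h1)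
  simpa [sq, LinearMap.ker_eq_bot] using this

theorem TG.fsim (h : TG T θ) (hC : C.Nondeg) (hC' : C'.Nondeg) (hu : C.IsIsomTo C u) (hv : C'.IsIsomTo C' v)
    (h1 : EV u E) (h2 : EV v E) (h3 : Rg T E) : FSim C u C' v :=
  fsim_of_sim hC hC' hu hv (h1.sim h2) (h3.imp And.left h1.inj_sq)
    (h3.elim (fun a => .inr (.inl a.2)) fun a => h.uq.imp_right (.imp_right fun b => ⟨b, h1.inj_sq a⟩))

omit [FiniteDimensional F V] [FiniteDimensional F W] [Finite F] [Algebra.IsAlgebraic F K] in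
/-- transport of an invariant subspace -/
theorem emb_inv {f : W →ₗ[F] V} (hf : Injective f) (e : ∀ x, f (v x) = u (f x)) :
    ∃ i : ∀ x ∈ LinearMap.range f, u x ∈ LinearMap.range f, Sim v (u.restrict i : End F _) :=
  ⟨by rintro _ ⟨x, rfl⟩; exact ⟨_, e x⟩, .ofInjective f hf, fun x => Subtype.ext (e x)⟩

omit [FiniteDimensional F V] [FiniteDimensional F W] [Finite F] [Algebra.IsAlgebraic F K] in
theorem ndOn_range {f : W →ₗ[F] V} (hf : C'.IsIsomTo C f) (hC : C'.Nondeg) : C.NondegOn (LinearMap.range f) := by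
  rintro _ ⟨x, rfl⟩ H
  rw [hC x fun y => (hf.1 x y).symm.trans (H _ ⟨y, rfl⟩), map_zero]

theorem TG.nd_split (h : TG T θ) (hC : C.Nondeg) (hu : C.IsIsomTo C u) (h1 : EV u (E₁ + E₂)) (h2 : Rg T (E₁ + E₂))
    (s1 : E₁.map (fr F) = E₁) (s2 : E₁.map (du θ) = E₁) :
    ∃ (A : Submodule F V) (i : ∀ x ∈ A, u x ∈ A), C.NondegOn A ∧ EV (u.restrict i : End F A) E₁ := by
  have h0 := ev_ne hC hu h1
  obtain ⟨m₁, C₁, u₁, a₁, b₁, c₁⟩ := h.rl E₁ s1 s2 (fun a ha => h0 a (by simp [ha])) (h2.mono (Multiset.le_add_right _ _))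
  obtain ⟨m₂, C₂, u₂, a₂, b₂, c₂⟩ := h.rl E₂ (st_right h1.st s1) (st_right (ev_sym h hC hu h1) s2)
    (fun a ha => h0 a (by simp [ha])) (h2.mono (Multiset.le_add_left _ _))
  obtain ⟨e, e1, e2⟩ := h.fsim (osum_nondeg a₁ a₂) hC (osum_isom b₁ b₂) hu (EV.prod c₁ c₂) h1 h2
  have k := isom_comp (f := e.toLinearMap) e1 isom_inl
  obtain ⟨i, s⟩ := emb_inv (u := u) (v := u₁) (a₁.injective_of_isIsomTo k.1) fun x => by simpa using e2 (x, 0)
  exact ⟨_, i, ndOn_range k a₁, EV.of_sim c₁ s⟩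

variable [IsAlgClosed K]

theorem TG.ts_of (h : TG T θ) (hC : C.Nondeg) (hu : C.IsIsomTo C u) (h1 : EV u E) (i : ∀ x ∈ A, u x ∈ A)
    (hA : C.TS A) (h2 : EV (u.restrict i : End F A) E₁) : ∃ E₂, E = E₁ + E₁.map (du θ) + E₂ := by
  have i' := perp_inv hC hu i
  obtain ⟨B, j, c⟩ := h1.compl i'
  obtain ⟨E', h3⟩ := h1.restrict i'
  obtain ⟨E₀, E₂, rfl, h4⟩ := h3.sub (comap_inv i' i)
  obtain rfl : E₀ = E₁ := (EV.of_sim h4 ⟨Submodule.comapSubtypeEquivOfLe hA.le_perp, fun x => rfl⟩).unique h2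
  have := hC.finrank_add_finrank_perp A
  have := Submodule.finrank_add_eq_of_isCompl c
  let e : A ≃ₗ[F] B := .ofFinrankEq _ _ (by omega)
  let S : SQ T.σ A := ⟨(C.B.comp (B.subtype ∘ₗ e.toLinearMap)).compl₂ A.subtype, T.σσ,
    (injective_iff_map_eq_zero _).2 fun x hx => e.injective (Subtype.ext (by
      simpa using c.disjoint.le_bot (⟨C.mem_perp'.2 fun y hy => LinearMap.congr_fun hx ⟨y, hy⟩, (e x).2⟩ :
        (e x : V) ∈ C.perp A ⊓ B)))⟩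
  have h5 := ev_dual h S (a := e.symm.toLinearMap ∘ₗ u.restrict j ∘ₗ e.toLinearMap) (fun x y => by
    simpa [S] using hu.1 _ _) h2 fun a ha => ev_ne hC hu h1 a (by
      obtain ⟨E₃, h6⟩ := h1.restrict j
      simp [h1.of_compl c h3 h6, ha])
  exact ⟨E₂, by rw [h1.of_compl (i' := j) c h3 (EV.of_sim h5 ⟨e, fun x => by simp⟩)]; abel⟩

theorem TG.ts_iff (h : TG T θ) (hC : C.Nondeg) (hu : C.IsIsomTo C u) (h1 : EV u E) (h2 : Rg T E) :
    (∃ A, (C.TS A ∧ finrank F A = m) ∧ ∀ x ∈ A, u x ∈ A) ↔ TSd (fr F) (du θ) E m := by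
  constructor
  · rintro ⟨A, ⟨a, rfl⟩, i⟩
    obtain ⟨E₁, h3⟩ := h1.restrict i
    obtain ⟨E₂, e⟩ := h.ts_of hC hu h1 i a h3
    exact ⟨E₁, E₂, e, h3.st, h3.dim.symm⟩
  · rintro ⟨E₁, E₂, rfl, s, rfl⟩
    have h0 := ev_ne hC hu h1
    obtain ⟨C₁, a, b, a₁, b₁, c₁, d₁, t, -⟩ := exists_hyp h s fun a ha => h0 a (by simp [ha])
    have c := c₁.prod d₁
    rw [add_comm] at c
    obtain ⟨m₂, C₂, u₂, a₂, b₂, c₂⟩ := h.rl E₂ (st_right h1.st c.st) (st_right (ev_sym h hC hu h1) (ev_sym h a₁ b₁ c))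
      (fun a ha => h0 a (by simp [ha])) (h2.mono (Multiset.le_add_left _ _))
    obtain ⟨e, e1, e2⟩ := h.fsim (osum_nondeg a₁ a₂) hC (osum_isom b₁ b₂) hu (EV.prod c c₂) h1 h2
    have k := isom_comp (f := e.toLinearMap) e1 isom_inl
    have hi : Injective ((e.toLinearMap ∘ₗ LinearMap.inl F _ _) ∘ₗ LinearMap.inr F _ _) :=
      (a₁.injective_of_isIsomTo k.1).comp LinearMap.inr_injective
    obtain ⟨i, -⟩ := emb_inv (u := u) (v := b) hi fun x => by simpa using e2 ((0, x), 0)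
    exact ⟨_, ⟨by rw [LinearMap.range_comp]; exact t.map_of k, by
      rw [LinearMap.finrank_range_of_inj hi]; simp⟩, i⟩

theorem ev_V0 : EV (u.restrict (V0_inv u) : End F _) (.replicate (finrank F (V0 u)) (1 : K)) := by
  rw [show u.restrict (V0_inv u) = (1 : End F (V0 u)) from LinearMap.ext fun x => Subtype.ext (mem_V0.1 x.2)]
  exact ev_one

theorem ev_V1 [Fact r.Prime] (hr : (r : F) ≠ 0) (h : u ^ r = 1) : ∃ E : Multiset K, EV (u.restrict (V1_inv u) : End F _) E ∧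
    (∀ a ∈ E, a ^ r = 1 ∧ a ≠ 1) ∧ EV u (.replicate (finrank F (V0 u)) 1 + E) := by
  classical
  obtain ⟨E, h1, h2⟩ := exists_ev_pow (K := K) hr one_ne_zero (restrict_pow (V1_inv u) (h.trans (map_one _).symm))
  have := h1.cnt
  rw [V0_res_eq, (compl01 hr h).disjoint.symm.eq_bot, finrank_bot, Multiset.count_eq_zero] at this
  exact ⟨E, h1, fun a ha => ⟨by simpa using h2 a ha, by rintro rfl; exact this ha⟩,
    EV.of_sim (ev_V0.prod h1) (sim_restrict (compl01 hr h) _ _)⟩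

theorem ev_V1' [Fact r.Prime] (hr : (r : F) ≠ 0) (h : u ^ r = 1) {a : ℕ} (h1 : EV u (.replicate a 1 + E))
    (h2 : ∀ a ∈ E, a ≠ 1) : EV (u.restrict (V1_inv u) : End F _) E := by
  classical
  obtain ⟨E', a1, a2, a3⟩ := ev_V1 (K := K) hr h
  have := congrArg (Multiset.filter (· ≠ 1)) (h1.unique a3)
  rw [Multiset.filter_add, Multiset.filter_add, Multiset.filter_eq_self.2 h2, Multiset.filter_eq_self.2 fun a ha => (a2 a ha).2,
    Multiset.filter_eq_nil.2 fun a ha => by simp [Multiset.eq_of_mem_replicate ha],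
    Multiset.filter_eq_nil.2 fun a ha => by simp [Multiset.eq_of_mem_replicate ha], zero_add, zero_add] at this
  rwa [this]

end H25.El
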