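import Cfsg.Agent.H25.El7

/-! Elusive actions, VIII: block structure of isometries of prime order. -/

set_option autoImplicit false

namespace H25.El

open Module Polynomial Function H22 H27.Sp H12 H12.CForm Pointwise

universe u

section Comb
variable {X : Type*} {φ ι : X → X} {E S S' A A' : Multiset X}

theorem exists_half (E : Multiset X) : ∃ S A : Multiset X, E = S + 2 • A ∧ S.Nodup := by
  classical
  induction E using Multiset.induction_on with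
  | empty => exact ⟨0, 0, rfl, Multiset.nodup_zero⟩
  | cons a E ih =>
    obtain ⟨S, A, rfl, h⟩ := ih
    by_cases ha : a ∈ S
    · obtain ⟨S, rfl⟩ := Multiset.exists_cons_of_mem ha
      exact ⟨S, a ::ₘ A, by simp only [← Multiset.singleton_add, two_nsmul]; abel, h.of_cons⟩
    · exact ⟨a ::ₘ S, A, by simp, Multiset.nodup_cons.2 ⟨ha, h⟩⟩

theorem half_le (h : S.Nodup) (l : 2 • A' ≤ S + 2 • A) : A' ≤ A := by
  classical
  refine Multiset.le_iff_count.2 fun a => ?_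
  have := Multiset.le_iff_count.1 l a
  have := Multiset.nodup_iff_count_le_one.1 h a
  simp only [Multiset.count_add, Multiset.count_nsmul] at *
  omega

theorem exists_half_st (hφ : Injective φ) (h : E.map φ = E) :
    ∃ S A : Multiset X, E = S + 2 • A ∧ S.Nodup ∧ S.map φ = S ∧ A.map φ = A := by
  obtain ⟨S, A, rfl, h1⟩ := exists_half E
  rw [Multiset.map_add, Multiset.map_nsmul] at h
  have e : A.map φ = A := le_antisymm (half_le h1 (h ▸ Multiset.le_add_left _ _))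
    (half_le (h1.map hφ) (h ▸ Multiset.le_add_left _ _))
  exact ⟨S, A, rfl, h1, by rw [e] at h; exact add_right_cancel h, e⟩

theorem exists_dual (hφ : Injective φ) (hc : ∀ a, ι (φ a) = φ (ι a)) (hι : (∀ a, ι (ι a) = a) ∨ ∀ a, ι (ι a) = φ a)
    (n : ℕ) : ∀ E : Multiset X, E.card ≤ n → E.map φ = E → E.map ι = E → (∀ a ∈ E, ∀ j, φ^[j] a ≠ ι a) →
    ∃ A : Multiset X, E = A + A.map ι ∧ A.map φ = A := by
  induction n with
  | zero => intro E h _ _ _; exact ⟨0, by simpa using h, rfl⟩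
  | succ n ih =>
    intro E h h1 h2 h3
    rcases E.empty_or_exists_mem with rfl | ⟨a, ha⟩
    · exact ⟨0, rfl, rfl⟩
    obtain ⟨p0, D, e, hD⟩ := peel hφ h1 ha
    set O := orb φ (minimalPeriod φ a) a with hO
    have hm : ι a ∈ D := (Multiset.mem_add.1 (e ▸ h2 ▸ Multiset.mem_map_of_mem ι ha)).resolve_left fun H =>
      let ⟨j, _, e⟩ := mem_orb.1 H; h3 a ha j e
    obtain ⟨-, D', e', hD'⟩ := peel hφ hD hm
    have ii : O.map (ι ∘ ι) = O := by
      rcases hι with hι | hι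
      · rw [show ι ∘ ι = id from funext hι, Multiset.map_id]
      · rw [show ι ∘ ι = φ from funext hι]; exact st_orb a
    have sc : Semiconj ι φ φ := hc
    have inj : Injective ι := Injective.of_comp (f := ι) (hι.elim (fun h => (show ι ∘ ι = id from funext h) ▸ injective_id)
      fun h => (show ι ∘ ι = φ from funext h) ▸ hφ)
    rw [show minimalPeriod φ (ι a) = minimalPeriod φ a from minimalPeriod_eq_minimalPeriod_iff.2 fun n => by
      rw [IsPeriodicPt, IsPeriodicPt, IsFixedPt, IsFixedPt, ← sc.iterate_right n a, inj.eq_iff],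
      ← orb_map ι hc, ← hO] at e'
    rw [e', ← add_assoc] at e
    have c := congrArg Multiset.card e
    simp only [Multiset.card_add, hO, card_orb] at c
    obtain ⟨A, e3, h4⟩ := ih D' (by omega) hD' (st_right (e ▸ h2) (by
      rw [Multiset.map_add, Multiset.map_map, ii, add_comm])) fun b hb => h3 b (by simp [e, hb])
    exact ⟨O + A, by rw [e, e3, Multiset.map_add]; abel, st_add (st_orb a) h4⟩

end Comb

variable {F : Type u} {K : Type*} [Field F] [Field K] [Algebra F K] {T : FormType F} {θ : K →+* K}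

/-- the block structure -/
structure Blk (κ : Cls T) (θ : K →+* K) (r c : ℕ) (η : ℤˣ) (Q : ℤ) : Prop where
  tg : TG T θ
  hr : (r : F) ≠ 0
  inj : Injective fun a : K => a ^ Q
  ord : c = orderOf (Q : ZMod r)
  pos : 0 < c
  st : ∀ E : Multiset K, (∀ a ∈ E, a ^ r = 1) → (E.map (· ^ Q) = E ↔ E.map (fr F) = E ∧ E.map (du θ) = E)
  rg : ∀ E : Multiset K, (∀ a ∈ E, a ^ r = 1 ∧ a ≠ 1) → Rg T E
  cl : ∀ {W : Type u} [AddCommGroup W] [Module F W] [FiniteDimensional F W] (C : CForm T W) (v : End F W) (N : ℕ),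
    C.Nondeg → C.IsIsomTo C v → v ^ r = 1 → V0 v = ⊥ → finrank F W = c * N → κ.cl C = η ^ N

/-- stable multisets of nontrivial roots of unity -/
structure Rts (r c : ℕ) (Q : ℤ) (E : Multiset K) (N : ℕ) : Prop where
  rt : ∀ a ∈ E, a ^ r = 1 ∧ a ≠ 1
  st : E.map (· ^ Q) = E
  card : E.card = c * N

variable {V W : Type u} [AddCommGroup V] [Module F V] [AddCommGroup W] [Module F W] {C : CForm T V} {C' : CForm T W}
  {A B U : Submodule F V} {m m' n j r c N N₁ : ℕ} {γ γ' δ η : ℤˣ} {u : End F V} {v : End F W} {E E₁ E₂ : Multiset K}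
  {Q : ℤ} {κ : Cls T}

/-- the data of an isometry -/
structure Dat (C : CForm T V) (r c : ℕ) (Q : ℤ) (u : End F V) (E : Multiset K) (N : ℕ) : Prop extends Rts r c Q E N where
  nd : C.Nondeg
  isom : C.IsIsomTo C u
  pow : u ^ r = 1
  ev : EV (u.restrict (V1_inv u) : End F _) E

/-- admissible numbers of blocks -/
def Cls.Adm (κ : Cls T) (c : ℕ) (η : ℤˣ) (n : ℕ) (δ : ℤˣ) (N : ℕ) : Prop := c * N ≤ n ∧ κ.Ex (n - c * N) (η ^ N * δ)

/-- fixed non-degenerate subspaces -/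
def Cls.Sol (κ : Cls T) (c : ℕ) (η : ℤˣ) (n : ℕ) (δ : ℤˣ) (m : ℕ) (γ : ℤˣ) (N N₁ : ℕ) : Prop :=
  c * N₁ ≤ m ∧ m - c * N₁ ≤ n - c * N ∧ κ.Ex (m - c * N₁) (γ * η ^ N₁) ∧
    κ.Ex (n - c * N - (m - c * N₁)) (γ * η ^ N₁ * (η ^ N * δ))

variable [FiniteDimensional F V] [FiniteDimensional F W] [Finite F] [Algebra.IsAlgebraic F K] [IsAlgClosed K] [Fact r.Prime]

namespace Blk
variable (h : Blk κ θ r c η Q)
include h

omit [Finite F] [Algebra.IsAlgebraic F K] [IsAlgClosed K] in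
theorem per {a : K} (h1 : a ^ r = 1 ∧ a ≠ 1) : minimalPeriod (· ^ Q) a = c := h.ord ▸ per_root h1.1 h1.2 Q

omit [IsAlgClosed K] in
theorem reg (hC : C.Nondeg) (hu : C.IsIsomTo C u) (h1 : EV u E) (h2 : ∀ a ∈ E, a ^ r = 1 ∧ a ≠ 1) :
    ∃ N, Rts r c Q E N ∧ κ.cl C = η ^ N := by
  classical
  have s := (h.st E fun a ha => (h2 a ha).1).2 ⟨h1.st, ev_sym h.tg hC hu h1⟩
  obtain ⟨N, hN⟩ := st_dvd h.inj s (i := c) fun a ha => by rw [h.per (h2 a ha)]
  refine ⟨N, ⟨h2, s, hN⟩, h.cl C u N hC hu ((h1.pow_one_iff (Fact.out : r.Prime).ne_zero).2 fun a ha => (h2 a ha).1) ?_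
    (h1.dim.trans hN)⟩
  rw [← Submodule.finrank_eq_zero, ← h1.cnt, Multiset.count_eq_zero]
  exact fun e => (h2 1 e).2 rfl

theorem exists_dat (hC : C.Nondeg) (hu : C.IsIsomTo C u) (h1 : u ^ r = 1) : ∃ (E : Multiset K) (N : ℕ), Dat C r c Q u E N := by
  obtain ⟨E, a, b, -⟩ := ev_V1 (K := K) h.hr h1
  obtain ⟨N, d, -⟩ := h.reg (C.restrict_nondeg_iff.2 (nd_V1 h.hr hC hu h1)) (isom_res hu _) a b
  exact ⟨E, N, d, hC, hu, h1, a⟩

omit [IsAlgClosed K] in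
theorem reg' (hC : C.Nondeg) (hu : C.IsIsomTo C u) (h1 : EV u E) (h2 : Rts r c Q E N) : κ.cl C = η ^ N := by
  obtain ⟨N', a, b⟩ := h.reg hC hu h1 h2.rt
  rw [b, Nat.eq_of_mul_eq_mul_left h.pos (a.card.symm.trans h2.card)]

variable (d : Dat C r c Q u E N)
include d

omit [IsAlgClosed K] in
theorem nd1 : κ.ND C (V1 u) (c * N) (η ^ N) :=
  have := nd_V1 h.hr d.nd d.isom d.pow
  ⟨this, d.ev.dim.trans d.card, h.reg' (C.restrict_nondeg_iff.2 this) (isom_res d.isom _) d.ev d.toRts⟩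

omit [IsAlgClosed K] in
theorem nd0 : κ.ND C (V0 u) (finrank F V - c * N) (η ^ N * κ.cl C) := perp_V1 d.nd d.isom ▸ (h.nd1 d).perp d.nd

omit [IsAlgClosed K] in
theorem adm : κ.Adm c η (finrank F V) (κ.cl C) N := ⟨(h.nd1 d).2.1 ▸ Submodule.finrank_le _, (h.nd0 d).ex⟩

theorem sub_nd : (∃ A ≤ V1 u, κ.ND C A m γ ∧ ∀ x ∈ A, u x ∈ A) ↔ ∃ N₁ ≤ N, m = c * N₁ ∧ γ = η ^ N₁ := by
  rw [inv_res_iff (V1_inv u)]
  simp only [Cls.nd_map (isom_subtype _) (Submodule.injective_subtype _)]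
  have n := (h.nd1 d).nd
  have i := isom_res d.isom (V1_inv u)
  constructor
  · rintro ⟨A, h1, j⟩
    obtain ⟨E₁, E₂, rfl, h2⟩ := d.ev.sub j
    obtain ⟨N₁, a, b⟩ := h.reg h1.nd (isom_res i j) h2 fun a ha => d.rt a (by simp [ha])
    have := d.card
    rw [Multiset.card_add, a.card] at this
    exact ⟨N₁, Nat.le_of_mul_le_mul_left (by omega) h.pos, h1.2.1.symm.trans (h2.dim.trans a.card), h1.2.2.symm.trans b⟩
  · rintro ⟨N₁, l, rfl, rfl⟩
    obtain ⟨E₁, E₂, rfl, h1, h2⟩ := st_sub h.inj N₁ d.st (fun a ha => h.per (d.rt a ha))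
      (d.card ▸ Nat.mul_le_mul_left _ l)
    have h3 : Rts r c Q E₁ N₁ := ⟨fun a ha => d.rt a (by simp [ha]), h1, h2⟩
    have s := (h.st E₁ fun a ha => (h3.rt a ha).1).1 h1
    obtain ⟨A, j, a, b⟩ := h.tg.nd_split n i d.ev (h.rg _ d.rt) s.1 s.2
    exact ⟨A, ⟨a, b.dim.trans h2, h.reg' ((CForm.restrict_nondeg_iff _).2 a) (isom_res i j) b h3⟩, j⟩

theorem nd_iff : (∃ A, κ.ND C A m γ ∧ ∀ x ∈ A, u x ∈ A) ↔ ∃ N₁ ≤ N, κ.Sol c η (finrank F V) (κ.cl C) m γ N N₁ := by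
  simp only [fix_nd κ h.hr d.nd d.isom d.pow, h.sub_nd d, Cls.exists_nd_iff d.nd (h.nd0 d), Cls.Sol]
  constructor
  · rintro ⟨m₀, _, γ₀, _, rfl, rfl, a, N₁, b, rfl, rfl⟩
    exact ⟨N₁, b, Nat.le_add_left _ _, by simpa [mul_assoc, uu] using a⟩
  · rintro ⟨N₁, a, b, e⟩
    exact ⟨_, _, _, _, (Nat.sub_add_cancel b).symm, by rw [mul_assoc, uu, mul_one], e, N₁, a, rfl, rfl⟩

theorem ts_iff : (∃ A, (C.TS A ∧ finrank F A = m) ∧ ∀ x ∈ A, u x ∈ A) ↔
    ∃ k ≤ m, TSd (fr F) (du θ) E k ∧ κ.HT (finrank F V - c * N) (η ^ N * κ.cl C) (m - k) := by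
  simp only [fix_ts h.hr d.nd d.isom d.pow, Cls.exists_ts_iff (h.nd0 d), inv_res_iff (V1_inv u),
    ts_map_iff (isom_subtype _), Submodule.finrank_map_subtype_eq,
    h.tg.ts_iff (h.nd1 d).nd (isom_res d.isom (V1_inv u)) d.ev (h.rg _ d.rt)]
  exact ⟨by rintro ⟨a, b, rfl, e, f⟩; exact ⟨b, Nat.le_add_left _ _, f, by simpa⟩,
    fun ⟨k, a, e, f⟩ => ⟨_, k, (Nat.sub_add_cancel a).symm, f, e⟩⟩

omit [IsAlgClosed K] in
theorem eq_one_iff : u = 1 ↔ N = 0 := by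
  rw [← sub_eq_zero, ← LinearMap.range_eq_bot, ← Submodule.finrank_eq_zero, (h.nd1 d).2.1, mul_eq_zero,
    or_iff_right h.pos.ne']

omit [IsAlgClosed K] in
theorem not_scalar (hc : c ≠ 1) (hN : N ≠ 0) (z : F) : u ≠ algebraMap F _ z := fun e => by
  obtain ⟨a, ha⟩ := Multiset.card_pos_iff_exists_mem.1 (d.card ▸ Nat.mul_pos h.pos (Nat.pos_of_ne_zero hN))
  have := (d.ev.scalar_iff z).1 (by simpa using restrict_pow (r := 1) (V1_inv u) (by simpa))
  refine hc ((h.per (d.rt a ha)).symm.trans (minimalPeriod_eq_one_iff_isFixedPt.2 ?_))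
  exact (this _ (d.st ▸ Multiset.mem_map_of_mem _ ha)).trans (this a ha).symm

theorem small (hM : ∀ N' > N, ¬ κ.Adm c η (finrank F V) (κ.cl C) N') {g : End F V} (hg : C.IsIsomTo C g)
    (h1 : g ^ r = 1) (h2 : V1 g ≤ V0 u) : V1 g = ⊥ := by
  obtain ⟨E', N', d'⟩ := h.exists_dat d.nd hg h1
  obtain ⟨a, -, b⟩ := (Cls.exists_nd_iff d.nd (h.nd0 d)).1 ⟨_, h2, h.nd1 d'⟩
  have := (h.adm d).1
  rw [← Submodule.finrank_eq_zero, (h.nd1 d').2.1, mul_eq_zero]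
  refine .inr (by_contra fun H => hM (N + N') (by omega) ⟨by rw [mul_add]; omega, ?_⟩)
  rwa [mul_add, ← Nat.sub_sub, pow_add, mul_comm (η ^ N), mul_assoc]

omit d

theorem exists_elt (hC : C.Nondeg) (h1 : Rts r c Q E N) (h2 : κ.Adm c η (finrank F V) (κ.cl C) N) :
    ∃ x ∈ C.isom, Dat C r c Q (x : End F V) E N ∧ EV (x : End F V) (.replicate (finrank F V - c * N) 1 + E) := by
  have s := (h.st E fun a ha => (h1.rt a ha).1).1 h1.st
  obtain ⟨m₁, C₁, u₁, a₁, b₁, c₁⟩ := h.tg.rl E s.1 s.2 (fun a ha => ne0 (h1.rt a ha).1 one_ne_zero) (h.rg E h1.rt)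
  obtain ⟨l, C₀, a₀, b₀⟩ := h2
  have := (EV.dim c₁).trans h1.card
  obtain ⟨u, e1, e2⟩ := Cls.transport (κ := κ) hC (osum_nondeg a₀ a₁) (by simp at this; simp [this, l])
    (by rw [κ.mul a₀ a₁, b₀, h.reg' a₁ b₁ c₁ h1, mul_right_comm, uu, one_mul])
    (osum_isom (u := 1) ⟨fun _ _ => rfl, fun _ => rfl⟩ b₁)
  have e3 := EV.of_sim (ev_one.prod c₁) (fsim_sim e2)
  rw [finrank_fin_fun] at e3
  have e4 := (e3.pow_one_iff (Fact.out : r.Prime).ne_zero).2 fun a ha => (Multiset.mem_add.1 ha).elim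
    (fun ha => by rw [Multiset.eq_of_mem_replicate ha, one_pow]) fun ha => (h1.rt a ha).1
  obtain ⟨x, hx, rfl⟩ := exists_isomE hC e1
  exact ⟨x, hx, ⟨h1, hC, e1, e4, ev_V1' h.hr e4 e3 fun a ha => (h1.rt a ha).2⟩, e3⟩

omit [Finite F] [Algebra.IsAlgebraic F K] in
theorem exists_rts (N : ℕ) : ∃ E : Multiset K, Rts r c Q E N := by
  classical
  obtain ⟨ζ, z1, z2⟩ := exists_prim_root (castK K h.hr)
  have := pf_std h.inj h.ord h.pos z1 z2 0 N
  exact ⟨_, fun a ha => ⟨std_pow z1 a ha, by rintro rfl; exact Multiset.count_eq_zero.1 (by convert this.cnt) ha⟩,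
    this.st, by simpa using this.card⟩

theorem nd_deg (hC : C.Nondeg) (hd : r ∣ Nat.card {s // κ.ND C s m γ}) (h1 : κ.Adm c η (finrank F V) (κ.cl C) N)
    (hM : ∀ N' > N, ¬ κ.Adm c η (finrank F V) (κ.cl C) N') (hj : j = 0 ∨ j = N)
    (h2 : ∀ N₁ ≤ N, κ.Sol c η (finrank F V) (κ.cl C) m γ N N₁ → N₁ = j) :
    ¬ ∃ N₁ ≤ N, κ.Sol c η (finrank F V) (κ.cl C) m γ N N₁ := by
  obtain ⟨E, hE⟩ := h.exists_rts N
  obtain ⟨x, hx, d, -⟩ := h.exists_elt hC hE h1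
  rw [← h.nd_iff d]
  rintro ⟨s, h3, h4⟩
  have key : ∀ s, κ.ND C s m γ → (∀ v ∈ s, x v ∈ s) → finrank F ↥(s ⊓ V1 (x : End F V)) = c * j ∧
      κ.ND C (s ⊓ V0 (x : End F V)) (m - c * j) (γ * η ^ j) := fun s a i => by
    obtain ⟨m₀, m₁, γ₀, γ₁, a1, a2, rfl, rfl⟩ := (inv_decomp h.hr d.pow i ▸ a).split
      (inf_le_right.trans (perp_V0 hC d.isom ▸ C.perp_anti inf_le_right))
    obtain ⟨N₁, b, rfl, rfl⟩ := (h.sub_nd d).1 ⟨_, inf_le_right, a2, inf_inv i (V1_inv _)⟩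
    obtain rfl := h2 N₁ b ⟨Nat.le_add_left _ _, by
      simpa [mul_assoc, uu] using (Cls.exists_nd_iff hC (h.nd0 d)).1 ⟨_, inf_le_right, a1⟩⟩
    exact ⟨a2.2.1, by simpa [mul_assoc, uu] using a1⟩
  refine form_deg _ h.hr hC hx d.pow (fun g a s b => b.sm a) (fun g a => h.small d hM a) (fun s s' a a' b b' => ?_) hd s h3 h4
  refine ⟨?_, (key s a b).2.iso (key s' a' b').2⟩
  rcases hj with rfl | rfl
  · rw [Submodule.finrank_eq_zero.1 (key s a b).1, Submodule.finrank_eq_zero.1 (key s' a' b').1]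
  · rw [Submodule.eq_of_le_of_finrank_eq inf_le_right ((key s a b).1.trans (h.nd1 d).2.1.symm),
      Submodule.eq_of_le_of_finrank_eq inf_le_right ((key s' a' b').1.trans (h.nd1 d).2.1.symm)]

theorem ts_deg (hC : C.Nondeg) (hd : r ∣ Nat.card {s // C.TS s ∧ finrank F s = m})
    (h1 : κ.Adm c η (finrank F V) (κ.cl C) N) (hM : ∀ N' > N, ¬ κ.Adm c η (finrank F V) (κ.cl C) N')
    (hm : m < orderOf (Nat.card F : ZMod r)) {x : V ≃ₗ[F] V} (d : Dat C r c Q (x : End F V) E N) :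
    ¬ ∃ A, (C.TS A ∧ finrank F A = m) ∧ ∀ v ∈ A, x v ∈ A := by
  rintro ⟨s, h3, h4⟩
  refine form_deg _ h.hr hC d.isom d.pow (fun g a s b => ⟨b.1.map a, (finrank_sm g s).trans b.2⟩)
    (fun g a => h.small d hM a) (fun s s' a a' b b' => ?_) hd s h3 h4
  rw [small_inv h.hr d.pow b (a.2 ▸ hm), small_inv h.hr d.pow b' (a'.2 ▸ hm),
    inf_eq_left.2 (small_le h.hr d.pow b (a.2 ▸ hm)), inf_eq_left.2 (small_le h.hr d.pow b' (a'.2 ▸ hm))]
  exact ⟨rfl, ts_iso a.1 a'.1 (a.2.trans a'.2.symm)⟩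

end Blk

end H25.El
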