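import Cfsg.Agent.H25.El8
import Cfsg.Agent.H22.SS2
import Cfsg.Agent.H12.StabBridge

/-! Elusive actions, IX: the three classical types. -/

set_option autoImplicit false

namespace H25.El

open Module Polynomial Function H22 H27.Sp H12 H12.CForm Pointwise

universe u

open Classical in
/-- the sign of a proposition -/
noncomputable def sg (P : Prop) : ℤˣ := if P then 1 else -1

theorem sg_pos {P : Prop} (h : P) : sg P = 1 := if_pos h
theorem sg_neg {P : Prop} (h : ¬ P) : sg P = -1 := if_neg h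
theorem sg_eq_one {P : Prop} : sg P = 1 ↔ P := by by_cases h : P <;> simp [sg, h]
theorem sg_mul (P Q : Prop) : sg P * sg Q = sg (P ↔ Q) := by
  by_cases h : P <;> by_cases h' : Q <;> simp [sg, h, h']
theorem sg_inj {P Q : Prop} : sg P = sg Q ↔ (P ↔ Q) := by
  by_cases h : P <;> by_cases h' : Q <;> simp [sg, h, h']
theorem sg_pow (P : Prop) (n : ℕ) : sg P ^ n = sg (P ∨ Even n) := by
  by_cases h : P
  · simp [sg, h]
  · rcases n.even_or_odd with h' | h'
    · simp [sg, h, h', h'.neg_one_pow]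
    · simp [sg, h, Nat.not_even_iff_odd.2 h', h'.neg_one_pow]
theorem sg_self (γ : ℤˣ) : sg (γ = 1) = γ := by rcases Int.units_eq_one_or γ with rfl | rfl <;> simp [sg]

variable {F : Type u} {K : Type*} [Field F] [Field K] [Algebra F K] {V W : Type u} [AddCommGroup V] [Module F V]
  [AddCommGroup W] [Module F W] [FiniteDimensional F V] [FiniteDimensional F W] {n j k l r : ℕ} {δ : ℤˣ}

/-- alternating forms -/
def altCls (F : Type u) [Field F] : Cls (altType F) :=
  ⟨fun _ => 1, fun h h' e => iff_of_true (alt_iso h h' e) rfl, fun _ _ => rfl⟩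

theorem alt_ht : (altCls F).HT n δ j ↔ Even n ∧ δ = 1 ∧ 2 * j ≤ n := by
  refine ⟨fun ⟨C, a, b, c⟩ => ⟨let ⟨m, h⟩ := alt_even a; ⟨m, by simp at h; omega⟩, b.symm, by simpa using c.two_mul_le a⟩, ?_⟩
  rintro ⟨⟨m, rfl⟩, rfl, h⟩
  have := (Cls.ht_iff (κ := altCls F) (H11.spForm_nondeg (ι := Fin m) (F := F))).2
    ((alt_hasTS' H11.spForm_nondeg (m := m) (by simp [two_mul])).mono (l := j) (by omega))
  rwa [finrank_fintype_fun_eq_card, Fintype.card_sum, Fintype.card_fin] at this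

theorem ex_iff_ht {T : FormType F} {κ : Cls T} : κ.Ex n δ ↔ κ.HT n δ 0 :=
  ⟨fun ⟨C, a, b⟩ => ⟨C, a, b, hasTS_zero⟩, fun ⟨C, a, b, _⟩ => ⟨C, a, b⟩⟩

theorem alt_ex : (altCls F).Ex n δ ↔ Even n ∧ δ = 1 := by simp [ex_iff_ht, alt_ht]

/-- hermitian forms -/
def hermCls [Fintype F] {q : ℕ} (hF : Fintype.card F = q ^ 2) : Cls (H11.hermT hF) :=
  ⟨fun _ => 1, fun h h' e => iff_of_true (hermT_iso hF h h' e) rfl, fun _ _ => rfl⟩

theorem herm_ht [Fintype F] {q : ℕ} (hF : Fintype.card F = q ^ 2) : (hermCls hF).HT n δ j ↔ δ = 1 ∧ 2 * j ≤ n :=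
  ⟨fun ⟨C, a, b, c⟩ => ⟨b.symm, by simpa using c.two_mul_le a⟩, fun ⟨a, b⟩ =>
    ⟨_, H11.hermC_nondeg hF, a.symm, hermT_hasTS hF j (H11.hermC_nondeg hF) (by simpa)⟩⟩

theorem herm_ex [Fintype F] {q : ℕ} (hF : Fintype.card F = q ^ 2) : (hermCls hF).Ex n δ ↔ δ = 1 := by
  simp [ex_iff_ht, herm_ht]

section Quad
variable {C : CForm (quadType F) V} {C' : CForm (quadType F) W}

theorem quad_even (h2 : (2 : F) = 0) (hC : C.Nondeg) : ∃ m, finrank F V = 2 * m :=
  alt_even (C := ofAlt C.B fun x => (quad_B_self C x).trans (by rw [h2, zero_mul])) hC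

omit [FiniteDimensional F V] [FiniteDimensional F W] in
theorem osum_comm : (osum C C').Iso (osum C' C) := quad_iso_iff.2 ⟨.prodComm F V W, fun _ => add_comm _ _⟩

theorem neg_nd (hC : C.Nondeg) : (ofQuad ((-1 : F) • C.toQuad)).Nondeg :=
  qNondeg_smul (C.ofQuad_toQuad.symm ▸ hC) (by simp)

variable [Finite F]

theorem ts_mm (hC : C.Nondeg) (hC' : C'.Nondeg) (hk : finrank F V = 2 * k) (hl : finrank F W = 2 * (l + k))
    (h : ¬ C.HasTS k) (h' : ¬ C'.HasTS (l + k)) : (osum C C').HasTS (k + (l + k)) := by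
  have p := H11.qPlus_nondeg (F := F) l
  have d : finrank F (Fin l ⊕ Fin l → F) = 2 * l := by simp [two_mul]
  obtain ⟨e, he⟩ := quad_iso_iff.1 (quad_even_iso (osum_nondeg p (neg_nd hC)) hC' (by simp [hk]; ring) hl (by
    rw [osum_ts p (neg_nd hC) d (qPlus_hasTS l), hasTS_smul_iff (by simp), ofQuad_toQuad]; exact iff_of_false h h'))
  have t : (osum C (ofQuad ((-1 : F) • C.toQuad))).HasTS (k + k) :=
    ⟨LinearMap.range (LinearMap.prod .id .id), quad_ts_iff.2 (by rintro _ ⟨x, rfl⟩; simp [osum, ofQuad_N]), by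
      rw [LinearMap.finrank_range_of_inj fun x y h => (Prod.ext_iff.1 h).1, hk, two_mul]⟩
  rw [← osum_ts p (osum_nondeg hC (neg_nd hC)) d (qPlus_hasTS l), add_left_comm] at t
  refine Iso.hasTS (quad_iso_iff.2 ⟨(LinearEquiv.prodAssoc F _ _ _).symm ≪≫ₗ (LinearEquiv.prodComm F _ _).prodCongr (.refl F _)
    ≪≫ₗ .prodAssoc F _ _ _ ≪≫ₗ (LinearEquiv.refl F _).prodCongr e, fun x => ?_⟩) t
  exact (congrArg _ (he (x.1, x.2.2))).trans (add_left_comm _ _ _)

theorem osum_ts' (hC : C.Nondeg) (hC' : C'.Nondeg) (hk : finrank F V = 2 * k) (hl : finrank F W = 2 * l) :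
    (osum C C').HasTS (k + l) ↔ (C.HasTS k ↔ C'.HasTS l) := by
  by_cases h : C.HasTS k
  · rw [osum_ts hC hC' hk h, iff_true_intro h, true_iff]
  by_cases h' : C'.HasTS l
  · rw [osum_comm.hasTS_iff, add_comm, osum_ts hC' hC hl h', iff_true_intro h', iff_true]
  refine iff_of_true ?_ (iff_of_false h h')
  rcases le_total k l with e | e <;> obtain ⟨m, rfl⟩ := Nat.exists_eq_add_of_le' e
  · exact ts_mm hC hC' hk hl h h'
  · rw [osum_comm.hasTS_iff, add_comm]; exact ts_mm hC' hC hl hk h' h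

open Classical in
/-- quadratic forms -/
noncomputable def quadCls (F : Type u) [Field F] [Finite F] : Cls (quadType F) where
  cl {V} _ _ _ C := if (2 : F) = 0 then sg (C.HasTS (finrank F V / 2)) else dq C.toQuad
  iso_iff {V W} _ _ _ _ _ _ C C' h h' e := by
    split_ifs with h2
    · obtain ⟨m, hm⟩ := quad_even h2 h
      rw [sg_inj, ← e, hm, Nat.mul_div_cancel_left _ two_pos]
      exact ⟨fun i => i.hasTS_iff, quad_even_iso h h' hm (e ▸ hm)⟩
    · rw [dq, dq, ofQuad_toQuad, ofQuad_toQuad]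
      exact ⟨fun i => i.qsign_det_gram h _ _, quad_iso_of_disc h2 h h' e _ _⟩
  mul {V W} _ _ _ _ _ _ C C' h h' := by
    split_ifs with h2
    · obtain ⟨k, hk⟩ := quad_even h2 h
      obtain ⟨l, hl⟩ := quad_even h2 h'
      rw [sg_mul, finrank_prod, hk, hl, ← mul_add, sg_inj]
      simpa using osum_ts' h h' hk hl
    · exact (sum_inv h2 (Q := C.toQuad) (Q' := C'.toQuad) (C.ofQuad_toQuad.symm ▸ h) (C'.ofQuad_toQuad.symm ▸ h') 1 1).1

theorem cl_odd (h2 : (2 : F) ≠ 0) (Q : QuadraticForm F V) : (quadCls F).cl (ofQuad Q) = dq Q := if_neg h2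

theorem cl_even (hC : C.Nondeg) (hk : finrank F V = 2 * k) :
    (quadCls F).cl C = sg (C.HasTS k) * qsign (-1 : F) ^ k := by
  by_cases h2 : (2 : F) = 0
  · rw [qsign_eq_one_of_two h2, one_pow, mul_one, ← Nat.mul_div_cancel_left k two_pos, ← hk]; exact if_pos h2
  · rw [quad_hasTS_iff_disc h2 hC hk (finBasis F V), ← qsign_eq_one, sg_self,
      qsign_mul (by simp) ((nondeg_iff_det_gram _).1 hC), qsign_pow (by simp), mul_right_comm, uu, one_mul]
    exact (if_neg h2).trans (by rw [dq, ofQuad_toQuad])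

theorem quad_ex : (quadCls F).Ex n δ ↔ ((2 : F) = 0 → Even n) ∧ (n = 0 → δ = 1) := by
  refine ⟨fun h => ⟨fun h2 => let ⟨C, a, _⟩ := h; let ⟨m, h⟩ := quad_even h2 a; ⟨m, by simp at h; omega⟩,
    by rintro rfl; exact Cls.ex_zero.1 h⟩, fun ⟨h1, h0⟩ => ?_⟩
  obtain ⟨k, rfl | rfl⟩ := n.even_or_odd'
  · rcases k with _ | k
    · exact Cls.ex_zero.2 (h0 rfl)
    obtain ⟨Q, a, b⟩ := plane F (δ * qsign (-1 : F) ^ (k + 1) = 1)
    have p := H11.qPlus_nondeg (F := F) k
    have := Cls.ex_of (κ := quadCls F) (osum_nondeg p a)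
    have d : finrank F ((Fin k ⊕ Fin k → F) × (Fin 2 → F)) = 2 * (k + 1) := by simp; ring
    rwa [cl_even (osum_nondeg p a) d, osum_ts p a (by simp [two_mul]) (qPlus_hasTS k), b, sg_self, mul_assoc, uu,
      mul_one, d] at this
  · have h2 : (2 : F) ≠ 0 := fun h => by simpa using h1 h
    obtain ⟨p, hp⟩ := CharP.exists F
    haveI : Fact p.Prime := ⟨(CharP.char_is_prime F p)⟩
    obtain ⟨m, Q, g, a, b, c, -⟩ := rq_reg (K := AlgebraicClosure F) h2 (p := p)
      (by rintro rfl; exact h2 (CharP.cast_eq_zero F 2)) k δ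
    obtain rfl : m = 2 * k + 1 := by simpa using b.dim
    exact ⟨_, a, (cl_odd h2 Q).trans c⟩

theorem quad_ht : (quadCls F).HT n δ j ↔ (quadCls F).Ex n δ ∧ (2 * j < n ∨ 2 * j = n ∧ δ = qsign (-1 : F) ^ j) := by
  refine ⟨fun ⟨C, a, b, c⟩ => ⟨⟨C, a, b⟩, (lt_or_eq_of_le (by simpa using c.two_mul_le a)).imp_right fun h =>
    ⟨h, by rw [← b, cl_even a (k := j) (by simp [h]), sg_pos c, one_mul]⟩⟩, ?_⟩
  rintro ⟨⟨C, a, b⟩, h | ⟨rfl, h⟩⟩
  · exact ⟨C, a, b, quad_hasTS j a (by simpa)⟩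
  · exact ⟨C, a, b, by rwa [cl_even a (k := j) (by simp), h, mul_eq_right, sg_eq_one] at b⟩

end Quad

section Types
variable [Finite F] [Algebra.IsAlgebraic F K]

theorem pre_ss {E : Multiset K} (h : E.map (fr F) = E) (h0 : ∀ a ∈ E, a ≠ 0) : Pre (Nat.card F : ℕ) (E.map (·, 1)) :=
  ⟨ss_st.2 (fr_eq_zpow (F := F) (K := K) ▸ h), by simpa, by simp⟩

theorem tg_alt : TG (altType F) (RingHom.id K) :=
  ⟨fun _ => rfl, by simp [altType], fun _ => rfl, by simp [altType], by simp [altType], .inl rfl,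
    fun E a b c d => rl_alt (pre_ss a c) (ss_st.2 b) (by simpa using d.resolve_left fun h => h.1 rfl)⟩

theorem tg_quad : TG (quadType F) (RingHom.id K) :=
  ⟨fun _ => rfl, by simp [quadType], by simp [quadType], by simp [quadType, mul_assoc], by simp [quadType, two_mul],
    .inr (.inr rfl),
    fun E a b c d => rl_quad (pre_ss a c) (ss_st.2 b) (by simpa using d.resolve_left fun h => h.1 rfl)⟩

omit [Finite F] [Algebra.IsAlgebraic F K] in
theorem du_eq {θ : K →+* K} {q : ℕ} (h : ∀ a, θ a = a ^ q) : du θ = (· ^ (-q : ℤ)) := funext fun a => by simp [du, h]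

end Types

theorem tg_herm [Fintype F] [Algebra.IsAlgebraic F K] [IsAlgClosed K] {q : ℕ} (hF : Fintype.card F = q ^ 2) {θ : K →+* K}
    (h : ∀ a, θ a = a ^ q) : TG (H11.hermT hF) θ := by
  refine ⟨fun c => by rw [h]; exact (map_pow _ _ _).symm, by simp [hermType], fun a => ?_, fun c a => ?_,
    by simp [hermType], .inr (.inl rfl), fun E a b c _ => ?_⟩
  · simp [hermType, H11.frob_frob, add_comm, -H11.frob_apply]
  · simp [hermType, H11.frob_frob, -H11.frob_apply]; ring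
  · obtain ⟨g, hg⟩ := exists_gu_jd hF (D := E.map (·, 1)) (ss_st.2 (du_eq h ▸ b)) (by simpa) (by simp) rfl
    exact .of (H11.hermC_nondeg hF) ((guRep hF _).isom g) hg

section Blocks
variable [Fact r.Prime] {E : Multiset K}

theorem zpow_congr {a : K} (h : a ^ r = 1) {m m' : ℤ} (e : (m : ZMod r) = m') : a ^ m = a ^ m' := by
  obtain ⟨c, hc⟩ := (ZMod.intCast_eq_intCast_iff_dvd_sub _ _ _).1 e
  rw [eq_add_of_sub_eq' hc, zpow_add₀ (ne0 h one_ne_zero), zpow_mul, zpow_natCast, h, one_zpow, mul_one]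

theorem zpow_inj' {a : K} (h : a ^ r = 1) (h1 : a ≠ 1) {m m' : ℤ} (e : a ^ m = a ^ m') : (m : ZMod r) = m' := by
  rw [ZMod.intCast_eq_intCast_iff_dvd_sub, ← zpow_one_iff h h1, zpow_sub₀ (ne0 h one_ne_zero), e,
    div_self (zpow_ne_zero _ (ne0 h one_ne_zero))]

theorem st_pow {Q Q' : ℤ} (h : ∀ a ∈ E, a ^ r = 1) (s : E.map (· ^ Q) = E) (j : ℕ) (e : (Q : ZMod r) ^ j = Q') :
    E.map (· ^ Q') = E :=
  (Multiset.map_congr rfl fun a ha => by rw [zp_iter]; exact zpow_congr (h a ha) (by simp [e])).trans (map_iter s j)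

theorem ord_neg (h2 : r ≠ 2) {x : ZMod r} (h : Odd (orderOf x)) : orderOf (-x) = 2 * orderOf x := by
  haveI := Fact.mk (lt_of_le_of_ne (Fact.out : r.Prime).two_le h2.symm)
  have : orderOf (-1 : ZMod r) = 2 := orderOf_eq_prime (by simp) ZMod.neg_one_ne_one
  rw [neg_eq_neg_one_mul, (Commute.all _ _).orderOf_mul_eq_mul_orderOf_of_coprime (by rw [this]; simpa), this]

omit [Fact r.Prime] in
theorem du_id : du (RingHom.id K) = (· ^ (-1 : ℤ)) := funext fun a => by simp [du]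

variable [Finite F] [Algebra.IsAlgebraic F K]

theorem blk_id {T : FormType F} {κ : Cls T} (tg : TG T (RingHom.id K)) (hr : (r : F) ≠ 0) (h2 : r ≠ 2) {i c : ℕ}
    (hi : i = orderOf (Nat.card F : ZMod r)) (hc : c = if Even i then i else 2 * i) {η : ℤˣ}
    (cl : ∀ {W : Type u} [AddCommGroup W] [Module F W] [FiniteDimensional F W] (C : CForm T W) (v : End F W) (N : ℕ),
      C.Nondeg → C.IsIsomTo C v → v ^ r = 1 → V0 v = ⊥ → finrank F W = c * N → κ.cl C = η ^ N) :
    Blk κ (RingHom.id K) r c η (if Even i then Nat.card F else -Nat.card F) := by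
  have i0 : 0 < i := hi ▸ ord_pos hr
  have inj : Injective fun a : K => a ^ ((Nat.card F : ℕ) : ℤ) := fr_eq_zpow (F := F) (K := K) ▸ fr_inj
  refine ⟨tg, hr, ?_, ?_, by rw [hc]; split_ifs <;> omega, fun E h => ?_, fun E h => .inr fun a ha e => ?_, cl⟩
  · split_ifs
    exacts [inj, fun a b h => inj (by simpa using h)]
  · split_ifs with h
    · rw [hc, if_pos h, hi, ord_cast]
    · rw [hc, if_neg h, Int.cast_neg, Int.cast_natCast, ord_neg h2 (hi ▸ Nat.not_even_iff_odd.1 h), hi]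
  · rw [fr_eq_zpow, du_id]
    split_ifs with e
    · obtain ⟨j, hj⟩ := (exists_pow_neg_one Fact.out h2 (hi ▸ i0)).2 (hi ▸ e)
      exact ⟨fun s => ⟨s, st_pow h s j (by simpa)⟩, And.left⟩
    · have o := Nat.not_even_iff_odd.1 e
      have := pow_orderOf_eq_one (Nat.card F : ZMod r)
      rw [← hi] at this
      refine ⟨fun s => ⟨st_pow h s (i + 1) (by simp [o.add_one.neg_pow, pow_succ _ i, this]),
        st_pow h s i (by simp [o.neg_pow, this])⟩, fun s => ?_⟩
      conv_rhs => rw [← s.2, ← s.1, Multiset.map_map]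
      simp [Function.comp_def]
  · exact not_dvd_two Fact.out h2 ((zpow_one_iff (h a ha).1 (h a ha).2 2).1 (by exact_mod_cast e))

theorem blk_alt (hr : (r : F) ≠ 0) (h2 : r ≠ 2) {i c : ℕ} (hi : i = orderOf (Nat.card F : ZMod r))
    (hc : c = if Even i then i else 2 * i) :
    Blk (altCls F) (RingHom.id K) r c 1 (if Even i then Nat.card F else -Nat.card F) :=
  blk_id tg_alt hr h2 hi hc fun _ _ _ _ _ _ _ _ => (one_pow _).symm

theorem blk_quad (hr : (r : F) ≠ 0) (h2 : r ≠ 2) {i c : ℕ} (hi : i = orderOf (Nat.card F : ZMod r))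
    (hc : c = if Even i then i else 2 * i) :
    Blk (quadCls F) (RingHom.id K) r c (sg (Odd i) * qsign (-1 : F) ^ (c / 2)) (if Even i then Nat.card F else -Nat.card F) := by
  refine blk_id tg_quad hr h2 hi hc fun C v N a b d e f => ?_
  have i0 : 0 < i := hi ▸ ord_pos hr
  obtain ⟨k, hk, hk'⟩ : ∃ k, c = 2 * k ∧ ∀ N, i ∣ k * N ↔ Odd i ∨ Even N := by
    rcases i.even_or_odd' with ⟨k, rfl | rfl⟩
    · exact ⟨k, by simp [hc], fun N => by
        rw [mul_comm 2, Nat.mul_dvd_mul_iff_left (by omega), even_iff_two_dvd]; simp⟩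
    · exact ⟨2 * k + 1, by simp [hc], by simp⟩
  rw [hk, mul_assoc] at f
  rw [hk, cl_even a f, mul_pow, Nat.mul_div_cancel_left _ two_pos, ← pow_mul, sg_pow, ← hk', mul_left_inj, sg_inj]
  rcases h : k * N with _ | m
  · exact iff_of_true hasTS_zero (dvd_zero _)
  have := Fintype.ofFinite F
  obtain ⟨a₀, c₀, h0⟩ := exists_sType Fact.out hr d
  have := h0.kd_X1 Fact.out hr
  rw [kd, show aeval v (X - 1 : F[X]) = v - 1 by simp, show LinearMap.ker (v - 1) = ⊥ from e, finrank_bot] at this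
  subst this
  exact h0.hasTS_iff Fact.out hr (by rwa [← Nat.card_eq_fintype_card]) h2 a (h ▸ f) b

end Blocks

theorem blk_herm [Fact r.Prime] [Fintype F] [Algebra.IsAlgebraic F K] [IsAlgClosed K] {q : ℕ} (hF : Fintype.card F = q ^ 2)
    {θ : K →+* K} (h : ∀ a, θ a = a ^ q) (hr : (r : F) ≠ 0) :
    Blk (hermCls hF) θ r (orderOf (-q : ZMod r)) 1 (-q) := by
  refine ⟨tg_herm hF h, hr, du_eq h ▸ du_inj, by simp, ?_, fun E _ => ?_, fun _ _ => .inl ⟨H11.frob_ne_id hF, rfl⟩,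
    fun _ _ _ _ _ _ _ _ => (one_pow _).symm⟩
  · have := ord_pos hr
    rw [Nat.card_eq_fintype_card, hF, Nat.cast_pow, ← neg_sq, orderOf_pos_iff, isOfFinOrder_pow] at this
    exact orderOf_pos_iff.2 (this.resolve_right two_ne_zero)
  · rw [du_eq h]
    exact ⟨fun s => ⟨ss_st.1 (inv_fr_of_herm hF (ss_st.2 s)), s⟩, And.right⟩

end H25.El
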