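import Cfsg.Agent.H25.MX1

/-! Maximal 2-locals of a group of Monster type: the pieces L3, A3, A3'. -/

set_option autoImplicit false
set_option linter.unusedSectionVars false

namespace H25.MX
open Cfsg H15 H19 H0 H0.Mo H0.Y H15.ML H15.MX Subgroup
open scoped commutatorElement

section
universe u
variable {G : Type u} [Group G] [Finite G] {c p q : G} {L M : Subgroup G}

theorem four (h : ∀ x ∈ M, x * x = 1) (c4 : #M = 4) (a : p ∈ M) (b : q ∈ M) (p1 : p ≠ 1) (q1 : q ≠ 1)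
    (n : q ≠ p) : M = zpowers p ⊔ zpowers q :=
  (eq_of_le_of_card_eq (sup_le (zpowers_le.2 a) (zpowers_le.2 b)) (by
    rw [card_adj (norm_of h b (zpowers_le.2 a)) (h q b) fun k => ((mem_zpowers_inv (h p a)).1 k).elim q1 n,
      Nat.card_zpowers, orderOf_inv2 p1 (h p a), c4])).symm

theorem pig (h : ∀ x ∈ L, x * x = 1) (c4 : #L = 4) (a : c ∈ L) (c1 : c ≠ 1) {q₁ q₂ q₃ : G}
    (a₁ : q₁ ∈ L ∧ q₁ ≠ 1 ∧ q₁ ≠ c) (a₂ : q₂ ∈ L ∧ q₂ ≠ 1 ∧ q₂ ≠ c) (a₃ : q₃ ∈ L ∧ q₃ ≠ 1 ∧ q₃ ≠ c) :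
    q₁ = q₂ ∨ q₁ = q₃ ∨ q₂ = q₃ := by
  have e := four h c4 a a₁.1 c1 a₁.2.1 a₁.2.2
  have k : ∀ q, q ∈ L ∧ q ≠ 1 ∧ q ≠ c → q₁ = q ∨ q * q₁ = c := fun q b => by
    rcases (mem_adj (norm_of h a₁.1 (zpowers_le.2 a)) (h _ a₁.1)).1 (e ▸ b.1) with t | t <;>
      rcases (mem_zpowers_inv (h c a)).1 t with t | t
    exacts [absurd t b.2.1, absurd t b.2.2, .inl (mul_left_cancel (t.trans (h q b.1).symm)), .inr t]
  rcases k q₂ a₂ with t | t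
  · exact .inl t
  rcases k q₃ a₃ with r | r
  exacts [.inr (.inl r), .inr (.inr (mul_right_cancel (t.trans r.symm)))]

end

section
variable {G : Type} [Group G] [Finite G] {z s s' u x y : G} {𝒜 : Subgroup G → Prop} {A V E E' U : Subgroup G}

theorem Pr.cent (cx : Cx z 𝒜) (p : Pr z 𝒜 E s s') (p' : Pr z 𝒜 E' s' s) : s' ∈ C(E) :=
  (cx.ark p.a).e3 s p.sE p.b s' p.mem p.nQ (sq cx.mg p'.b)

theorem Yy.nE' (g : Geo z E E' s s' U) (a : Yy E E' s s' y) : y ∉ E := fun k => a.nE (cents_symm g.cE k)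

theorem Yy.norm (cx : Cx z 𝒜) (p : Pr z 𝒜 E s s') (p' : Pr z 𝒜 E' s' s) (a : Yy E E' s s' y) : y ∈ N(E') :=
  (cx.ark p'.a).e2 s' p'.sE p'.b s p'.mem p'.nQ ⟨a.cs, cent_le_cent1 p.sE a.cE⟩

theorem Yy.cm (cx : Cx z 𝒜) (p : Pr z 𝒜 E s s') (g : Geo z E E' s s' U) (a : Yy E E' s s' y) :
    ∀ c ∈ E', ⁅c, y⁆ ∈ Ux z E y ⊓ U := fun c b =>
  ⟨(cx.kf p.a).kc y a.cE (Yy.nE' g a) a.sq c (g.cE b), g.cm y ⟨a.cE, a.cs⟩ c b⟩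

end

theorem l3 : L3 := fun G _ _ z 𝒜 cx E E' s s' U p p' g g' => by
  have h := cx.mg
  have L := cx.la p.a
  have c4 : ∀ y, Yy E E' s s' y → #(Ux z E y ⊓ U) = 4 := fun y a => by
    have n := Yy.nE' g a
    have k := ((cx.kf p.a).k8 y a.cE n a.sq s' (Pr.cent cx p p') p.nE (sq h p'.b) (mem_cent1.1 a.cs)).2 fun k =>
      a.nE ((mul_mem_cancel_right ((cx.la p'.a).EC p'.sE)).1 (cents_symm g.cE k))
    have sy : s ∈ Ux z E y := ((cx.lc p.a).mUx y a.cE n s).2 (.inr ⟨p.sE, p.b, a.mem⟩)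
    rw [g.ux, inf_comm, sup_inf_modr (zpowers_le.2 (norm_of L.ab p.sE g.le)) (zpowers_le.2 sy),
      card_adj (norm_of L.ab p.sE (inf_le_left.trans g.le)) (sq h p.b) fun k => g.sU k.1, inf_comm] at k
    omega
  refine ⟨c4, fun y₁ y₂ a₁ a₂ a₃ => (cx.lb p'.a).alt U g'.le g.sing _ inf_le_right _ inf_le_right _ inf_le_right
    (c4 _ a₁) (c4 _ a₂) (c4 _ a₃) y₁ (Yy.norm cx p p' a₁) y₂ (Yy.norm cx p p' a₂) a₁.nE a₂.nE a₃.nE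
    (Yy.cm cx p g a₁) (Yy.cm cx p g a₂) (Yy.cm cx p g a₃), fun y y' a a' c k => a'.nE ?_⟩
  have n := Yy.nE' g a
  have nE := Yy.norm cx p' p a'
  have key : ∀ c ∈ E, ⁅c, y'⁆ ∈ Ux z E y → c * y' = y' * c := fun c b d =>
    have e := Yy.cm cx p' g' a' c b
    commutatorElement_eq_one_iff_mul_comm.1 (mem_bot.1 (k ▸ ⟨⟨d, e.2⟩, e⟩))
  have nU : y' ∈ N(Ux z E y) := norm_Ux ⟨nE, mem_cent1.2 c.symm⟩
  have S := (cx.lc p.a).sUx y a.cE n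
  have e : Ux z E y = E ⊓ QU (Ux z E y) := by
    have := L.perp _ Ux_le S
    rw [(cx.kf p.a).k32 y a.cE n a.sq] at this
    exact eq_of_le_of_card_eq (le_inf Ux_le S.le_QU) (by rw [(cx.kf p.a).k32 y a.cE n a.sq]; omega)
  refine mem_cent.2 fun c b => key c b (e ▸ ⟨comm_mem_left nE b, mem_QU.2 fun u uU u1 => ?_⟩)
  have bu := (S u uU u1).1
  have nu : y' ∈ N(Qo u) := nQ h bu (mem_cent1.2 (key u (Ux_le uU) (comm_mem_left nU uU)).symm)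
  by_cases cu : c ∈ Qo u
  · exact comm_mem_left nu cu
  have := L.idx u (Ux_le uU) bu c (mem_sup_right b) _ (mem_sup_right (conj_mem_of_norm nE (inv_mem b))) cu
    fun k => cu (inv_mem_iff.1 (by simpa [mul_assoc] using conj_mem_of_norm' nu k))
  simpa only [commutatorElement_def, mul_assoc] using this

section
variable {G : Type} [Group G] [Finite G] {z s s' u x y : G} {𝒜 : Subgroup G → Prop} {A V E E' U : Subgroup G}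

theorem Pa.symm (P : Pa z 𝒜 V E E' s s' U) : Pa z 𝒜 V E' E s' s U :=
  ⟨P.cx, P.st, P.m', P.m, P.p', P.p, P.g', P.g, P.l', P.l⟩

variable (P : Pa z 𝒜 V E E' s s' U)
include P

theorem vV : V ⊓ Qo s ⊔ zpowers s' ≤ V := sup_le inf_le_left (zpowers_le.2 P.m'.mem)

theorem vK : V ⊓ Qo s ⊔ zpowers s' ≤ C(E) :=
  sup_le ((le_inf inf_le_right (inf_le_left.trans (cent1_of P.st.ab P.m'.mem))).trans
    ((P.cx.ark P.p.a).e1 s P.p.sE P.p.b s' P.p.mem P.p.nQ)) (zpowers_le.2 (Pr.cent P.cx P.p P.p'))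

theorem vQ : V ⊓ Qo s ⊔ zpowers s' ≤ Qo s ⊔ E := sup_le (inf_le_right.trans le_sup_left) (zpowers_le.2 P.p.mem)

theorem yy (a : y ∈ V ⊓ Qo s ⊔ zpowers s') (b : y ∉ C(E')) : Yy E E' s s' y :=
  ⟨P.st.ab y (vV P a), vK P a, cent1_of P.st.ab P.m'.mem (vV P a), vQ P a, b⟩

theorem vz (a : y ∈ V ⊓ Qo s ⊔ zpowers s') (b : y ∈ C(E')) : y ∈ E ⊔ zpowers s' :=
  P.g.zz y ⟨vK P a, b⟩ (P.st.ab y (vV P a)) (vQ P a)

theorem vu (a : y ∈ V ⊓ Qo s ⊔ zpowers s') (b : y ∈ C(E')) (c : u ∈ U) (n : u ≠ 1) : y ∈ Qo u ⊔ E :=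
  sup_le le_sup_right (zpowers_le.2 (mem_sup_left (mem_QU.1 P.g.sQ u c n))) (vz P a b)

theorem cs : C(V) ≤ C[s] ⊓ C[s'] := le_inf (cent_le_cent1 P.m.mem) (cent_le_cent1 P.m'.mem)

theorem nL (a : y ∈ V) : C(V) ≤ N(Ux z E y ⊓ U) :=
  norms_inf ((le_inf ((cs P).trans ((P.cx.ark P.p.a).e2 s P.p.sE P.p.b s' P.p.mem P.p.nQ))
    (cent_le_cent1 a)).trans norm_Ux) ((cs P).trans P.g.nrm)

theorem mL (a : Yy E E' s s' y) (n : u ≠ 1) : u ∈ Ux z E y ⊓ U ↔ u ∈ U ∧ y ∈ Qo u ⊔ E := by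
  rw [mem_inf, (P.cx.lc P.p.a).mUx y a.cE (Yy.nE' P.g a)]
  exact ⟨fun k => ⟨k.2, (k.1.resolve_left n).2.2⟩, fun k => ⟨.inr ⟨P.g.le k.1, (P.g.sing u k.1 n).1, k.2⟩, k.1⟩⟩

theorem line (b : ¬ Big V E' s s') : ∃ L ≤ U, C(V) ≤ N(L) ∧ 4 ≤ #L ∧
    (∀ u ∈ L, u ≠ 1 → V ⊓ Qo s ⊔ zpowers s' ≤ Qo u ⊔ E) ∧
    (L = U ∨ ∃ y ∈ V, Yy E E' s s' y ∧ L = Ux z E y ⊓ U) := by
  by_cases k : V ⊓ Qo s ⊔ zpowers s' ≤ C(E')
  · exact ⟨U, le_rfl, (cs P).trans P.g.nrm, by rw [P.g.card]; omega, fun u c n y a => vu P a (k a) c n, .inl rfl⟩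
  obtain ⟨y, a, n⟩ := SetLike.not_le_iff_exists.1 k
  have Y := yy P a n
  refine ⟨_, inf_le_right, nL P (vV P a), (P.l.c4 y Y).ge, fun u c u1 w d => ?_, .inr ⟨y, vV P a, Y, rfl⟩⟩
  by_cases e : w ∈ C(E')
  · exact vu P d e c.2 u1
  · exact (mul_mem_cancel_right ((mL P Y u1).1 c).2).1
      (vu P (mul_mem d a) (by_contra fun f => b ⟨w, d, y, a, e, n, f⟩) c.2 u1)

end

theorem a3 : A3 := fun G _ _ z 𝒜 V E E' s s' U P ⟨y₁, a₁, y₂, a₂, n₁, n₂, n₃⟩ => by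
  have h := P.cx.mg
  have P' := Pa.symm P
  have sqU := P.g.sing.sq h
  have sqL : ∀ {X : Subgroup G}, ∀ x ∈ X ⊓ U, x * x = 1 := fun x a => sqU x a.2
  have Y₁ := yy P a₁ n₁
  have Y₂ := yy P a₂ n₂
  obtain ⟨nb, ne⟩ := P.l.pen y₁ y₂ Y₁ Y₂ (yy P (mul_mem a₁ a₂) n₃)
  obtain ⟨c, cV, ⟨c₁, c₂⟩, c1⟩ := P.st.P _ (fun x a => sqL x (inf_le_left (a := Ux z E y₁ ⊓ U) a)) nb
    (norms_inf (nL P (vV P a₁)) (nL P (vV P a₂)))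
  have cU : c ∈ U := c₁.2
  have bc := (P.g.sing c cU c1).1
  obtain ⟨y, ya, yn, yc⟩ : ∃ y ∈ V ⊓ Qo s ⊔ zpowers s', y ∉ C(E') ∧ y ∈ Qo c := by
    by_cases k₁ : y₁ ∈ Qo c
    · exact ⟨y₁, a₁, n₁, k₁⟩
    by_cases k₂ : y₂ ∈ Qo c
    · exact ⟨y₂, a₂, n₂, k₂⟩
    exact ⟨_, mul_mem a₁ a₂, n₃, (P.cx.la P.p.a).idx c (P.g.le cU) bc _ ((mL P Y₁ c1).1 c₁).2 _
      ((mL P Y₂ c1).1 c₂).2 k₁ k₂⟩
  have vc : ∀ w ∈ V, w ∈ Qo c ⊔ E' → w ∈ Qo c := fun w a b => by_contra fun d =>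
    yn ((P.cx.ark P.p'.a).e1 c (P.g'.le cU) bc w b d ⟨yc, cent1_of P.st.ab a (vV P ya)⟩)
  have i2 : #(V ⊓ Qo s' ⊔ zpowers s) ≤ 2 * #((V ⊓ Qo s' ⊔ zpowers s) ⊓ (Qo c ⊔ E')) := idx2 fun w₁ b₁ w₂ b₂ m₁ m₂ =>
    by_contra fun m₃ => by
    have Y : ∀ {w}, w ∈ V ⊓ Qo s' ⊔ zpowers s → w ∉ Qo c ⊔ E' → Yy E' E s' s w := fun a b =>
      yy P' a fun k => b (vu P' a k cU c1)
    have b₃ := mul_mem b₁ b₂
    have Z₁ := Y b₁ m₁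
    have Z₂ := Y b₂ m₂
    have Z₃ := Y b₃ m₃
    have cm := comm_of P.st.ab (vV P' b₁) (vV P' b₂)
    obtain ⟨nb', d₁₂⟩ := P.l'.pen w₁ w₂ Z₁ Z₂ Z₃
    have d₁₃ := (P.l'.pen w₁ _ Z₁ Z₃ (by rwa [← mul_assoc, Z₁.sq, one_mul])).2
    have d₂₃ := (P.l'.pen w₂ _ Z₂ Z₃ (by rwa [cm, ← mul_assoc, Z₂.sq, one_mul])).2
    obtain ⟨p, ⟨p₁, p₂⟩, p1⟩ := exists_ne_one nb'
    have p₃ := (mL P' Z₃ p1).2 ⟨p₁.2, mul_mem ((mL P' Z₁ p1).1 p₁).2 ((mL P' Z₂ p1).1 p₂).2⟩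
    have fin : ∀ y ∈ V, Yy E E' s s' y → c ∈ Ux z E y ⊓ U → p ∈ Ux z E y ⊓ U := fun y a X cy => by_contra fun py => by
      have pt : ∀ w, w ∈ V ⊓ Qo s' ⊔ zpowers s → w ∉ Qo c ⊔ E' → p ∈ Ux z E' w ⊓ U → ∃ q, (q ∈ Ux z E y ⊓ U ∧ q ≠ 1 ∧
          q ≠ c) ∧ Ux z E' w ⊓ U = zpowers p ⊔ zpowers q := fun w b m pw => by
        obtain ⟨q, ⟨q₁, q₂⟩, q1⟩ := exists_ne_one (P.l.x4 y w X (Y b m) (comm_of P.st.ab a (vV P' b)))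
        exact ⟨q, ⟨q₁, q1, fun e => m ((mL P' (Y b m) c1).1 (e ▸ q₂)).2⟩,
          four sqL (P.l'.c4 w (Y b m)) pw q₂ p1 q1 fun e => py (e ▸ q₁)⟩
      obtain ⟨q₁, r₁, e₁⟩ := pt _ b₁ m₁ p₁
      obtain ⟨q₂, r₂, e₂⟩ := pt _ b₂ m₂ p₂
      obtain ⟨q₃, r₃, e₃⟩ := pt _ b₃ m₃ p₃
      rcases pig sqL (P.l.c4 y X) cy c1 r₁ r₂ r₃ with e | e | e
      exacts [d₁₂ (by rw [e₁, e₂, e]), d₁₃ (by rw [e₁, e₃, e]), d₂₃ (by rw [e₂, e₃, e])]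
    have pc : c ≠ p := fun e => m₁ ((mL P' Z₁ c1).1 (e ▸ p₁)).2
    exact ne ((four sqL (P.l.c4 _ Y₁) (fin _ (vV P a₁) Y₁ c₁) c₁ p1 c1 pc).trans
      (four sqL (P.l.c4 _ Y₂) (fin _ (vV P a₂) Y₂ c₂) c₂ p1 c1 pc).symm)
  rw [cardV P.st P.m.mem P.p'.nQ] at i2
  have := P.m'.max c cV bc
  have e := eq_of_le_of_card_ge (show (V ⊓ Qo s' ⊔ zpowers s) ⊓ (Qo c ⊔ E') ≤ V ⊓ Qo c from fun w a =>
    ⟨vV P' a.1, vc w (vV P' a.1) a.2⟩) (by omega)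
  exact yn (vK P' (e.ge ⟨vV P ya, yc⟩).1)

theorem a3' : A3' := fun G _ _ z 𝒜 V E E' s s' U P => by
  by_contra hb
  obtain ⟨b, b'⟩ := not_or.1 hb
  have h := P.cx.mg
  have P' := Pa.symm P
  obtain ⟨L, LU, nrm, c4, lq, e⟩ := line P b
  obtain ⟨L', LU', nrm', c4', lq', e'⟩ := line P' b'
  have sqU := P.g.sing.sq h
  have nb : L ⊓ L' ≠ ⊥ := by
    rcases e with rfl | ⟨y, a, Y, rfl⟩
    · rw [inf_eq_right.2 LU']; exact ne_bot_iff_one_lt_card.2 (by omega)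
    rcases e' with rfl | ⟨y', a', Y', rfl⟩
    · rw [inf_eq_left.2 LU]; exact ne_bot_iff_one_lt_card.2 (by omega)
    exact P.l.x4 y y' Y Y' (comm_of P.st.ab a a')
  obtain ⟨u, uV, ⟨uL, uL'⟩, u1⟩ := P.st.P _ (fun x a => sqU x (LU (inf_le_left (a := L) a))) nb (norms_inf nrm nrm')
  have bu := (P.g.sing u (LU uL) u1).1
  have key : ∀ {E E' s s'}, Pa z 𝒜 V E E' s s' U → V ⊓ Qo s ⊔ zpowers s' ≤ Qo u ⊔ E →
      V ⊓ Qo u ≤ V ⊓ Qo s ⊔ zpowers s' ∧ #(V ⊓ Qo s) ≤ #(V ⊓ Qo u) := fun {E E' s s'} P l => by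
    have c := (P.cx.la P.p.a).half u (P.g.le (LU uL)) bu _ l
    rw [cardV P.st P.m'.mem P.p.nQ] at c
    have := P.m.max u uV bu
    have e := eq_of_le_of_card_ge (inf_le_inf_right (Qo u) (vV P)) (by omega)
    exact ⟨e.ge.trans inf_le_left, by rw [← e]; omega⟩
  obtain ⟨k, c⟩ := key P (lq u uL u1)
  have k' := (key P' (lq' u uL' u1)).1
  have v7 : V ⊓ Qo u ≤ QU U := fun w a => P.g.v7 ⟨vz P (k a) (vK P' (k' a)), vz P' (k' a) (vK P (k a))⟩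
  have cV := cardV P.st P.m'.mem P.p.nQ
  obtain ⟨y, ya, gen⟩ : ∃ y ∈ V ⊓ Qo s ⊔ zpowers s', V ⊓ Qo s ⊔ zpowers s' ≤ V ⊓ Qo u ⊔ zpowers y := by
    by_cases t : V ⊓ Qo s ⊔ zpowers s' ≤ V ⊓ Qo u
    · exact ⟨1, one_mem _, t.trans le_sup_left⟩
    obtain ⟨y, a, n⟩ := SetLike.not_le_iff_exists.1 t
    exact ⟨y, a, (eq_of_le_of_card_ge (sup_le k (zpowers_le.2 a)) (by
      rw [card_adj (norm_of P.st.ab (vV P a) inf_le_left) (P.st.ab y (vV P a)) n]; omega)).ge⟩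
  have S := P.g.sing.mono LU
  have nb := (P.cx.la P.p.a).nb L (LU.trans P.g.le) S y fun w a n => lq w a n ya
  obtain ⟨w, wV, wN, w1⟩ := P.st.P (Nb z L y) (fun x a => sqU x (LU (Nb_le a)))
    (ne_bot_iff_one_lt_card.2 (by omega)) ((le_inf nrm (cent_le_cent1 (vV P ya))).trans norm_Nb)
  obtain ⟨wL, yw⟩ := ((mem_Nb h S).1 wN).resolve_left w1
  have := (card_le (le_inf (vV P) (gen.trans (sup_le (fun x a => mem_QU.1 (v7 a) w (LU wL) w1)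
    (zpowers_le.2 yw))))).trans (P.m.max w wV (S w wL w1).1)
  have := card_pos (V ⊓ Qo s)
  omega

end H25.MX
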