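import Cfsg.Agent.H25.Trans

/-! Normalizer and centralizer systems without finiteness assumptions. -/

namespace H25
open Subgroup Cfsg Cfsg.FusionSystem

variable {Ω : Type*} [Group Ω] {S : Subgroup Ω} {F : FusionSystem S} {P Q R : Subgroup Ω}
variable {f f' : Ω → Ω}

theorem M.map_inv' {x : Ω} (h : M F P f) (hx : x ∈ P) : f x⁻¹ = (f x)⁻¹ := by
  obtain ⟨φ, -, e⟩ := h
  rw [← e ⟨x, hx⟩, ← e ⟨x⁻¹, inv_mem hx⟩, ← map_inv]; rfl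

theorem M.mem_nz {x : Ω} (h : M F R f) (hQ : Q ≤ R) (hx : x ∈ R) (hn : x ∈ nz Q)
    (e : ∀ y, y ∈ Q ↔ ∃ x ∈ Q, f x = y) : f x ∈ nz Q := by
  refine mem_normalizer_iff.2 fun y => ⟨fun hy => ?_, fun hy => ?_⟩
  · obtain ⟨q, hq, rfl⟩ := (e y).1 hy
    rw [← h.map_inv' hx, ← h.map_mul hx (hQ hq), ← h.map_mul (mul_mem hx (hQ hq)) (inv_mem hx)]
    exact (e _).2 ⟨_, conj_mem_of_mem_nz hn hq, rfl⟩
  · obtain ⟨q, hq, e'⟩ := (e _).1 hy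
    have : y = f (x⁻¹ * q * x) := by
      rw [h.map_mul (mul_mem (inv_mem hx) (hQ hq)) hx, h.map_mul (inv_mem hx) (hQ hq),
        h.map_inv' hx, e']; group
    rw [this]
    exact (e _).2 ⟨_, conj_mem_of_mem_nz' hn hq, rfl⟩

theorem mem_normalizerHom_iff_M {φ : P →* Ω} : φ ∈ F.normalizerHom Q P ↔ P ≤ nz Q ∧
    ∃ f, M F (P ⊔ Q) f ∧ (∀ x : P, φ x = f x) ∧ ∀ y, y ∈ Q ↔ ∃ x ∈ Q, f x = y := by
  constructor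
  · rintro ⟨-, h1, -, ψ, hψ, e₁, e₂⟩
    refine ⟨h1.trans inf_le_right, ex ψ, M.of_mem hψ, fun x => ?_, fun y => ⟨fun hy => ?_, ?_⟩⟩
    · rw [← e₁, ex_of_mem ψ (mem_sup_left x.2)]; rfl
    · obtain ⟨x, hx, e⟩ := e₂.ge hy
      exact ⟨x, hx, by rw [ex_coe, e]⟩
    · rintro ⟨x, hx, rfl⟩
      rw [ex_of_mem ψ (mem_sup_right hx)]
      exact e₂.le ⟨_, hx, rfl⟩
  · rintro ⟨h1, f, hf, e₁, e₂⟩
    refine ⟨(hf.mono le_sup_left).mem e₁, le_inf (le_sup_left.trans hf.le) h1,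
      fun x => ⟨e₁ x ▸ hf.map_mem (mem_sup_left x.2),
        e₁ x ▸ hf.mem_nz le_sup_right (mem_sup_left x.2) (h1 x.2) e₂⟩, ?_⟩
    obtain ⟨ψ, hψ, e⟩ := hf
    refine ⟨ψ, hψ, fun x => by rw [e, e₁]; rfl, ?_⟩
    ext y
    rw [e₂]
    exact ⟨fun ⟨x, hx, e'⟩ => ⟨x, hx, by rw [← e, e']⟩,
      fun ⟨x, hx, e'⟩ => ⟨⟨x, mem_sup_right hx⟩, hx, by rw [e, e']⟩⟩

theorem mem_centralizerHom_iff_M {φ : P →* Ω} : φ ∈ F.centralizerHom Q P ↔ P ≤ cz Q ∧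
    ∃ f, M F (P ⊔ Q) f ∧ (∀ x : P, φ x = f x) ∧ ∀ y ∈ Q, f y = y := by
  constructor
  · rintro ⟨-, h1, -, ψ, hψ, e₁, e₂⟩
    refine ⟨h1.trans inf_le_right, ex ψ, M.of_mem hψ, fun x => ?_, fun y hy => ?_⟩
    · rw [← e₁, ex_of_mem ψ (mem_sup_left x.2)]; rfl
    · rw [ex_of_mem ψ (mem_sup_right hy)]; exact e₂ ⟨y, hy⟩
  · rintro ⟨h1, f, hf, e₁, e₂⟩
    refine ⟨(hf.mono le_sup_left).mem e₁, le_inf (le_sup_left.trans hf.le) h1,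
      fun x => ⟨e₁ x ▸ hf.map_mem (mem_sup_left x.2), mem_cz'.2 fun y hy => ?_⟩, ?_⟩
    · rw [e₁, ← e₂ y hy, ← hf.map_mul (mem_sup_right hy) (mem_sup_left x.2),
        ← hf.map_mul (mem_sup_left x.2) (mem_sup_right hy), mem_cz'.1 (h1 x.2) y hy]
    · obtain ⟨ψ, hψ, e⟩ := hf
      exact ⟨ψ, hψ, fun x => by rw [e, e₁]; rfl, fun x => by rw [e]; exact e₂ x x.2⟩

theorem M.sup_mem (hf : M F (P ⊔ Q) f) (h1 : P ≤ nz Q) (h2 : ∀ x ∈ P, f x ∈ R)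
    (h3 : ∀ x ∈ Q, f x ∈ Q) : ∀ x ∈ P ⊔ Q, f x ∈ R ⊔ Q := by
  intro x hx
  obtain ⟨a, ha, b, hb, rfl⟩ := (mem_sup_of_le_nz_right h1).1 hx
  rw [hf.map_mul (mem_sup_left ha) (mem_sup_right hb)]
  exact mul_mem (mem_sup_left (h2 a ha)) (mem_sup_right (h3 b hb))

theorem M.exists_inv_sup {φ : P →* Ω} (hf : M F (P ⊔ Q) f) (e₁ : ∀ x : P, φ x = f x)
    (h1 : φ.range ≤ nz Q) (h3 : ∀ y ∈ Q, ∃ x ∈ Q, f x = y) :
    ∃ (ψ : φ.range →* Ω) (f' : Ω → Ω), M F (φ.range ⊔ Q) f' ∧ (∀ x : φ.range, ψ x = f' x) ∧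
      (∀ x ∈ P ⊔ Q, f' (f x) = x) := by
  obtain ⟨f', h4, h5, -⟩ := hf.inv (Q := φ.range ⊔ Q) fun y hy => by
    obtain ⟨_, ⟨a, rfl⟩, b, hb, rfl⟩ := (mem_sup_of_le_nz_right h1).1 hy
    obtain ⟨c, hc, rfl⟩ := h3 b hb
    exact ⟨a * c, mul_mem (mem_sup_left a.2) (mem_sup_right hc), by
      rw [hf.map_mul (mem_sup_left a.2) (mem_sup_right hc), e₁]⟩
  obtain ⟨ψ, -, e⟩ := h4.mono le_sup_left
  exact ⟨ψ, f', h4, e, h5⟩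

theorem exists_normalizerSystem (F : FusionSystem S) (hQ : Q ≤ S) :
    ∃ E : FusionSystem (normalizerIn S Q), F.IsNormalizerSystem Q E := by
  refine ⟨⟨F.normalizerHom Q, fun h => ⟨h.2.1, h.2.2.1⟩, fun h => F.injective_of_mem h.1,
    fun {P g} hP hg => ?_, fun {P R φ ψ} hφ hψ h => ?_, fun {P φ} hφ => ?_⟩, fun _ => rfl⟩
  · exact mem_normalizerHom_iff_M.2 ⟨hP.trans inf_le_right, _,
      M.conj F (sup_le (hP.trans inf_le_left) hQ) hg.1, fun _ => rfl, fun y =>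
        ⟨fun hy => ⟨_, conj_mem_of_mem_nz' hg.2 hy, by group⟩,
          fun ⟨x, hx, e⟩ => e ▸ conj_mem_of_mem_nz hg.2 hx⟩⟩
  · obtain ⟨h1, f, hf, e₁, e₂⟩ := mem_normalizerHom_iff_M.1 hφ
    obtain ⟨-, f', hf', e₃, e₄⟩ := mem_normalizerHom_iff_M.1 hψ
    refine mem_normalizerHom_iff_M.2 ⟨h1, _, hf.comp hf' (hf.sup_mem h1
      (fun x hx => e₁ ⟨x, hx⟩ ▸ h _) fun x hx => (e₂ _).2 ⟨x, hx, rfl⟩), fun x => ?_, fun y =>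
        ⟨fun hy => ?_, fun ⟨x, hx, e⟩ => e ▸ (e₄ _).2 ⟨_, (e₂ _).2 ⟨x, hx, rfl⟩, rfl⟩⟩⟩
    · rw [MonoidHom.comp_apply, e₃, ← e₁]; rfl
    · obtain ⟨x, hx, rfl⟩ := (e₄ y).1 hy
      obtain ⟨z, hz, rfl⟩ := (e₂ x).1 hx
      exact ⟨z, hz, rfl⟩
  · obtain ⟨h1, f, hf, e₁, e₂⟩ := mem_normalizerHom_iff_M.1 hφ
    have h2 : φ.range ≤ nz Q := by rintro _ ⟨x, rfl⟩; exact (hφ.2.2.1 x).2
    obtain ⟨ψ, f', h3, e₃, e₄⟩ := hf.exists_inv_sup e₁ h2 fun y hy => (e₂ y).1 hy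
    refine ⟨ψ, mem_normalizerHom_iff_M.2 ⟨h2, f', h3, e₃, fun y => ⟨fun hy =>
      ⟨f y, (e₂ _).2 ⟨y, hy, rfl⟩, e₄ y (mem_sup_right hy)⟩, fun ⟨x, hx, e⟩ => ?_⟩⟩, fun x => ?_⟩
    · obtain ⟨z, hz, rfl⟩ := (e₂ x).1 hx
      rwa [← e, e₄ z (mem_sup_right hz)]
    · rw [e₃]; show f' (φ x) = x
      rw [e₁, e₄ _ (mem_sup_left x.2)]

theorem exists_centralizerSystem (F : FusionSystem S) (hQ : Q ≤ S) :
    ∃ E : FusionSystem (centralizerIn S Q), F.IsCentralizerSystem Q E := by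
  refine ⟨⟨F.centralizerHom Q, fun h => ⟨h.2.1, h.2.2.1⟩, fun h => F.injective_of_mem h.1,
    fun {P g} hP hg => ?_, fun {P R φ ψ} hφ hψ h => ?_, fun {P φ} hφ => ?_⟩, fun _ => rfl⟩
  · exact mem_centralizerHom_iff_M.2 ⟨hP.trans inf_le_right, _,
      M.conj F (sup_le (hP.trans inf_le_left) hQ) hg.1, fun _ => rfl, mem_cz.1 hg.2⟩
  · obtain ⟨h1, f, hf, e₁, e₂⟩ := mem_centralizerHom_iff_M.1 hφ
    obtain ⟨-, f', hf', e₃, e₄⟩ := mem_centralizerHom_iff_M.1 hψ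
    refine mem_centralizerHom_iff_M.2 ⟨h1, _, hf.comp hf' (hf.sup_mem (h1.trans (cz_le_nz _))
      (fun x hx => e₁ ⟨x, hx⟩ ▸ h _) fun x hx => (e₂ x hx).symm ▸ hx), fun x => ?_, fun y hy => by
        rw [e₂ y hy, e₄ y hy]⟩
    rw [MonoidHom.comp_apply, e₃, ← e₁]; rfl
  · obtain ⟨h1, f, hf, e₁, e₂⟩ := mem_centralizerHom_iff_M.1 hφ
    have h2 : φ.range ≤ cz Q := by rintro _ ⟨x, rfl⟩; exact (hφ.2.2.1 x).2
    obtain ⟨ψ, f', h3, e₃, e₄⟩ := hf.exists_inv_sup e₁ (h2.trans (cz_le_nz _))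
      fun y hy => ⟨y, hy, e₂ y hy⟩
    refine ⟨ψ, mem_centralizerHom_iff_M.2 ⟨h2, f', h3, e₃, fun y hy => ?_⟩, fun x => ?_⟩
    · have := e₄ y (mem_sup_right hy); rwa [e₂ y hy] at this
    · rw [e₃]; show f' (φ x) = x
      rw [e₁, e₄ _ (mem_sup_left x.2)]

end H25
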