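/-
S5815: the pieces `DG`, `P1`.
-/
import Cfsg.Agent.H2.O7a

set_option autoImplicit false
set_option linter.unusedSectionVars false

open Module QuadraticMap H12 Cfsg H26.O7 H12.O7 H2.O7
namespace H25.O7
universe u

section
variable {F : Type u} [Field F] {Y : Subgroup (Au F (V F))} {δ : F} {R : Set (V F)} {x y z n w : V F}

theorem xx_add (x y z : V F) : xx δ x (y + z) = xx δ x y + xx δ x z := by rw [xx, xx, xx, polar_add_right, add_div]
theorem xx_zero (d : δ ≠ 0) : xx δ x y = 0 ↔ polar (Q F) x y = 0 := by simp [xx, d]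
theorem rf' (hx : Q F x = δ) (y : V F) : (refl (Q F) x).1 y = y - xx δ x y • x := by
  rw [refl_apply, hx, xx, div_eq_inv_mul]
theorem q_of_xx (h2 : (2 : F) ≠ 0) (d : δ ≠ 0) {c : F} (h : xx δ x x = 2 * c) : Q F x = c * δ := by
  rw [xx, polar_self', div_eq_iff d, mul_assoc] at h
  exact mul_left_cancel₀ h2 h

variable (h : Rt Y δ R)
include h

theorem ei_step (hx : x ∈ R) (o : polar (Q F) n x = 0) (e : Ei (Q F) Y n w) : Ei (Q F) Y n (xx δ x w • x) := by
  have := e.conj (h.rf x hx) (refl (Q F) x).2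
  rw [refl_apply_of_orth ((polar_comm _ _ _).trans o), rf_eq h hx] at this
  simpa using e.sub this

theorem dg2 (hx : x ∈ R) (hy : y ∈ R) (n0 : n ≠ 0) (o1 : polar (Q F) n x = 0) (o2 : polar (Q F) n y = 0)
    (e : Ei (Q F) Y n w) (w0 : polar (Q F) w x ≠ 0) (k : (3 : F) ≠ 0 ∨ (xx δ x y ^ 2) ^ 3 ≠ xx δ x y ^ 2) : Big Y := by
  classical
  have e1 := ei_step h hx o1 e
  have c0 : xx δ x w ≠ 0 := fun e => w0 ((xx_zero h.ne).1 ((xx_comm _ _).trans e))
  generalize xx δ x w = c at e1 c0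
  obtain ⟨t, t1, t2⟩ : ∃ t : F, t ^ 3 ≠ t ∧ Ei (Q F) Y n (t • c • x) := by
    rcases k with k | k
    · exact ⟨2, fun e => mul_ne_zero h.two k (by linear_combination e), by rw [two_smul]; exact e1.add e1⟩
    · refine ⟨_, k, ?_⟩
      have := ei_step h hx o1 (ei_step h hy o2 e1)
      rwa [xx_smul, xx_smul, xx_comm y, mul_assoc, mul_comm, mul_smul, ← pow_two] at this
  have a0 : t ≠ 0 := by rintro rfl; simp at t1
  have a1 : t ≠ 1 := by rintro rfl; simp at t1
  have a2 : t ≠ -1 := by rintro rfl; exact t1 (by ring)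
  have two := h.two
  refine ⟨n, c • x, {0, 1, -1, t, -t}, n0, by rw [Q_smul]; exact mul_ne_zero (mul_ne_zero c0 c0) (rt_q0 h hx), ?_, ?_⟩
  · rw [Finset.card_insert_of_notMem, Finset.card_insert_of_notMem, Finset.card_insert_of_notMem,
      Finset.card_pair fun e => mul_ne_zero two a0 (by linear_combination e)] <;>
      simp only [Finset.mem_insert, Finset.mem_singleton, not_or]
    · exact ⟨a2.symm, fun e => a1 (neg_injective e).symm⟩
    · exact ⟨fun e => two (by linear_combination e), a1.symm, fun e => a2 (by linear_combination e)⟩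
    · exact ⟨zero_ne_one, by simp, a0.symm, by simpa⟩
  · simp only [Finset.mem_insert, Finset.mem_singleton, forall_eq_or_imp, forall_eq, zero_smul, one_smul, neg_smul]
    exact ⟨ei_zero_right e.1, e1, e1.neg, t2, t2.neg⟩

theorem dg1 (hx : x ∈ R) (hy : y ∈ R) (hz : z ∈ R) (a4 : xx δ x y ^ 2 ≠ 4) (g0 : gram δ x y z = 0)
    (zn : z ∉ Submodule.span F {x, y}) : ∃ n w, n ≠ 0 ∧ polar (Q F) n x = 0 ∧ polar (Q F) n y = 0 ∧ Ei (Q F) Y n w ∧
      (polar (Q F) w x ≠ 0 ∨ polar (Q F) w y ≠ 0) := by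
  have d := h.ne
  have D : 4 - xx δ x y ^ 2 ≠ 0 := sub_ne_zero.2 a4.symm
  obtain ⟨α, β, e1, e2⟩ : ∃ α β : F, 2 * α + xx δ x y * β = xx δ x z ∧ xx δ x y * α + 2 * β = xx δ y z :=
    ⟨(2 * xx δ x z - xx δ x y * xx δ y z) / (4 - xx δ x y ^ 2), (2 * xx δ y z - xx δ x y * xx δ x z) / (4 - xx δ x y ^ 2),
      by field_simp; ring, by field_simp; ring⟩
  have rel : α ^ 2 + β ^ 2 + α * β * xx δ x y = 1 := by
    refine mul_left_cancel₀ D ?_
    rw [gram, ← e1, ← e2] at g0
    linear_combination -g0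
  have sx := xx_self h hx
  have sy := xx_self h hy
  have c := xx_comm (δ := δ) y x
  let π := α • x + β • y
  let u := (α * xx δ x y + β) • x - α • y
  have l1 : ∀ v, xx δ π v = α * xx δ x v + β * xx δ y v := fun v => by simp only [π, xx_comm _ v, xx_add, xx_smul]
  have l2 : ∀ v, xx δ u v = (α * xx δ x y + β) * xx δ x v - α * xx δ y v := fun v => by
    simp only [u, xx_comm _ v, xx_sub, xx_smul]
  have qπ : Q F π = δ := (q_of_xx h.two d (c := 1) (by
    rw [l1]; simp only [π, xx_add, xx_smul, sx, sy, c]; linear_combination 2 * rel)).trans (one_mul _)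
  have qu : Q F u = δ := (q_of_xx h.two d (c := 1) (by
    rw [l2]; simp only [u, xx_sub, xx_smul, sx, sy, c]; linear_combination 2 * rel)).trans (one_mul _)
  have s : refl (Q F) x * refl (Q F) y * refl (Q F) π = refl (Q F) u := orth_ext fun v => by
    rw [orth_mul_apply, orth_mul_apply, rf' qπ, rf' qu, rf_eq h hy, rf_eq h hx, l1, l2]
    simp only [π, u, xx_add, xx_sub, xx_smul, sx, sy, c]
    linear_combination (norm := module) ((xx δ x v - xx δ x y * xx δ y v) * rel) • x + (xx δ y v * rel) • y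
  let m := δ⁻¹ • (z - π)
  have o1 : xx δ x m = 0 := by simp only [m, π, xx_add, xx_sub, xx_smul, sx, ← e1]; ring
  have o2 : xx δ y m = 0 := by simp only [m, π, xx_add, xx_sub, xx_smul, sy, c, ← e2]; ring
  have o3 : polar (Q F) m π = 0 := (xx_zero d).1 (by rw [xx_comm, l1, o1, o2]; ring)
  have ez : π + Q F π • m = z := by rw [qπ, smul_inv_smul₀ d, add_sub_cancel]
  have q0 : Q F m = 0 := by
    have := h.norm z hz
    rw [← ez, Q_add, Q_smul, polar_smul_right, polar_comm, o3, qπ, smul_zero, add_zero, add_eq_left] at this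
    exact (mul_eq_zero.1 this).resolve_left (mul_ne_zero d d)
  replace o1 := (polar_comm _ _ _).trans ((xx_zero d).1 o1)
  replace o2 := (polar_comm _ _ _).trans ((xx_zero d).1 o2)
  have E := eich_eq_refl_mul q0 o3 (qπ.trans_ne d)
  rw [ez] at E
  let k := refl (Q F) x * refl (Q F) y
  have km : k.1 m = m := by
    rw [orth_mul_apply, refl_apply_of_orth ((polar_comm _ _ _).trans o2), refl_apply_of_orth ((polar_comm _ _ _).trans o1)]
  have E1 := eich_conj k q0 o3
  have E2 := eich_conj (refl (Q F) π) q0 o3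
  rw [refl_apply_self (qπ.trans_ne d), refl_apply_of_orth ((polar_comm _ _ _).trans o3)] at E2
  have o4 : polar (Q F) m (k.1 π) = 0 := by rw [← km, orth_polar, o3]
  have o5 : polar (Q F) m (-π) = 0 := by rw [polar_neg_right, o3, neg_zero]
  rw [km] at E1
  have kπ : k.1 π + -π = (xx δ y z * xx δ x y - xx δ x z) • x - xx δ y z • y := by
    rw [orth_mul_apply, rf_eq h hy, rf_eq h hx, ← e1, ← e2]
    simp only [π, xx_add, xx_sub, xx_smul, sx, sy, c]
    module
  refine ⟨m, k.1 π + -π, fun e => zn ?_, o1, o2, ⟨q0, by rw [polar_add_right, o4, o5, add_zero], ?_⟩, ?_⟩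
  · rw [← ez, e, smul_zero, add_zero]
    exact Submodule.mem_span_pair.2 ⟨α, β, rfl⟩
  · have t : refl (Q F) π * k * refl (Q F) π = k⁻¹ := by
      refine eq_inv_of_mul_eq_one_right ?_
      rw [← mul_assoc, ← mul_assoc, mul_assoc _ k, s, refl_mul_self]
    have : eich (Q F) m (k.1 π + -π) = k * refl (Q F) z * k * refl (Q F) z := by
      rw [eich_add q0 o4 o5, ← E1, ← E2, E, ← t, refl_inv]
      simp only [mul_assoc]
      rw [refl_mul_self, mul_one, ← mul_assoc (refl (Q F) π), refl_mul_self, one_mul, ← mul_assoc (refl (Q F) π),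
        refl_mul_self, one_mul]
    have hk : k.1 ∈ Y := mul_mem (h.rf x hx) (h.rf y hy)
    rw [this]
    exact mul_mem (mul_mem (mul_mem hk (h.rf z hz)) hk) (h.rf z hz)
  · by_contra! b
    obtain ⟨b1, b2⟩ := b
    rw [polar_comm, ← xx_zero d, kπ, xx_sub, xx_smul, xx_smul] at b1 b2
    rw [sx] at b1
    rw [sy, c] at b2
    have r0 : xx δ y z = 0 := mul_left_cancel₀ D (by linear_combination xx δ x y * b1 - 2 * b2)
    have q0 : xx δ x z = 0 := mul_left_cancel₀ h.two (by rw [r0] at b1; linear_combination -b1)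
    rw [gram, r0, q0] at g0
    exact D (by linear_combination g0)

theorem big_of (hx : x ∈ R) (hy : y ∈ R) (hz : z ∈ R) (a4 : xx δ x y ^ 2 ≠ 4) (g0 : gram δ x y z = 0)
    (zn : z ∉ Submodule.span F {x, y}) (k : (3 : F) ≠ 0 ∨ (xx δ x y ^ 2) ^ 3 ≠ xx δ x y ^ 2) : Big Y := by
  obtain ⟨n, w, n0, o1, o2, e, b | b⟩ := dg1 h hx hy hz a4 g0 zn
  exacts [dg2 h hx hy n0 o1 o2 e b k, dg2 h hy hx n0 o2 o1 e b (by rwa [xx_comm y])]

theorem ex_out (hx : x ∈ R) (y : V F) : ∃ z ∈ R, z ∉ Submodule.span F {x, y} ∧ (xx δ x z ≠ 0 ∨ xx δ y z ≠ 0) := by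
  classical
  by_contra! k
  rcases rt_irr h (Submodule.span F {x, y}) (fun r hr v hv => by
    rw [rf_eq h hr]
    by_cases e : r ∈ Submodule.span F {x, y}
    · exact sub_mem hv (Submodule.smul_mem _ _ e)
    · obtain ⟨a, b, rfl⟩ := Submodule.mem_span_pair.1 hv
      rwa [xx_add, xx_smul, xx_smul, xx_comm r, xx_comm r, (k r hr e).1, (k r hr e).2, mul_zero, mul_zero, add_zero,
        zero_smul, sub_zero]) with e | e
  · exact rt_q0 h hx (by rw [show x = 0 from e.le (Submodule.subset_span (by simp)), map_zero])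
  · have := finrank_span_finset_le_card (R := F) {x, y}
    rw [Set.finrank, Finset.coe_pair, e, finrank_top, finrank_V] at this
    have := Finset.card_le_two (a := x) (b := y)
    omega
end

theorem dg : DG.{u} := fun _ _ _ _ _ _ h _ hx _ hy => ⟨fun _ hz => dg1 h hx hy hz, fun _ _ => dg2 h hx hy⟩

theorem p1 (t3 : T3.{u}) : P1.{u} := by
  intro F _ _ Y δ R h nb x hx y hy
  have two := h.two
  refine ⟨?_, fun z hz => ⟨fun ⟨a, b, c⟩ => ?_, fun a zn => ?_⟩⟩
  · by_contra! k
    obtain ⟨k1, k2, k3, k4, k5⟩ := k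
    have k6 : (3 : F) ≠ 0 ∨ (xx δ x y ^ 2) ^ 3 ≠ xx δ x y ^ 2 := by
      by_contra! l
      have : xx δ x y ^ 2 * ((xx δ x y ^ 2 - 1) * (xx δ x y ^ 2 - 2)) = 0 := by
        linear_combination l.2 + (xx δ x y ^ 2 - xx δ x y ^ 4) * l.1
      simp only [mul_eq_zero, sub_eq_zero] at this
      rcases this with e | e | e
      exacts [k3 (pow_eq_zero_iff two_ne_zero |>.1 e), k5 (.inl e), k4 e]
    by_cases a4 : xx δ x y ^ 2 = 4
    · have key : ∀ y ∈ R, x ≠ y → xx δ x y = 2 → (3 : F) ≠ 0 ∨ (xx δ x y ^ 2) ^ 3 ≠ xx δ x y ^ 2 → False := fun y hy n e k => by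
        have o1 : polar (Q F) (x - y) x = 0 := by
          rw [polar_comm, ← xx_zero h.ne, xx_sub, xx_self h hx, e, sub_self]
        have o2 : polar (Q F) (x - y) y = 0 := by
          rw [polar_comm, ← xx_zero h.ne, xx_sub, xx_self h hy, xx_comm, e, sub_self]
        have q : Q F (x - y) = 0 := mul_left_cancel₀ two (by rw [← polar_self', polar_sub_right, o1, o2]; simp)
        have := (RR.ei (X := Y) (u := x - y) (w := y) ⟨by simpa using rt_q0 h hx, rt_q0 h hy, by
          rw [add_sub_cancel]; exact mul_mem (h.rf x hx) (h.rf y hy)⟩ q o2).smul_right q o2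
        refine nb (dg2 h hx hy (sub_ne_zero.2 n) o1 o2 this ?_ k)
        rw [polar_smul_left, smul_eq_mul]
        exact mul_ne_zero (inv_ne_zero (rt_q0 h hy)) fun b => two (by rw [← e, xx_comm, (xx_zero h.ne).2 b])
      rcases sq_eq_sq_iff_eq_or_eq_neg.1 (a4.trans (by norm_num : (4 : F) = 2 ^ 2)) with e | e
      · exact key y hy k1 e k6
      · exact key _ (h.neg y hy) k2 (by rw [xx_neg, e, neg_neg]) (by rwa [xx_neg, neg_sq])
    obtain ⟨z, hz, zn, o⟩ := ex_out h hx y
    by_cases g0 : gram δ x y z = 0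
    · exact nb (big_of h hx hy hz a4 g0 zn k6)
    · exact (t3 F Y δ R h nb x hx y hy z hz g0 k3 o).1.elim k4 k5
  · have n0 : ∀ {a : F}, Od (a ^ 2) → a ≠ 0 := fun o e => od0 (F := F) (by simpa [e] using o)
    refine (t3 F Y δ R h nb x hx y hy z hz (fun g => ?_) (fun e => two (by rw [← a, e]; simp)) (.inl (n0 b))).2.1 ⟨a, b, c⟩
    have g2 : 2 * (xx δ x z ^ 2 * xx δ y z ^ 2) = (xx δ x z ^ 2 + xx δ y z ^ 2 - 2) ^ 2 := by
      rw [gram, a] at g
      have : xx δ x y * xx δ x z * xx δ y z = xx δ x z ^ 2 + xx δ y z ^ 2 - 2 := by linear_combination g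
      rw [← this, mul_pow, mul_pow, a, mul_assoc]
    generalize xx δ x z ^ 2 = A at b g2
    generalize xx δ y z ^ 2 = B at c g2
    rcases b with rfl | ⟨b, -⟩ <;> rcases c with rfl | ⟨c, -⟩
    · exact two (by linear_combination g2)
    · exact one_ne_zero (α := F) (by linear_combination (3 - B) * g2 + (4 - B) * c)
    · exact one_ne_zero (α := F) (by linear_combination (3 - A) * g2 + (4 - A) * b)
    · rcases mul_eq_zero.1 (show (A - B) * (A + B - 3) = 0 by linear_combination b - c) with e | e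
      · obtain rfl := sub_eq_zero.1 e
        exact two (by linear_combination (A - 2) * g2 + (2 * A - 6) * b)
      · exact one_ne_zero (α := F) (by linear_combination g2 + 2 * b + (B - A - 1) * e)
  · by_cases o : xx δ x z = 0
    · exact ⟨x, hx, Submodule.subset_span (by simp), o⟩
    have a0 : xx δ x y ≠ 0 := fun e => od0 (F := F) (.inr (by simpa [e] using a))
    by_cases g0 : gram δ x y z = 0
    · refine (nb (big_of h hx hy hz (fun e => a.2 (by have := a.1; rw [e] at this; linear_combination this)) g0 zn ?_)).elim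
      by_contra! l
      have := a.1
      generalize xx δ x y ^ 2 = A at l this
      exact two (by linear_combination A * l.2 + (2 - A ^ 2) * this + (2 * A - A ^ 3) * l.1)
    · exact (t3 F Y δ R h nb x hx y hy z hz g0 a0 (.inl o)).2.2 a

end H25.O7
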