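import Mathlib

/-! Self-dual coprime modules split as symplectic plus orthogonal. -/

set_option autoImplicit false

open Submodule LinearMap

namespace H25.SD

variable {F V G : Type*} [Field F] [AddCommGroup V] [Module F V] [Group G]
  {ρ : Representation F G V} {B : LinearMap.BilinForm F V} {U W X Y Z : Submodule F V}

/-- invariant subspaces -/
def Inv (ρ : Representation F G V) (U : Submodule F V) : Prop := ∀ g, ∀ u ∈ U, ρ g u ∈ U

/-- right nondegeneracy on a subspace -/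
def ND (B : LinearMap.BilinForm F V) (U : Submodule F V) : Prop :=
  ∀ y ∈ U, (∀ x ∈ U, B x y = 0) → y = 0

/-- an invariant nondegenerate form on `U`, with `A x y = c * A y x` and (for `a`) alternating -/
def Fm (ρ : Representation F G V) (c : F) (a : Prop) (U : Submodule F V) : Prop :=
  ∃ A : LinearMap.BilinForm F V, (∀ x ∈ U, ∀ y ∈ U, A x y = c * A y x) ∧ (a → ∀ x ∈ U, A x x = 0) ∧
    (∀ g, ∀ x ∈ U, ∀ y ∈ U, A (ρ g x) (ρ g y) = A x y) ∧ ND A U

theorem Inv.sup (h : Inv ρ U) (h' : Inv ρ W) : Inv ρ (U ⊔ W) := fun g _ hu => by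
  obtain ⟨a, ha, b, hb, rfl⟩ := mem_sup.1 hu
  rw [map_add]; exact add_mem_sup (h g a ha) (h' g b hb)

theorem Inv.inf (h : Inv ρ U) (h' : Inv ρ W) : Inv ρ (U ⊓ W) := fun g _ hu => ⟨h g _ hu.1, h' g _ hu.2⟩

theorem inv_bot : Inv ρ ⊥ := fun g u hu => by simp [(mem_bot F).1 hu]

theorem exists_proj (h : Disjoint U W) : ∃ π : V →ₗ[F] V, (∀ v, π v ∈ U) ∧ (∀ u ∈ U, π u = u) ∧
    ∀ w ∈ W, π w = 0 := by
  obtain ⟨C, h1, h2⟩ := h.symm.exists_isCompl
  exact ⟨U.projection C h2.symm, projection_apply_mem _, fun u => projection_apply_of_mem_left _,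
    fun w hw => projection_apply_of_mem_right _ (h1 hw)⟩

theorem fm_bot (c : F) (a : Prop) : Fm ρ c a ⊥ := ⟨0, by simp, by simp, by simp, fun _ h _ => h⟩

theorem Fm.sup {c : F} {a : Prop} (h : Fm ρ c a U) (h' : Fm ρ c a W) (hU : Inv ρ U) (hW : Inv ρ W)
    (d : Disjoint U W) : Fm ρ c a (U ⊔ W) := by
  obtain ⟨A, a1, a2, a3, a4⟩ := h
  obtain ⟨A', b1, b2, b3, b4⟩ := h'
  obtain ⟨π, -, p1, p2⟩ := exists_proj d
  obtain ⟨π', -, q1, q2⟩ := exists_proj d.symm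
  have k : ∀ u ∈ U, ∀ w ∈ W, ∀ u' ∈ U, ∀ w' ∈ W, (A.comp π π + A'.comp π' π') (u + w) (u' + w') =
      A u u' + A' w w' := fun u hu w hw u' hu' w' hw' => by
    simp [p1 u hu, p1 u' hu', p2 w hw, p2 w' hw', q1 w hw, q1 w' hw', q2 u hu, q2 u' hu']
  refine ⟨A.comp π π + A'.comp π' π', ?_, fun h => ?_, fun g => ?_, ?_⟩ <;>
    simp only [ND, forall_mem_sup]
  · intro u hu w hw u' hu' w' hw'
    rw [k u hu w hw u' hu' w' hw', k u' hu' w' hw' u hu w hw, a1 u hu u' hu', b1 w hw w' hw', mul_add]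
  · intro u hu w hw
    rw [k u hu w hw u hu w hw, a2 h u hu, b2 h w hw, add_zero]
  · intro u hu w hw u' hu' w' hw'
    rw [map_add (ρ g), map_add (ρ g), k _ (hU g u hu) _ (hW g w hw) _ (hU g u' hu') _ (hW g w' hw'),
      k u hu w hw u' hu' w' hw', a3 g u hu u' hu', b3 g w hw w' hw']
  · intro u hu w hw h
    rw [a4 u hu fun x hx => by
        simpa using (k x hx 0 (zero_mem _) u hu w hw).symm.trans (h x hx 0 (zero_mem _)),
      b4 w hw fun x hx => by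
        simpa using (k 0 (zero_mem _) x hx u hu w hw).symm.trans (h 0 (zero_mem _) x hx), add_zero]

/-- the decomposition of a subspace -/
def Dec (ρ : Representation F G V) (Z : Submodule F V) : Prop :=
  ∃ U W : Submodule F V, Disjoint U W ∧ U ⊔ W = Z ∧ Inv ρ U ∧ Inv ρ W ∧ Fm ρ (-1) True U ∧
    Fm ρ 1 False W ∧ ((2 : F) = 0 → ∀ g, ∀ w ∈ W, ρ g w = w)

theorem Dec.sup (h : Dec ρ X) (h' : Dec ρ Y) (d : Disjoint X Y) : Dec ρ (X ⊔ Y) := by
  obtain ⟨U, W, a1, rfl, a2, a3, a4, a5, a6⟩ := h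
  obtain ⟨U', W', b1, rfl, b2, b3, b4, b5, b6⟩ := h'
  refine ⟨U ⊔ U', W ⊔ W', disjoint_def.2 fun x h1 h2 => ?_, by ac_rfl, a2.sup b2, a3.sup b3,
    a4.sup b4 a2 b2 (d.mono le_sup_left le_sup_left), a5.sup b5 a3 b3 (d.mono le_sup_right le_sup_right),
    fun h g => (forall_mem_sup _ _).2 fun w hw w' hw' => by rw [map_add, a6 h g w hw, b6 h g w' hw']⟩
  obtain ⟨u, hu, u', hu', rfl⟩ := mem_sup.1 h1
  obtain ⟨w, hw, w', hw', e⟩ := mem_sup.1 h2
  have e1 : u - w = w' - u' := by rw [sub_eq_sub_iff_add_eq_add, ← e, add_comm]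
  have e2 := disjoint_def.1 d _ (sub_mem (mem_sup_left hu) (mem_sup_right hw))
    (e1 ▸ sub_mem (mem_sup_right hw') (mem_sup_left hu'))
  rw [disjoint_def.1 a1 u hu (sub_eq_zero.1 e2 ▸ hw), disjoint_def.1 b1 u' hu'
    (sub_eq_zero.1 (e1 ▸ e2) ▸ hw'), add_zero]

theorem dec_alt (h : Inv ρ U) (h' : Fm ρ (-1) True U) : Dec ρ U :=
  ⟨U, ⊥, disjoint_bot_right, sup_bot_eq U, h, inv_bot, h', fm_bot _ _, fun _ _ _ h => by
    simp [(mem_bot F).1 h]⟩

theorem dec_sym (h : Inv ρ U) (h' : Fm ρ 1 False U) (h2 : (2 : F) = 0 → ∀ g, ∀ w ∈ U, ρ g w = w) :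
    Dec ρ U := ⟨⊥, U, disjoint_bot_left, bot_sup_eq U, inv_bot, h, fm_bot _ _, h', h2⟩

/-- right orthogonal -/
def rt (B : LinearMap.BilinForm F V) (X : Submodule F V) : Submodule F V where
  carrier := {y | ∀ x ∈ X, B x y = 0}
  add_mem' := fun ha hb x hx => by rw [map_add, ha x hx, hb x hx, add_zero]
  zero_mem' := fun x _ => map_zero _
  smul_mem' := fun c _ h x hx => by rw [map_smul, h x hx, smul_zero]

theorem Inv.rt (hB : ∀ g x y, B (ρ g x) (ρ g y) = B x y) (h : Inv ρ X) : Inv ρ (rt B X) :=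
  fun g y hy x hx => by rw [← hy _ (h g⁻¹ x hx), ← hB g (ρ g⁻¹ x)]; simp

variable [FiniteDimensional F V]

theorem split (hX : ND B X) (hZ : ND B Z) (h : X ≤ Z) :
    Disjoint X (Z ⊓ rt B X) ∧ X ⊔ Z ⊓ rt B X = Z ∧ ND B (Z ⊓ rt B X) := by
  have h1 : X ⊔ Z ⊓ rt B X = Z := le_antisymm (sup_le h inf_le_left) fun z hz => by
    let T : X →ₗ[F] Module.Dual F X := (B.domRestrict₁₂ X X).flip
    obtain ⟨x, hx⟩ := (injective_iff_surjective_of_finrank_eq_finrank (f := T) Subspace.dual_finrank_eq.symm).1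
      ((injective_iff_map_eq_zero T).2 fun y hy => Subtype.ext (hX y y.2 fun x hx =>
        LinearMap.congr_fun hy ⟨x, hx⟩)) ((B.flip z).domRestrict X)
    exact mem_sup.2 ⟨x, x.2, z - x, ⟨sub_mem hz (h x.2), fun y hy => by
      rw [map_sub, sub_eq_zero]; exact (LinearMap.congr_fun hx ⟨y, hy⟩).symm⟩, by simp⟩
  refine ⟨disjoint_def.2 fun x hx hx' => hX x hx hx'.2, h1, fun y hy e => hZ y hy.1 fun z hz => ?_⟩
  obtain ⟨a, ha, b, hb, rfl⟩ := mem_sup.1 (h1.ge hz)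
  rw [map_add, LinearMap.add_apply, hy.2 a ha, e b hb, add_zero]

variable [Finite G] [NeZero (Nat.card G : F)]

omit [FiniteDimensional F V] in
theorem maschke (hX : Inv ρ X) (hZ : Inv ρ Z) (h : X ≤ Z) :
    ∃ Y, Inv ρ Y ∧ Disjoint X Y ∧ X ⊔ Y = Z := by
  obtain ⟨C, hC⟩ := exists_isCompl (⟨X, fun g _ => hX g _⟩ : Subrepresentation ρ)
  have h1 : X ⊓ C.toSubmodule = ⊥ := congrArg Subrepresentation.toSubmodule hC.inf_eq_bot
  have h2 : X ⊔ C.toSubmodule = ⊤ := congrArg Subrepresentation.toSubmodule hC.sup_eq_top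
  exact ⟨C.toSubmodule ⊓ Z, Inv.inf (fun g _ h => C.2 g h) hZ, (disjoint_iff.2 h1).mono_right inf_le_left,
    by rw [← sup_inf_assoc_of_le _ h, h2, top_inf_eq]⟩

theorem dec (hB : ∀ g x y, B (ρ g x) (ρ g y) = B x y) (Z : Submodule F V) :
    Inv ρ Z → ND B Z → Dec ρ Z := by
  induction Z using WellFoundedLT.induction with | ind Z ih => ?_
  intro hI hZ
  have hS : ∀ g x y, (B + B.flip) (ρ g x) (ρ g y) = (B + B.flip) x y := fun g x y => by simp [hB]
  by_cases hR : Z ⊓ rt (B + B.flip) Z = ⊥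
  · have h1 : ND (B + B.flip) Z := fun y hy e => (mem_bot F).1 (hR.le ⟨hy, e⟩)
    by_cases h2 : (2 : F) = 0
    · refine dec_alt hI ⟨_, fun x _ y _ => ?_, fun _ x _ => ?_, fun g x _ y _ => hS g x y, h1⟩ <;>
        simp only [LinearMap.add_apply, LinearMap.BilinForm.flip_apply]
      · linear_combination (B x y + B y x) * h2
      · linear_combination (B x x) * h2
    · exact dec_sym hI ⟨_, fun x _ y _ => by simp [add_comm], False.elim, fun g x _ y _ => hS g x y, h1⟩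
        fun e => absurd e h2
  obtain ⟨X, ⟨x1, x2, x3⟩, x4⟩ := exists_minimal_of_wellFoundedLT
    (fun X => X ≠ ⊥ ∧ Inv ρ X ∧ X ≤ Z ⊓ rt (B + B.flip) Z) ⟨_, hR, hI.inf (hI.rt hS), le_rfl⟩
  have xZ : X ≤ Z := x3.trans inf_le_left
  have an : ∀ x ∈ X, ∀ z ∈ Z, B z x = -B x z := fun x hx z hz =>
    eq_neg_of_add_eq_zero_left ((x3 hx).2 z hz)
  have fin : ∀ X₁, X ≤ X₁ → X₁ ≤ Z → Inv ρ X₁ → ND B X₁ → Dec ρ X₁ → Dec ρ Z := fun X₁ h1 h2 h3 h4 h5 => by
    obtain ⟨k1, k2, k3⟩ := split h4 hZ h2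
    exact k2 ▸ h5.sup (ih _ (lt_of_le_of_ne inf_le_left fun e => x1 (eq_bot_iff.2 (h1.trans
      (k1.eq_bot_of_le (h2.trans e.ge)).le))) (hI.inf (h3.rt hB)) k3) k1
  by_cases h : X ⊓ rt B X = ⊥
  · have h1 : ND B X := fun y hy e => (mem_bot F).1 (h.le ⟨hy, e⟩)
    refine fin X le_rfl xZ x2 h1 ?_
    by_cases h2 : ∀ x ∈ X, B x x = 0
    · exact dec_alt x2 ⟨B, fun x hx y hy => by rw [an y hy x (xZ hx), neg_one_mul], fun _ => h2,
        fun g x _ y _ => hB g x y, h1⟩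
    push Not at h2
    obtain ⟨x, hx, hx'⟩ := h2
    have h2 : (2 : F) = 0 := (mul_eq_zero.1 (by linear_combination an x hx x (xZ hx))).resolve_right hx'
    let X₀ : Submodule F V :=
      { carrier := {x | x ∈ X ∧ B x x = 0}
        add_mem' := fun {a b} ha hb => ⟨add_mem ha.1 hb.1, by
          simp [ha.2, hb.2, an a ha.1 b (xZ hb.1)]⟩
        zero_mem' := ⟨zero_mem _, by simp⟩
        smul_mem' := fun c _ h => ⟨smul_mem _ _ h.1, by simp [h.2]⟩ }
    have h3 : X₀ = ⊥ := by_contra fun e => hx' (x4 ⟨e, fun g u hu => ⟨x2 g u hu.1, (hB g u u).trans hu.2⟩,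
      fun u hu => x3 hu.1⟩ (fun u hu => hu.1) hx).2
    refine dec_sym x2 ⟨B, fun x hx y hy => by
      linear_combination an y hy x (xZ hx) - B y x * h2, False.elim, fun g x _ y _ => hB g x y, h1⟩
      fun _ g w hw => sub_eq_zero.1 ((mem_bot F).1 (h3.le ⟨sub_mem (x2 g w hw) hw, ?_⟩))
    simp only [map_sub, LinearMap.sub_apply, hB, an w hw _ (xZ (x2 g w hw))]
    linear_combination B w w * h2
  have h1 : X ≤ rt B X := (x4 ⟨h, x2.inf (x2.rt hB), inf_le_left.trans x3⟩ inf_le_left).trans inf_le_right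
  obtain ⟨Y, y1, y2, y3⟩ := maschke (hI.inf (x2.rt hB)) hI inf_le_left
  have yZ : Y ≤ Z := y3 ▸ le_sup_right
  have k1 : ∀ y ∈ Y, (∀ x ∈ X, B x y = 0) → y = 0 := fun y hy e => disjoint_def.1 y2 y ⟨yZ hy, e⟩ hy
  have k2 : ∀ x ∈ X, (∀ y ∈ Y, B x y = 0) → x = 0 := fun x hx e => hZ x (xZ hx) fun z hz => by
    obtain ⟨a, ha, b, hb, rfl⟩ := mem_sup.1 (y3.ge hz)
    rw [an x hx _ hz, map_add, ha.2 x hx, e b hb, add_zero, neg_zero]
  obtain ⟨π, -, p1, p2⟩ := exists_proj (y2.mono_left (le_inf xZ h1))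
  have k : ∀ x ∈ X, ∀ y ∈ Y, ∀ x' ∈ X, ∀ y' ∈ Y, (B.compLeft π - (B.compLeft π).flip) (x + y) (x' + y') =
      B x y' - B x' y := fun x hx y hy x' hx' y' hy' => by
    simp [p1 x hx, p1 x' hx', p2 y hy, p2 y' hy', h1 hx x' hx', h1 hx' x hx]
  refine fin (X ⊔ Y) le_sup_left (sup_le xZ yZ) (x2.sup y1) ((forall_mem_sup _ _).2 fun x hx y hy e => ?_)
    (dec_alt (x2.sup y1) ⟨B.compLeft π - (B.compLeft π).flip, fun x _ y _ => by simp, fun _ x _ => by simp,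
      fun g => ?_, ?_⟩)
  · obtain rfl := k1 y hy fun u hu => by simpa [h1 hx u hu] using e u (mem_sup_left hu)
    rw [add_zero] at e ⊢
    exact k2 x hx fun y hy => by rw [← neg_eq_zero, ← an x hx y (yZ hy), e y (mem_sup_right hy)]
  · simp only [forall_mem_sup]
    intro u hu w hw u' hu' w' hw'
    rw [map_add (ρ g), map_add (ρ g), k _ (x2 g u hu) _ (y1 g w hw) _ (x2 g u' hu') _ (y1 g w' hw'),
      k u hu w hw u' hu' w' hw', hB, hB]
  · simp only [ND, forall_mem_sup]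
    intro u hu w hw h
    rw [k1 w hw fun x hx => by
        simpa using (k x hx 0 (zero_mem _) u hu w hw).symm.trans (h x hx 0 (zero_mem _)),
      k2 u hu fun x hx => by
        simpa using (k 0 (zero_mem _) x hx u hu w hw).symm.trans (h 0 (zero_mem _) x hx), add_zero]

end H25.SD
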