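import Mathlib

/-! Self-dual irreducible modules of abelian groups over finite fields. -/

set_option autoImplicit false

open Module

namespace H25.SD

variable {F K H V : Type*} [Field F] [Fintype F] [Field K] [Algebra F K] [Finite K] [CommGroup H]
  [Finite H] (π : MonoidAlgebra F H →ₐ[F] K) (hs : Function.Surjective π)
  (hi : Function.Injective ((π : MonoidAlgebra F H →* K).comp (MonoidAlgebra.of F H)))

include hs in
omit [Fintype F] [Finite K] [Finite H] in
theorem ind {P : K → Prop} (h1 : ∀ h, P (π (.of F H h))) (h2 : ∀ a b, P a → P b → P (a + b))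
    (h3 : ∀ (c : F) a, P a → P (c • a)) (x : K) : P x := by
  obtain ⟨a, rfl⟩ := hs x
  induction a using MonoidAlgebra.induction_on with
  | of h => exact h1 h
  | add a b ha hb => rw [map_add]; exact h2 _ _ ha hb
  | smul c a ha => rw [map_smul]; exact h3 _ _ ha

include hi in
omit [Fintype F] [Finite K] in
theorem card_dvd {m : ℕ} (h : ∀ g, π (.of F H g) ^ m = 1) : Nat.card H ∣ m := by
  have := isCyclic_of_injective_ringHom _ hi
  rw [← IsCyclic.exponent_eq_card]
  exact Monoid.exponent_dvd_of_forall_pow_eq_one fun g => hi (by rw [map_pow, map_one]; exact h g)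

include hs in
theorem exists_tau (B : LinearMap.BilinForm F K) (hB : B.Nondegenerate)
    (h : ∀ g x y, B (π (.of F H g) * x) (π (.of F H g) * y) = B x y) :
    ∃ m < finrank F K, ∀ g, π (.of F H g) ^ (Fintype.card F ^ m + 1) = 1 := by
  let τ := π.comp (MonoidAlgebra.mapDomainAlgHom F F (invMonoidHom : H →* H))
  have e : ∀ g, π (.of F H g) * τ (.of F H g) = 1 := fun g => by
    simp only [τ, AlgHom.comp_apply, ← map_mul]
    simp [MonoidAlgebra.single_mul_single, ← MonoidAlgebra.one_def]
  have k : ∀ a x y, B (π a * x) y = B x (τ a * y) := fun a x y => by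
    induction a using MonoidAlgebra.induction_on with
    | of g => rw [← h g x, ← mul_assoc, e, one_mul]
    | add a b ha hb => simp only [map_add, add_mul, LinearMap.add_apply, ha, hb]
    | smul c a ha => simp only [map_smul, smul_mul_assoc, LinearMap.smul_apply, ha]
  have k0 : ∀ a ∈ RingHom.ker π, τ a = 0 := fun a ha => hB.2 _ fun x => by
    simpa [show π a = 0 from ha] using (k a x 1).symm
  let σ : K →ₐ[F] K := (Ideal.Quotient.liftₐ _ τ k0).comp (Ideal.quotientKerAlgEquivOfSurjective hs).symm
  have hσ : ∀ a, σ (π a) = τ a := fun a => by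
    have : (Ideal.quotientKerAlgEquivOfSurjective hs).symm (π a) = Ideal.Quotient.mk _ a :=
      (AlgEquiv.symm_apply_eq _).2 rfl
    exact congrArg (Ideal.Quotient.liftₐ _ τ k0) this
  obtain ⟨m, hm⟩ := (FiniteField.bijective_frobeniusAlgHom_pow F K).2 σ
  refine ⟨m, m.2, fun g => ?_⟩
  rw [← e g, ← hσ, ← hm, pow_succ', AlgHom.coe_pow, FiniteField.coe_frobeniusAlgHom, pow_iterate]

include hs hi in
theorem main : (finrank F K = 1 → (∃ B : LinearMap.BilinForm F K, B.Nondegenerate ∧ ∀ g x y,
    B (π (.of F H g) * x) (π (.of F H g) * y) = B x y) → Nat.card H ≤ 2) ∧ (2 ≤ finrank F K →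
    ((∃ B : LinearMap.BilinForm F K, B.Nondegenerate ∧ ∀ g x y,
      B (π (.of F H g) * x) (π (.of F H g) * y) = B x y) ↔ (Even (finrank F K) ∧
        Nat.card H ∣ Fintype.card F ^ (finrank F K / 2) + 1))) := by
  refine ⟨fun h1 ⟨B, hB, h⟩ => ?_, fun h2 => ⟨fun ⟨B, hB, h⟩ => ?_, fun ⟨⟨m, hm⟩, h⟩ => ?_⟩⟩
  · obtain ⟨m, hm, e⟩ := exists_tau π hs B hB h
    obtain rfl : m = 0 := by omega
    exact Nat.le_of_dvd two_pos (card_dvd π hi e)
  · obtain ⟨m, hm, e⟩ := exists_tau π hs B hB h
    have h0 : m ≠ 0 := by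
      rintro rfl
      have : (⊤ : Submodule F K) ≤ Submodule.span F {1} := fun x _ => ind π hs (P := (· ∈ _))
        (fun g => by
          rcases sq_eq_one_iff.1 (e g) with h | h <;> rw [h]
          exacts [Submodule.mem_span_singleton_self _, neg_mem (Submodule.mem_span_singleton_self _)])
        (fun _ _ => add_mem) (fun _ _ => Submodule.smul_mem _ _) x
      have := Submodule.finrank_mono this
      rw [finrank_top, finrank_span_singleton one_ne_zero] at this
      omega
    have h3 : finrank F K ∣ m + m := by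
      rw [← FiniteField.orderOf_frobeniusAlgHom, orderOf_dvd_iff_pow_eq_one]
      refine AlgHom.ext (ind π hs (fun g => ?_) (fun a b ha hb => by rw [map_add, map_add, ha, hb])
        fun c a ha => by rw [map_smul, map_smul, ha])
      have := eq_inv_of_mul_eq_one_left ((pow_succ _ _).symm.trans (e g))
      rw [AlgHom.coe_pow, FiniteField.coe_frobeniusAlgHom, pow_iterate, AlgHom.one_apply]
      beta_reduce
      rw [pow_add, pow_mul, this, inv_pow, this, inv_inv]
    have h4 : finrank F K = m + m := by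
      obtain ⟨c, hc⟩ := h3
      have : c = 1 := by
        rcases c with _ | _ | c
        · omega
        · rfl
        · nlinarith
      rw [hc, this, mul_one]
    exact ⟨⟨m, h4⟩, by rw [h4, show (m + m) / 2 = m by omega]; exact card_dvd π hi e⟩
  · rw [hm, show (m + m) / 2 = m by omega] at h
    let σ := FiniteField.frobeniusAlgEquivOfAlgebraic F K ^ m
    have hT := traceForm_nondegenerate F K
    refine ⟨(Algebra.traceForm F K).compRight σ.toLinearMap, ⟨fun x hx => hT.1 x fun y => ?_,
      fun y hy => σ.injective ((hT.2 _ hy).trans (map_zero σ).symm)⟩, fun g x y => ?_⟩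
    · simpa using hx (σ.symm y)
    · have : π (.of F H g) * σ (π (.of F H g)) = 1 := by
        rw [AlgEquiv.coe_pow, FiniteField.coe_frobeniusAlgEquivOfAlgebraic_iterate, ← pow_succ', ← map_pow,
          ← map_pow, orderOf_dvd_iff_pow_eq_one.1 ((orderOf_dvd_natCard g).trans h), map_one, map_one]
      show Algebra.trace F K (_ * x * σ _) = Algebra.trace F K (x * σ _)
      rw [map_mul σ, mul_mul_mul_comm, this, one_mul]

omit [Finite H] in
theorem model [AddCommGroup V] [Module F V] [FiniteDimensional F V] [Nontrivial V]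
    (ρ : Representation F H V) (hirr : ∀ U : Submodule F V, (∀ h, ∀ u ∈ U, ρ h u ∈ U) → U = ⊥ ∨ U = ⊤) :
    ∃ (I : Ideal (MonoidAlgebra F H)) (_ : I.IsMaximal) (e : V ≃ₗ[F] MonoidAlgebra F H ⧸ I),
      ∀ g x, e (ρ g x) = Ideal.Quotient.mkₐ F I (.of F H g) * e x := by
  have : ρ.IsIrreducible := {
    exists_pair_ne := ⟨⊥, ⊤, fun e => bot_ne_top (congrArg Subrepresentation.toSubmodule e)⟩
    eq_bot_or_eq_top := fun U => (hirr U.1 fun g _ h => U.2 g h).imp Subrepresentation.ext
      Subrepresentation.ext }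
  obtain ⟨I, hI, ⟨e⟩⟩ := isSimpleModule_iff_quot_maximal.1
    (inferInstance : IsSimpleModule (MonoidAlgebra F H) ρ.asModule)
  exact ⟨I, hI, ρ.asModuleEquiv.symm.trans (e.restrictScalars F), fun g x => by
    simp only [LinearEquiv.trans_apply, Representation.asModuleEquiv_symm_map_rho,
      LinearEquiv.restrictScalars_apply, map_smul]
    rfl⟩

omit [Finite H] [Fintype F] in
theorem transport [AddCommGroup V] [Module F V] {ρ : Representation F H V} (e : V ≃ₗ[F] K) {f : H → K}
    (h : ∀ g x, e (ρ g x) = f g * e x) : (∃ B : LinearMap.BilinForm F V, B.Nondegenerate ∧ ∀ g x y,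
      B (ρ g x) (ρ g y) = B x y) ↔ ∃ B : LinearMap.BilinForm F K, B.Nondegenerate ∧ ∀ g x y,
        B (f g * x) (f g * y) = B x y := by
  refine ⟨fun ⟨B, hB, k⟩ => ⟨B.congr e, hB.congr e, fun g x y => ?_⟩, fun ⟨B, hB, k⟩ =>
    ⟨B.congr e.symm, hB.congr e.symm, fun g x y => by simp [h, k]⟩⟩
  obtain ⟨x, rfl⟩ := e.surjective x
  obtain ⟨y, rfl⟩ := e.surjective y
  simp [← h, k]

end H25.SD
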